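import Cfsg.Agent.BLD.Grd2

/-!
# The generalised root datum of a Moufang building

The root groups of a faithful Moufang action form a faithful generalised root datum; stabilisers
of chambers in unipotent groups; commuting root groups.
-/

set_option autoImplicit false
set_option linter.unusedSectionVars false
set_option linter.unusedVariables false

namespace Cfsg.Lib.BLD

open Cfsg.Lib.Chev

variable {ι A : Type} [Fintype ι] [DecidableEq ι] [DecidableEq A] {R : WeylData ι A}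

namespace Bld

variable {Γ Ch : Type*} [Group Γ] [MulAction Γ Ch] {B : Bld R Γ Ch}
  {Γ' Ch' : Type*} [Group Γ'] [MulAction Γ' Ch'] {B' : Bld R Γ' Ch'}

section Grd3
variable {r s : A} {u v w : R.W} {i j k : ι} {g : Γ} {J : Set ι}

/-- The generalised root datum of the root groups. -/
def RG.grd (hB : B.RG) : GRD (cox R) Γ where
  X := B.U
  Lifts := B.Lifts
  X_le := fun _ _ _ h => (show _ = _ from h) ▸ le_rfl
  comm := fun r hr s hs h1 h2 a ha b hb =>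
    hB.comm hr hs h1 (fun e => h2 ((opp_iff hr hs).2 e)) ha hb
  lifts_one := lifts_one_iff.2 (one_mem _)
  lifts_mul := Lifts.mul
  lifts_inv := Lifts.inv
  conj := fun hg _ ha => hg.conj_U.2 ha
  nontriv := fun i => hB.nontriv (R.smul_mem _ (R.simple_mem i))
  rank_one := fun i a ha h1 => hB.rank_one (R.s_smul_simple i ▸ ha) h1

theorem RG.grd_eq_1' : type_of% @RG.grd.eq_1 := @RG.grd.eq_1

theorem RG.grd_X (hB : B.RG) : hB.grd.X = B.U := rfl
theorem RG.grd_lifts (hB : B.RG) : hB.grd.Lifts g w ↔ B.Lifts g w := Iff.rfl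

theorem RG.grd_H (hB : B.RG) : hB.grd.H = B.H := by
  ext g
  exact lifts_one_iff

theorem Grd3.UH (hB : B.RG) : ∀ g ∈ hB.grd.U, g ∈ B.H → g = 1 := by
  refine hB.grd.comm.induction hB.grd.X_le (P := fun K => ∀ g ∈ K, g ∈ B.H → g = 1)
    (fun _ h _ => h) fun w i K _ _ hK ih g hg hH => ?_
  obtain ⟨u, hu, z, hz, rfl⟩ := hK g hg
  obtain ⟨l, hl⟩ := Rt1.exists_opp (R := R) i
  have hm := R.smul_mem w⁻¹ (R.simple_mem i)
  have e : w⁻¹ * R.s i * R.w0 Set.univ * R.s l = w⁻¹ * R.w0 Set.univ := by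
    rw [← hl]
    simp only [mul_assoc, inv_mul_cancel_left, R.s_mul_self, mul_one]
  have h1 : u • B.a (w⁻¹ * R.w0 Set.univ) = B.a (w⁻¹ * R.w0 Set.univ) :=
    span_fix (fun β hβ => (hf_mul_w0 hβ.1).2 (by rw [Hf, inv_inv]; exact hβ.2.2)) hu
  have h2 : z • B.a (w⁻¹ * R.w0 Set.univ) = B.a (w⁻¹ * R.w0 Set.univ) := by
    have := hH (w⁻¹ * R.w0 Set.univ)
    rw [mul_smul, ← eq_inv_smul_iff] at this
    rw [this, inv_smul_eq_iff, h1]
  obtain rfl : z = 1 := hB.semireg (r := w⁻¹ • R.simple i) (w := w⁻¹ * R.s i * R.w0 Set.univ) (j := l) hz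
    ((hf_mul_w0 hm).2 (hf_smul_simple w⁻¹ i).2)
    (by rw [e, hf_mul_w0 hm, not_not]; exact (hf_smul_simple w⁻¹ i).1)
    (by rw [B.δ_a, ← e, inv_mul_cancel_left]) h2
  exact ih _ (by simpa using hu) hH

theorem RG.faithful (hB : B.RG) : hB.grd.Faithful where
  UV g hU hV := Grd3.UH hB g hU (mem_H_of (v := 1) (span_fix (fun β hβ => hf_one.2 hβ.2) hU)
    (span_fix (fun β hβ => (hf_mul_w0 hβ.1).2 fun h => hβ.2 (hf_one.1 h)) hV))
  UH g hU hH := Grd3.UH hB g hU (hB.grd_H ▸ hH)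

theorem RG.eq_one_of_span (hB : B.RG) {T : Set A} (hT : ∀ β ∈ T, Hf R β u) (hg : g ∈ spanX B.U T)
    (h : g ∈ B.H) : g = 1 := by
  obtain ⟨m, hm⟩ := B.exists_lifts u⁻¹
  have h1 : m * g * m⁻¹ ∈ hB.grd.U :=
    GRD.conj_span (Y := hB.grd) hm
      (fun r hr => ⟨(hT r hr).mem, WeylData.Pos.mem (hT r hr), hT r hr⟩) hg
  have h2 := hB.faithful.UH _ h1 (GRD.conj_H (Y := hB.grd) hm (hB.grd_H ▸ h))
  simpa using h2

theorem RG.span_inj (hB : B.RG) {T : Set A} (hT : ∀ β ∈ T, R.InJ J β ∧ Hf R β u)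
    (hg : g ∈ spanX B.U T) (h : ∀ w ∈ R.WJ J, g • B.a w = B.a w) : g = 1 :=
  hB.eq_one_of_span (fun β hβ => (hT β hβ).2) hg
    (mem_H_of_lev (span_le_Lev (fun β hβ => (hT β hβ).1) hg) h)

theorem RG.stab_span (hB : B.RG) (hw : w ∈ R.WJ J) (hg : g ∈ spanX B.U {β | R.Pos β ∧ R.InJ J β})
    (h : g • B.a w = B.a w) : g ∈ spanX B.U {β | R.Pos β ∧ R.InJ J β ∧ Hf R β w} := by
  obtain ⟨y, hy, e⟩ := hB.factor h (R.w0 J)
  have hy' : y ∈ spanX B.U {β | R.Pos β ∧ R.InJ J β ∧ Hf R β w} := by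
    refine spanX_mono _ (fun β hβ => ?_) hy
    have hJ := inJ_of_sep hw (R.w0_mem J) hβ.1 hβ.2
    refine ⟨by_contra fun hn => hβ.2 ?_, hJ, hβ.1⟩
    rw [Hf, R.w0_inv]
    exact (R.pos_w0_smul_iff hJ).2 hn
  have h1 : y⁻¹ * g ∈ spanX B.U {β | R.Pos β ∧ R.InJ J β} :=
    mul_mem (inv_mem (spanX_mono _ (fun β hβ => And.intro hβ.1 hβ.2.1) hy')) hg
  have h2 : y⁻¹ * g = 1 := by
    refine hB.span_inj (J := J) (u := 1) (fun β hβ => ⟨hβ.2, hf_one.2 hβ.1⟩) h1 fun t ht => ?_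
    refine fix_conv (u := 1) (v := R.w0 J) (fun r h3 h4 => ?_)
      (span_fix (fun β hβ => hf_one.2 hβ.1) h1) (by rw [mul_smul, e, inv_smul_smul])
    rw [hf_one] at h3
    rw [Hf, R.w0_inv] at h4
    exact R.pos_smul_of_not_inJ (inv_mem ht) h3 fun hJ => (R.pos_w0_smul_iff hJ).1 h4 h3
  rwa [← inv_mul_eq_one.1 h2]

theorem RG.commute_of_cone (hB : B.RG) (hr : r ∈ R.Φ) (hs : s ∈ R.Φ) (h1 : r ≠ s) (h2 : s ≠ R.neg r)
    (h : (cox R).cone r s = ∅) {a b : Γ} (ha : a ∈ B.U r) (hb : b ∈ B.U s) : Commute a b := by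
  have := hB.comm hr hs h1 h2 ha hb
  rw [h, spanX_empty, Subgroup.mem_bot] at this
  calc a * b = b * a * (a⁻¹ * b⁻¹ * a * b) := by group
    _ = b * a := by rw [this, mul_one]

theorem RG.commute_C0 (hB : B.RG) (h : R.C i k = 0) {a b : Γ}
    (ha : a ∈ B.U (R.simple i) ⊔ B.U (R.neg (R.simple i)))
    (hb : b ∈ B.U (R.simple k) ⊔ B.U (R.neg (R.simple k))) : Commute a b := by
  have hik : i ≠ k := fun e => by simp [e, R.C_diag] at h
  have hI : ∀ {l : ι} {r : A}, r = R.simple l ∨ r = R.neg (R.simple l) → R.InJ {l} r := by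
    rintro l r (rfl | rfl)
    · exact R.inJ_simple_iff.2 rfl
    · exact R.inJ_neg (R.inJ_simple_iff.2 rfl)
  have hN : ∀ {r : A}, r = R.simple k ∨ r = R.neg (R.simple k) → ¬ R.InJ {i} r := by
    rintro r (rfl | rfl) e
    · exact hik (R.inJ_simple_iff.1 e).symm
    · have := R.inJ_neg e
      rw [R.neg_neg (R.simple_mem k)] at this
      exact hik (R.inJ_simple_iff.1 this).symm
  have key : ∀ {r s : A}, r = R.simple i ∨ r = R.neg (R.simple i) →
      s = R.simple k ∨ s = R.neg (R.simple k) → B.U s ≤ Subgroup.centralizer (B.U r : Set Γ) :=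
    fun hr hs b hb a ha => hB.commute_of_cone (hI hr).1 (hI hs).1 (fun e => hN hs (e ▸ hI hr))
      (fun e => hN hs (e ▸ R.inJ_neg (hI hr))) (cone_C0 h hr hs) ha hb
  have key2 : ∀ {r : A}, r = R.simple i ∨ r = R.neg (R.simple i) →
      B.U r ≤ Subgroup.centralizer {b} := fun hr a ha => by
    rw [Subgroup.mem_centralizer_singleton_iff]
    exact sup_le (key hr (Or.inl rfl)) (key hr (Or.inr rfl)) hb a ha
  exact Subgroup.mem_centralizer_singleton_iff.1 (sup_le (key2 (Or.inl rfl)) (key2 (Or.inr rfl)) ha)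

theorem RG.exists_n (hB : B.RG) (i : ι) :
    ∃ m ∈ B.U (R.simple i) ⊔ B.U (R.neg (R.simple i)), B.Lifts m (R.s i) := by
  obtain ⟨m, hm, h⟩ := hB.grd.exists_n i
  exact ⟨m, R.s_smul_simple i ▸ hm, h⟩

end Grd3

end Bld

end Cfsg.Lib.BLD
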