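import Cfsg.Agent.BLD.Defs
import Cfsg.Agent.Chev.LaceSL

/-!
# Steinberg relations for the elations of a triangle in a finite Moufang plane
-/

set_option autoImplicit false
set_option linter.unusedSectionVars false
set_option linter.unusedVariables false

namespace Cfsg.Lib.BLD

open Cfsg.Lib.Chev Cfsg.Lib.Perm.Plane Configuration

namespace Pl4

open Matrix

section geom

variable {P L : Type*} [Membership P L] [ProjectivePlane P L] [Finite P] [Finite L]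

theorem fix_off {f : P → P} {c x₀ : P} {l : L} (hcol : ∀ k : L, ∃ k' : L, ∀ x ∈ k, f x ∈ k')
    (hl : ∀ x ∈ l, f x = x) (hc : ∀ m : L, c ∈ m → ∀ x ∈ m, f x ∈ m)
    (h₀ : x₀ ∉ l) (hf : f x₀ = x₀) {x : P} (hx : ∀ m : L, c ∈ m → x₀ ∈ m → x ∉ m) : f x = x := by
  obtain ⟨k, hk1, hk2⟩ := exists_join L x x₀
  obtain ⟨m, hm1, hm2⟩ := exists_join L c x
  obtain ⟨z, hz1, hz2⟩ := exists_meet (P := P) k l
  obtain ⟨k', hk'⟩ := hcol k
  have hne : x₀ ≠ z := fun h => h₀ (h ▸ hz2)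
  have e : k' = k := lu hne (hf ▸ hk' _ hk2) (hl z hz2 ▸ hk' _ hz1) hk2 hz1
  have hkm : k ≠ m := fun h => hx m hm1 (h ▸ hk2) hm2
  exact pu hkm (e ▸ hk' _ hk1) (hc m hm1 x hm2) hk1 hm2

theorem fix_all {f : P → P} {c x₀ : P} {l : L} (hcol : ∀ k : L, ∃ k' : L, ∀ x ∈ k, f x ∈ k')
    (hl : ∀ x ∈ l, f x = x) (hc : ∀ m : L, c ∈ m → ∀ x ∈ m, f x ∈ m) (hcl : c ∈ l)
    (h₀ : x₀ ∉ l) (hf : f x₀ = x₀) (x : P) : f x = x := by
  by_cases hxl : x ∈ l
  · exact hl x hxl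
  obtain ⟨m₀, hm1, hm2⟩ := exists_join L c x₀
  have hc0 : c ≠ x₀ := fun h => h₀ (h ▸ hcl)
  by_cases hx : x ∈ m₀
  · obtain ⟨x₁, h1, h2⟩ := exists_not_mem_two (P := P) l m₀
    have h3 : f x₁ = x₁ := fix_off hcol hl hc h₀ hf fun m a b d => h2 (lu hc0 a b hm1 hm2 ▸ d)
    refine fix_off hcol hl hc h1 h3 fun m a b d => h2 ?_
    have hcx : c ≠ x := fun h => hxl (h ▸ hcl)
    exact lu hcx a d hm1 hx ▸ b
  · exact fix_off hcol hl hc h₀ hf fun m a b d => hx (lu hc0 a b hm1 hm2 ▸ d)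

end geom

/-- Homogeneous coordinates. -/
structure Co (F : Type) [Field F] (P L : Type*) [Membership P L] where
  pt : (Fin 3 → F) → P
  surj : ∀ x, ∃ u, u ≠ 0 ∧ pt u = x
  eq_iff : ∀ u w, u ≠ 0 → w ≠ 0 → (pt u = pt w ↔ ∃ a : F, a • w = u)
  ln : ∀ m : L, ∃ W : Submodule F (Fin 3 → F), Module.finrank F W = 2 ∧
    ∀ u, u ≠ 0 → (pt u ∈ m ↔ u ∈ W)
  nl : ∀ W : Submodule F (Fin 3 → F), Module.finrank F W = 2 →
    ∃ m : L, ∀ u, u ≠ 0 → (pt u ∈ m ↔ u ∈ W)

variable {F : Type} [Field F] {P L : Type*} [Membership P L]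

theorem sgl_ne (a : Fin 3) : (Pi.single a 1 : Fin 3 → F) ≠ 0 := fun h => by
  simpa using congrFun h a

theorem slE_mulVec {a b : Fin 3} (h : a ≠ b) (t : F) (u : Fin 3 → F) :
    slE a b t • u = u + (t * u b) • Pi.single a 1 := by
  change (slE a b t).1 *ᵥ u = _
  rw [coe_slE h, add_mulVec, one_mulVec, single_mulVec]
  congr 1
  ext i
  by_cases hi : i = a
  · subst hi; simp
  · simp [hi]

theorem mulVec_ne (M : SpecialLinearGroup (Fin 3) F) {u : Fin 3 → F} (hu : u ≠ 0) :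
    M • u ≠ 0 := fun h => hu (by
  rw [← inv_smul_smul M u, h]
  exact mulVec_zero _)

theorem smul_smul' (M : SpecialLinearGroup (Fin 3) F) (s : F) (u : Fin 3 → F) :
    M • s • u = s • M • u := mulVec_smul _ _ _

namespace Co

variable (C : Co F P L)

/-- Change of coordinates. -/
def chg (E : (Fin 3 → F) ≃ₗ[F] (Fin 3 → F)) : Co F P L where
  pt u := C.pt (E u)
  surj x := by
    obtain ⟨u, hu, rfl⟩ := C.surj x
    exact ⟨E.symm u, by simpa using hu, by simp⟩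
  eq_iff u w hu hw := by
    rw [C.eq_iff _ _ (by simpa using hu) (by simpa using hw)]
    exact exists_congr fun a => by rw [← map_smul, E.injective.eq_iff]
  ln m := by
    obtain ⟨W, hW, h⟩ := C.ln m
    refine ⟨W.map (E.symm : (Fin 3 → F) →ₗ[F] (Fin 3 → F)), by rw [LinearEquiv.finrank_map_eq, hW],
      fun u hu => ?_⟩
    rw [h _ (by simpa using hu), Submodule.mem_map_equiv, LinearEquiv.symm_symm]
  nl W hW := by
    obtain ⟨m, h⟩ := C.nl (W.map (E : (Fin 3 → F) →ₗ[F] (Fin 3 → F)))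
      (by rw [LinearEquiv.finrank_map_eq, hW])
    refine ⟨m, fun u hu => ?_⟩
    rw [h _ (by simpa using hu), Submodule.mem_map_equiv, LinearEquiv.symm_apply_apply]

theorem chg_eq_1' : type_of% @chg.eq_1 := @chg.eq_1

theorem pt_smul {a : F} (ha : a ≠ 0) {u : Fin 3 → F} (hu : u ≠ 0) : C.pt (a • u) = C.pt u :=
  (C.eq_iff _ _ (smul_ne_zero ha hu) hu).2 ⟨a, rfl⟩

include C in
theorem exists_std (p : Fin 3 → P) (l : Fin 3 → L) (h : ∀ a b, p a ∈ l b ↔ a ≠ b) :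
    ∃ C' : Co F P L, ∀ a, C'.pt (Pi.single a 1) = p a := by
  choose v hv0 hv using fun a => C.surj (p a)
  have hli : LinearIndependent F v := by
    rw [Fintype.linearIndependent_iff]
    intro c hc b
    by_contra hb
    obtain ⟨W, -, hW⟩ := C.ln (l b)
    have h1 : ∀ a, v a ∈ W ↔ a ≠ b := fun a => by rw [← hW _ (hv0 a), hv, h]
    rw [← Finset.add_sum_erase _ _ (Finset.mem_univ b)] at hc
    have h2 : c b • v b ∈ W := by
      rw [eq_neg_of_add_eq_zero_left hc]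
      exact W.neg_mem (W.sum_mem fun a ha => W.smul_mem _ ((h1 a).2 (Finset.ne_of_mem_erase ha)))
    exact (h1 b).1 ((W.smul_mem_iff hb).1 h2) rfl
  let B := basisOfLinearIndependentOfCardEqFinrank hli (by simp)
  refine ⟨C.chg B.equivFun.symm, fun a => ?_⟩
  change C.pt (B.equivFun.symm (Pi.single a 1)) = p a
  rw [Module.Basis.equivFun_symm_apply, ← hv]
  congr 1
  simp [Pi.single_apply, B]

theorem mem_iff {p : Fin 3 → P} {l : Fin 3 → L} (h : ∀ a b, p a ∈ l b ↔ a ≠ b)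
    (hp : ∀ a, C.pt (Pi.single a 1) = p a) (b : Fin 3) {u : Fin 3 → F} (hu : u ≠ 0) :
    C.pt u ∈ l b ↔ u b = 0 := by
  obtain ⟨W, -, hW⟩ := C.ln (l b)
  have h1 : ∀ a, Pi.single a 1 ∈ W ↔ a ≠ b := fun a => by rw [← hW _ (sgl_ne a), hp, h]
  have h2 : u = u b • Pi.single b 1 + ∑ a ∈ Finset.univ.erase b, u a • Pi.single a 1 := by
    rw [Finset.add_sum_erase _ (fun a => u a • (Pi.single a 1 : Fin 3 → F)) (Finset.mem_univ b)]
    exact pi_eq_sum_univ' u
  have h3 : ∑ a ∈ Finset.univ.erase b, u a • (Pi.single a 1 : Fin 3 → F) ∈ W :=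
    W.sum_mem fun a ha => W.smul_mem _ ((h1 a).2 (Finset.ne_of_mem_erase ha))
  rw [hW _ hu]
  constructor
  · intro h4
    by_contra hb
    rw [h2, W.add_mem_iff_left h3, W.smul_mem_iff hb] at h4
    exact (h1 b).1 h4 rfl
  · intro h4
    rw [h2, h4, zero_smul, zero_add]
    exact h3

variable {G : Type*} [Group G] [MulAction G P] [MulAction G L]

/-- `g` acts as the matrix `M`. -/
def Act (g : G) (M : SpecialLinearGroup (Fin 3) F) : Prop :=
  ∀ u, u ≠ 0 → g • C.pt u = C.pt (M • u)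

theorem Act_eq_1' : type_of% @Act.eq_1 := @Act.eq_1

variable {C}

theorem Act.mul {g g' : G} {M M' : SpecialLinearGroup (Fin 3) F} (h : C.Act g M)
    (h' : C.Act g' M') : C.Act (g * g') (M * M') := fun u hu => by
  rw [mul_smul, h' u hu, h _ (mulVec_ne _ hu), mul_smul]

variable [CG G P L]

theorem Act.unique {g g' : G} {M : SpecialLinearGroup (Fin 3) F} (h : C.Act g M)
    (h' : C.Act g' M) : g = g' := by
  rw [← inv_mul_eq_one]
  refine CG.faithful (P := P) (L := L) _ fun x => ?_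
  obtain ⟨u, hu, rfl⟩ := C.surj x
  rw [mul_smul, h' u hu, ← h u hu, inv_smul_smul]

variable [ProjectivePlane P L] [Finite P] [Finite L]

theorem third {a b : Fin 3} (hab : a ≠ b) :
    ∃ c : Fin 3, a ≠ c ∧ b ≠ c ∧ ∀ d, d = a ∨ d = b ∨ d = c := by
  revert a b; decide

theorem exists_act (hM : IsMoufang G P L) {p : Fin 3 → P} {l : Fin 3 → L}
    (h : ∀ a b, p a ∈ l b ↔ a ≠ b) (hp : ∀ a, C.pt (Pi.single a 1) = p a) {a b : Fin 3}
    (hab : a ≠ b) (t : F) : ∃ g ∈ persp G (p a) (l b), C.Act g (slE a b t) := by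
  obtain ⟨c, hac, hbc, -⟩ := third hab
  have h0 := mulVec_ne (slE a b t) (sgl_ne b)
  obtain ⟨g, hg, hgx⟩ := hM (l b) (l c) (p a) (p b) (C.pt (slE a b t • (Pi.single b 1 : Fin 3 → F)))
    ((h a b).2 hab) ((h a c).2 hac) ((h b c).2 hbc)
    (by rw [C.mem_iff h hp c h0, slE_mulVec hab]; simp [hac.symm, hbc.symm])
    (fun h' => (h b b).1 h' rfl)
    (by rw [C.mem_iff h hp b h0, slE_mulVec hab]; simp [hab.symm])
  refine ⟨g, hg, ?_⟩
  choose v hv0 hv using C.surj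
  have key : ∀ u, u ≠ 0 → C.pt (slE a b t • v (C.pt u)) = C.pt (slE a b t • u) := by
    intro u hu
    obtain ⟨s, hs⟩ := (C.eq_iff _ _ (hv0 _) hu).1 (hv (C.pt u))
    have hs0 : s ≠ 0 := by rintro rfl; exact hv0 _ (by rw [← hs, zero_smul])
    rw [← hs, smul_smul', C.pt_smul hs0 (mulVec_ne _ hu)]
  obtain ⟨hg1, hg2⟩ := mem_persp.1 hg
  have := fix_all (f := fun x => g⁻¹ • C.pt (slE a b t • v x)) (c := p a) (x₀ := p b)
    (l := l b) ?_ ?_ ?_ ((h a b).2 hab) (fun h' => (h b b).1 h' rfl) ?_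
  · intro u hu
    have h1 := this (C.pt u)
    rw [key u hu, inv_smul_eq_iff] at h1
    exact h1.symm
  · intro k
    obtain ⟨W, hW, hk⟩ := C.ln k
    obtain ⟨m, hm⟩ := C.nl (W.map (SpecialLinearGroup.toLin' (slE a b t) :
      (Fin 3 → F) →ₗ[F] (Fin 3 → F))) (by rw [LinearEquiv.finrank_map_eq, hW])
    refine ⟨g⁻¹ • m, fun x hx => smul_mem _ ((hm _ (mulVec_ne _ (hv0 x))).2 ?_)⟩
    exact ⟨v x, (hk _ (hv0 x)).1 (by rwa [hv]), rfl⟩
  · intro x hx
    have h1 : v x b = 0 := (C.mem_iff h hp b (hv0 x)).1 (by rwa [hv])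
    rw [slE_mulVec hab, h1, mul_zero, zero_smul, add_zero, hv, inv_smul_eq_iff, mem_axis.1 hg2 x hx]
  · intro m hm x hx
    obtain ⟨W, -, hk⟩ := C.ln m
    refine smul_mem_of_fix (mem_centre.1 (inv_mem hg1) m hm) ((hk _ (mulVec_ne _ (hv0 x))).2 ?_)
    rw [slE_mulVec hab]
    exact W.add_mem ((hk _ (hv0 x)).1 (by rwa [hv]))
      (W.smul_mem _ ((hk _ (sgl_ne a)).1 (by rwa [hp])))
  · rw [← hp b, key _ (sgl_ne b), ← hgx, inv_smul_smul, hp]

theorem pt_inj {a b : Fin 3} (hab : a ≠ b) {s t : F}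
    (h : C.pt (slE a b s • (Pi.single b 1 : Fin 3 → F)) = C.pt (slE a b t • (Pi.single b 1 : Fin 3 → F))) : s = t := by
  obtain ⟨c, hc⟩ := (C.eq_iff _ _ (mulVec_ne _ (sgl_ne b)) (mulVec_ne _ (sgl_ne b))).1 h
  rw [slE_mulVec hab, slE_mulVec hab] at hc
  have h1 := congrFun hc a
  have h2 := congrFun hc b
  simp [hab, hab.symm] at h1 h2
  rw [← h1, h2, one_mul]

theorem pt_surj {p : Fin 3 → P} {l : Fin 3 → L} (h : ∀ a b, p a ∈ l b ↔ a ≠ b)
    (hp : ∀ a, C.pt (Pi.single a 1) = p a) {a b c : Fin 3} (hab : a ≠ b) (hac : a ≠ c)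
    (hbc : b ≠ c) (hd : ∀ d, d = a ∨ d = b ∨ d = c) {x : P} (hx : x ∈ l c) (hx' : x ∉ l b) :
    ∃ t : F, C.pt (slE a b t • (Pi.single b 1 : Fin 3 → F)) = x := by
  obtain ⟨u, hu, rfl⟩ := C.surj x
  rw [C.mem_iff h hp _ hu] at hx hx'
  refine ⟨u a / u b, ?_⟩
  rw [← C.pt_smul hx' (mulVec_ne _ (sgl_ne b)), slE_mulVec hab]
  congr 1
  ext d
  rcases hd d with rfl | rfl | rfl
  · simp [hab]; field_simp
  · simp [hab.symm]
  · simp [hac.symm, hbc.symm, hx]

end Co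

theorem exists_co {G : Type*} [Group G] [MulAction G P] [MulAction G L] [CG G P L]
    [ProjectivePlane P L] [Finite P] [Finite L] (hM : IsMoufang G P L) :
    ∃ (F : Type) (_ : Field F) (_ : Finite F), Nonempty (Co F P L) := by
  classical
  obtain ⟨F, _, _, φ, h1, h2⟩ := hM.desarguesian
  have key : ∀ (u : Fin 3 → F) (hu : u ≠ 0) (W : Submodule F (Fin 3 → F)),
      (Projectivization.mk F u hu).submodule ≤ W ↔ u ∈ W := fun u hu W => by
    rw [Projectivization.submodule_mk, Submodule.span_singleton_le_iff_mem]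
  refine ⟨F, inferInstance, inferInstance, ⟨⟨fun u => φ.symm (if hu : u ≠ 0 then
    Projectivization.mk F u hu else Projectivization.mk F _ (sgl_ne 0)), fun x => ?_,
    fun u w hu hw => ?_, fun m => ?_, fun W hW => ?_⟩⟩⟩
  · refine ⟨(φ x).rep, (φ x).rep_nonzero, ?_⟩
    rw [dif_pos (φ x).rep_nonzero, Projectivization.mk_rep, Equiv.symm_apply_apply]
  · rw [dif_pos hu, dif_pos hw, φ.symm.injective.eq_iff, Projectivization.mk_eq_mk_iff']
  · obtain ⟨W, hW, h⟩ := h1 m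
    exact ⟨W, hW, fun u hu => by rw [h, dif_pos hu, Equiv.apply_symm_apply, key]⟩
  · obtain ⟨m, h⟩ := h2 W hW
    exact ⟨m, fun u hu => by rw [h, dif_pos hu, Equiv.apply_symm_apply, key]⟩

end Pl4

section PlP
variable {G P L : Type*} [Group G] [Membership P L] [MulAction G P] [MulAction G L] [CG G P L]
  [ProjectivePlane P L] [Finite P] [Finite L] [Finite G]

open Pl4 Matrix in
theorem exists_stA (hM : IsMoufang G P L) (p : Fin 3 → P) (l : Fin 3 → L)
    (h : ∀ a b, p a ∈ l b ↔ a ≠ b) : ∃ (F : Type) (_ : Field F) (_ : Finite F)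
    (e : Fin 3 → Fin 3 → F → G), Nat.card F = ProjectivePlane.order P L ∧ StA e ∧
    ∀ a b, a ≠ b → (∀ t, e a b t ∈ persp G (p a) (l b)) ∧ (∀ t, e a b t = 1 → t = 0) ∧
      (∀ g ∈ persp G (p a) (l b), ∃ t, e a b t = g) ∧
      ∀ t, t ≠ 0 → stW e a b t • p a = p b ∧ stW e a b t • p b = p a := by
  obtain ⟨F, _, _, ⟨C₀⟩⟩ := exists_co hM
  obtain ⟨C, hp⟩ := C₀.exists_std p l h
  have key : ∀ (a b : Fin 3) (t : F), ∃ g : G,
      a ≠ b → g ∈ persp G (p a) (l b) ∧ C.Act g (slE a b t) := by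
    intro a b t
    by_cases hab : a ≠ b
    · obtain ⟨g, hg⟩ := Co.exists_act hM h hp hab t
      exact ⟨g, fun _ => hg⟩
    · exact ⟨1, fun h' => absurd h' hab⟩
  choose e he using key
  refine ⟨F, inferInstance, inferInstance, e, ?_, ⟨fun a b hab t u => ?_,
    fun a b c h1 h2 h3 t u => ?_, fun a b c d h1 h2 h3 h4 t u => ?_⟩,
    fun a b hab => ⟨fun t => (he a b t hab).1, fun t ht => ?_, fun g hg => ?_, fun t ht => ?_⟩⟩
  · have h01 : (0 : Fin 3) ≠ 1 := by decide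
    rw [← ncard_pts_ne ((h 0 2).2 (by decide)), ← Set.ncard_range_of_injective
      (f := fun t : F => C.pt (slE 0 1 t • (Pi.single 1 1 : Fin 3 → F))) fun s t hst => Co.pt_inj h01 hst]
    congr 1
    ext x
    constructor
    · rintro ⟨t, rfl⟩
      have h0 := mulVec_ne (slE 0 1 t) (sgl_ne 1)
      refine ⟨by rw [C.mem_iff h hp 2 h0, slE_mulVec h01]; simp, fun h' => ?_⟩
      have h2 := (h 0 1).2 h01
      rw [← h', C.mem_iff h hp 1 h0, slE_mulVec h01] at h2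
      simp at h2
    · rintro ⟨h1, h2⟩
      refine Co.pt_surj h hp h01 (by decide) (by decide) (by decide) h1 fun h3 => h2 ?_
      refine pu (l := l 1) (m := l 2) (fun h4 => ?_) h3 h1 ((h 0 1).2 h01) ((h 0 2).2 (by decide))
      exact (h 1 1).1 (h4 ▸ (h 1 2).2 (by decide)) rfl
  · exact ((he a b t hab).2.mul (he a b u hab).2).unique
      (stA_slE.add a b hab t u ▸ (he a b _ hab).2)
  · exact ((he a b t h1).2.mul (he b c u h2).2).unique
      (stA_slE.comm a b c h1 h2 h3 t u ▸ ((he a c _ h3).2.mul (he b c u h2).2).mul (he a b t h1).2)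
  · exact ((he a b t h1).2.mul (he c d u h2).2).unique
      ((stA_slE.commute a b c d h1 h2 h3 h4 t u).eq ▸ (he c d u h2).2.mul (he a b t h1).2)
  · have h1 := (he a b t hab).2 _ (sgl_ne b)
    rw [ht, one_smul] at h1
    refine Co.pt_inj (C := C) hab (h1.symm.trans ?_)
    rw [slE_mulVec hab, zero_mul, zero_smul, add_zero]
  · obtain ⟨c, hac, hbc, hd⟩ := Co.third hab
    have hb : p b ∉ l b := fun h' => (h b b).1 h' rfl
    obtain ⟨hg1, hg2⟩ := mem_persp.1 hg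
    obtain ⟨t, ht⟩ := Co.pt_surj h hp hab hac hbc hd
      (smul_mem_of_centre hg1 ((h a c).2 hac) ((h b c).2 hbc))
      (smul_not_mem_of_fix (axis_fix hg2) hb)
    refine ⟨t, ?_⟩
    obtain ⟨h1, h2⟩ := mem_persp.1 (mul_mem (inv_mem (he a b t hab).1) hg)
    refine inv_mul_eq_one.1 (elation_free ((h a b).2 hab) h1 h2 hb ?_)
    rw [mul_smul, ← ht, ← (he a b t hab).2 _ (sgl_ne b), inv_smul_smul, hp]
  · have h1 := ((he a b t hab).2.mul (he b a (-t⁻¹) hab.symm).2).mul (he a b t hab).2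
    rw [stW, ← hp a, ← hp b, h1 _ (sgl_ne a), h1 _ (sgl_ne b)]
    simp only [mul_smul, slE_mulVec hab, slE_mulVec hab.symm]
    constructor
    · rw [← C.pt_smul (neg_ne_zero.2 (inv_ne_zero ht)) (sgl_ne b)]
      congr 1
      ext d
      simp [hab, hab.symm, ht]
    · rw [← C.pt_smul ht (sgl_ne a)]
      congr 1
      ext d
      simp [hab, hab.symm, ht]

end PlP

end Cfsg.Lib.BLD
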