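import Cfsg.Agent.BLD.Rt1

/-! # Rank two parabolic subgroups of type `A₁ × A₁`, `A₂`, `B₂` -/

set_option autoImplicit false
set_option linter.unusedSectionVars false

namespace Cfsg.Lib.BLD

open Cfsg.Lib.Chev

variable {ι A : Type} [Fintype ι] [DecidableEq ι] [DecidableEq A] {R : WeylData ι A}

namespace Rt2

variable {i j k : ι} {r : A}

theorem rc_s (i : ι) (hr : r ∈ R.Φ) : R.rc (R.s i • r) = R.sl i (R.rc r) := by
  rw [R.s_smul i hr, R.rc_σ' i hr]

theorem rc_s_simple (i j : ι) :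
    R.rc (R.s i • R.simple j) = Pi.single j 1 - R.C i j • Pi.single i 1 := by
  rw [rc_s i (R.simple_mem j), R.rc_simple, R.sl_apply, R.a_single]

theorem rc_s_s_simple (i j : ι) : R.rc (R.s i • R.s j • R.simple i) =
    (R.C i j * R.C j i - 1) • Pi.single i 1 - R.C j i • Pi.single j 1 := by
  rw [rc_s i (R.smul_mem _ (R.simple_mem i)), rc_s_simple, map_sub, map_smul, R.sl_single,
    R.sl_apply, R.a_single]
  module

theorem s_s_smul (i : ι) (r : A) : R.s i • R.s i • r = r := by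
  rw [← mul_smul, R.s_mul_self, one_smul]

theorem pos_s_simple (h : i ≠ j) : R.Pos (R.s i • R.simple j) :=
  R.pos_s_smul (R.pos_simple j) fun e => h (R.simple_injective e).symm

theorem len_two (h : i ≠ j) : R.len (R.s i * R.s j) = 2 := by
  rw [R.len_mul_s_of_pos (pos_s_simple h), R.len_s]

theorem ne_one_of_len {w : R.W} {n : ℕ} (h : R.len w = n + 1) : w ≠ 1 := by
  rintro rfl
  simp at h

theorem not_pos_mul_s {w : R.W} (h : R.Pos (w • R.simple i)) :
    ¬ R.Pos ((w * R.s i) • R.simple i) := by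
  rw [mul_smul, R.s_smul_simple, R.smul_neg _ (R.simple_mem i), R.pos_neg_iff h.mem, not_not]
  exact h

theorem ne_neg {r s : A} (hr : R.Pos r) (hs : R.Pos s) : s ≠ R.neg r := by
  rintro rfl
  exact (R.pos_neg_iff hr.mem).1 hs hr

end Rt2

open Rt2

section Rt2
variable {i j k : ι} {r : A} {w : R.W}

theorem s_comm_of_C0 (h : R.C i j = 0) : R.s i * R.s j = R.s j * R.s i :=
  R.mul_s_of_smul_simple (by rw [R.s_smul i (R.simple_mem j), WeylData.σ_simple_of_eq_zero h])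

theorem len_C0 (h : R.C i j = 0) : R.len (R.s i * R.s j) = 2 :=
  len_two (by rintro rfl; simp [R.C_diag] at h)

theorem orderOf_of_C0 (h : R.C i j = 0) : orderOf (R.s i * R.s j) = 2 := by
  refine orderOf_eq_prime ?_ (ne_one_of_len (len_C0 h))
  rw [sq]
  nth_rewrite 1 [s_comm_of_C0 h]
  simp [mul_assoc]

theorem s_s_A2 (h : R.C i j * R.C j i = 1) : (R.s i * R.s j) • R.simple i = R.simple j := by
  refine R.rc_inj _ (R.smul_mem _ (R.simple_mem i)) _ (R.simple_mem j) ?_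
  rw [mul_smul, rc_s_s_simple, h, (C_of_mul_eq_one h).2.2, R.rc_simple]
  module

theorem braid_A2 (h : R.C i j * R.C j i = 1) : R.s i * R.s j * R.s i = R.s j * R.s i * R.s j := by
  rw [R.mul_s_of_smul_simple (s_s_A2 h), mul_assoc]

theorem s_simple_A2 (h : R.C i j * R.C j i = 1) : R.s i • R.simple j = R.s j • R.simple i := by
  rw [← s_s_A2 h, mul_smul, s_s_smul]

theorem len_A2 (h : R.C i j * R.C j i = 1) :
    R.len (R.s i * R.s j) = 2 ∧ R.len (R.s i * R.s j * R.s i) = 3 := by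
  have h2 := len_two (R := R) (C_of_mul_eq_one h).1
  exact ⟨h2, by rw [R.len_mul_s_of_pos (by rw [s_s_A2 h]; exact R.pos_simple j), h2]⟩

theorem orderOf_A2 (h : R.C i j * R.C j i = 1) : orderOf (R.s i * R.s j) = 3 := by
  have : Fact (Nat.Prime 3) := ⟨Nat.prime_three⟩
  refine orderOf_eq_prime ?_ (ne_one_of_len (len_A2 h).1)
  have e : (R.s i * R.s j) ^ 3 = (R.s i * R.s j * R.s i) * (R.s j * R.s i * R.s j) := by
    simp only [pow_succ, pow_zero, one_mul, mul_assoc]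
  rw [e, ← braid_A2 h]
  simp [mul_assoc]

theorem w0_A2 (h : R.C i j * R.C j i = 1) : R.w0 {i, j} = R.s i * R.s j * R.s i := by
  have hi : R.s i ∈ R.WJ {i, j} := R.s_mem_WJ (by simp)
  have hj : R.s j ∈ R.WJ {i, j} := R.s_mem_WJ (by simp)
  refine (R.eq_w0 (mul_mem (mul_mem hi hj) hi) ?_).symm
  rintro l (rfl | rfl)
  · exact not_pos_mul_s (by rw [s_s_A2 h]; exact R.pos_simple j)
  · rw [braid_A2 h]
    exact not_pos_mul_s (by rw [s_s_A2 (by rwa [mul_comm])]; exact R.pos_simple i)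

theorem mem_WJ_A2 (h : R.C i j * R.C j i = 1) : w ∈ R.WJ {i, j} ↔ w = 1 ∨ w = R.s i ∨ w = R.s j ∨
    w = R.s i * R.s j ∨ w = R.s j * R.s i ∨ w = R.s i * R.s j * R.s i := by
  have hi : R.s i ∈ R.WJ {i, j} := R.s_mem_WJ (by simp)
  have hj : R.s j ∈ R.WJ {i, j} := R.s_mem_WJ (by simp)
  have b := braid_A2 h
  have b' : R.s j * (R.s i * (R.s j * R.s i)) = R.s i * R.s j := by
    rw [← mul_assoc (R.s i), b]; simp [mul_assoc]
  simp only [mul_assoc] at b ⊢
  constructor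
  · intro hw
    refine R.WJ_induction (p := fun w => w = 1 ∨ w = R.s i ∨ w = R.s j ∨
      w = R.s i * R.s j ∨ w = R.s j * R.s i ∨ w = R.s i * (R.s j * R.s i)) hw (Or.inl rfl) ?_
    rintro l (rfl | rfl) w - (rfl | rfl | rfl | rfl | rfl | rfl) <;>
      simp only [mul_one, R.s_mul_self, R.s_mul_s_mul, b', ← b, true_or, or_true]
  · rintro (rfl | rfl | rfl | rfl | rfl | rfl)
    exacts [one_mem _, hi, hj, mul_mem hi hj, mul_mem hj hi, mul_mem hi (mul_mem hj hi)]

theorem s_s_B2 (h : R.C j k * R.C k j = 2) : R.s j • R.s k • R.simple j = R.s k • R.simple j := by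
  refine R.rc_inj _ (R.smul_mem _ (R.smul_mem _ (R.simple_mem j))) _ (R.smul_mem _ (R.simple_mem j)) ?_
  rw [rc_s_s_simple, h, rc_s_simple]
  module

theorem braid_B2 (h : R.C j k * R.C k j = 2) :
    R.s j * R.s k * R.s j * R.s k = R.s k * R.s j * R.s k * R.s j := by
  have : (R.s k * R.s j * R.s k) • R.simple j = R.simple j := by
    rw [mul_smul, mul_smul, s_s_B2 h, s_s_smul]
  rw [R.mul_s_of_smul_simple this]
  simp only [mul_assoc]

theorem Rt2.pos_three (h : R.C j k * R.C k j = 2) : R.Pos ((R.s j * R.s k * R.s j) • R.simple k) := by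
  rw [mul_smul, mul_smul, s_s_B2 (by rwa [mul_comm]), s_s_smul]
  exact R.pos_simple k

theorem len_B2 (h : R.C j k * R.C k j = 2) : R.len (R.s j * R.s k) = 2 ∧
    R.len (R.s j * R.s k * R.s j) = 3 ∧ R.len (R.s j * R.s k * R.s j * R.s k) = 4 := by
  have hne := (C_of_mul_eq_two h).1
  have h2 := len_two (R := R) hne
  have h3 : R.len (R.s j * R.s k * R.s j) = 3 := by
    rw [R.len_mul_s_of_pos (by rw [mul_smul, s_s_B2 h]; exact pos_s_simple hne.symm), h2]
  exact ⟨h2, h3, by rw [R.len_mul_s_of_pos (pos_three h), h3]⟩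

theorem orderOf_B2 (h : R.C j k * R.C k j = 2) : orderOf (R.s j * R.s k) = 4 := by
  have e2 : (R.s j * R.s k) ^ 2 = R.s j * R.s k * R.s j * R.s k := by
    simp only [pow_succ, pow_zero, one_mul, mul_assoc]
  refine orderOf_eq_prime_pow (p := 2) (n := 1) ?_ ?_
  · rw [pow_one, e2]
    exact ne_one_of_len (len_B2 h).2.2
  · rw [pow_succ 2 1, pow_one, pow_mul, e2, sq]
    nth_rewrite 1 [braid_B2 h]
    simp [mul_assoc]

theorem w0_B2 (h : R.C j k * R.C k j = 2) : R.w0 {j, k} = R.s j * R.s k * R.s j * R.s k := by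
  have hj : R.s j ∈ R.WJ {j, k} := R.s_mem_WJ (by simp)
  have hk : R.s k ∈ R.WJ {j, k} := R.s_mem_WJ (by simp)
  refine (R.eq_w0 (mul_mem (mul_mem (mul_mem hj hk) hj) hk) ?_).symm
  rintro l (rfl | rfl)
  · rw [braid_B2 h]
    exact not_pos_mul_s (pos_three (by rwa [mul_comm]))
  · exact not_pos_mul_s (pos_three h)

theorem mem_WJ_B2 (h : R.C j k * R.C k j = 2) : w ∈ R.WJ {j, k} ↔ w = 1 ∨ w = R.s j ∨ w = R.s k ∨
    w = R.s j * R.s k ∨ w = R.s k * R.s j ∨ w = R.s j * R.s k * R.s j ∨ w = R.s k * R.s j * R.s k ∨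
    w = R.s j * R.s k * R.s j * R.s k := by
  have hj : R.s j ∈ R.WJ {j, k} := R.s_mem_WJ (by simp)
  have hk : R.s k ∈ R.WJ {j, k} := R.s_mem_WJ (by simp)
  have b := braid_B2 h
  simp only [mul_assoc] at b ⊢
  have b' : R.s k * (R.s j * (R.s k * (R.s j * R.s k))) = R.s j * (R.s k * R.s j) := by
    rw [b]; simp
  constructor
  · intro hw
    refine R.WJ_induction (p := fun w => w = 1 ∨ w = R.s j ∨ w = R.s k ∨
      w = R.s j * R.s k ∨ w = R.s k * R.s j ∨ w = R.s j * (R.s k * R.s j) ∨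
      w = R.s k * (R.s j * R.s k) ∨ w = R.s j * (R.s k * (R.s j * R.s k))) hw (Or.inl rfl) ?_
    rintro l (rfl | rfl) w - (rfl | rfl | rfl | rfl | rfl | rfl | rfl | rfl) <;>
      simp only [mul_one, R.s_mul_self, R.s_mul_s_mul, b', ← b, true_or, or_true]
  · rintro (rfl | rfl | rfl | rfl | rfl | rfl | rfl | rfl)
    exacts [one_mem _, hj, hk, mul_mem hj hk, mul_mem hk hj, mul_mem hj (mul_mem hk hj),
      mul_mem hk (mul_mem hj hk), mul_mem hj (mul_mem hk (mul_mem hj hk))]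

theorem pos_inJ_B2 (h : R.C j k * R.C k j = 2) (h1 : R.Pos r) (h2 : R.InJ {j, k} r) :
    r = R.simple j ∨ r = R.s j • R.simple k ∨ r = R.s k • R.simple j ∨ r = R.simple k := by
  have hne := (C_of_mul_eq_two h).1
  have e1 := s_s_B2 h
  have e2 := s_s_B2 (j := k) (k := j) (R := R) (by rwa [mul_comm])
  have key : ∃ t, (t = R.simple j ∨ t = R.s j • R.simple k ∨ t = R.s k • R.simple j ∨ t = R.simple k) ∧
      (r = t ∨ r = R.neg t) := by
    refine WeylData.inJ_induction (P := fun r => ∃ t, (t = R.simple j ∨ t = R.s j • R.simple k ∨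
      t = R.s k • R.simple j ∨ t = R.simple k) ∧ (r = t ∨ r = R.neg t)) ?_ ?_ h2
    · rintro l (rfl | rfl)
      exacts [⟨_, Or.inl rfl, Or.inl rfl⟩, ⟨_, Or.inr (Or.inr (Or.inr rfl)), Or.inl rfl⟩]
    · have step : ∀ l ∈ ({j, k} : Set ι), ∀ t, (t = R.simple j ∨ t = R.s j • R.simple k ∨
          t = R.s k • R.simple j ∨ t = R.simple k) → ∃ t', (t' = R.simple j ∨ t' = R.s j • R.simple k ∨
          t' = R.s k • R.simple j ∨ t' = R.simple k) ∧ (R.s l • t = t' ∨ R.s l • t = R.neg t') := by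
        rintro l (rfl | rfl) t (rfl | rfl | rfl | rfl)
        · exact ⟨_, Or.inl rfl, Or.inr (R.s_smul_simple _)⟩
        · exact ⟨_, Or.inr (Or.inr (Or.inr rfl)), Or.inl (s_s_smul _ _)⟩
        · exact ⟨_, Or.inr (Or.inr (Or.inl rfl)), Or.inl e1⟩
        · exact ⟨_, Or.inr (Or.inl rfl), Or.inl rfl⟩
        · exact ⟨_, Or.inr (Or.inr (Or.inl rfl)), Or.inl rfl⟩
        · exact ⟨_, Or.inr (Or.inl rfl), Or.inl e2⟩
        · exact ⟨_, Or.inl rfl, Or.inl (s_s_smul _ _)⟩
        · exact ⟨_, Or.inr (Or.inr (Or.inr rfl)), Or.inr (R.s_smul_simple _)⟩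
      have mem : ∀ t, (t = R.simple j ∨ t = R.s j • R.simple k ∨
          t = R.s k • R.simple j ∨ t = R.simple k) → t ∈ R.Φ := by
        rintro t (rfl | rfl | rfl | rfl)
        exacts [R.simple_mem _, R.smul_mem _ (R.simple_mem _), R.smul_mem _ (R.simple_mem _),
          R.simple_mem _]
      rintro l hl r hr ⟨t, ht, hrt⟩
      obtain ⟨t', ht', h'⟩ := step l hl t ht
      refine ⟨t', ht', ?_⟩
      rw [← R.s_smul l hr]
      rcases hrt with rfl | rfl
      · exact h'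
      · rw [R.smul_neg _ (mem t ht)]
        rcases h' with h' | h' <;> rw [h']
        · exact Or.inr rfl
        · exact Or.inl (R.neg_neg (mem t' ht'))
  obtain ⟨t, ht, rfl | rfl⟩ := key
  · exact ht
  · refine absurd rfl (ne_neg (r := t) ?_ h1)
    rcases ht with rfl | rfl | rfl | rfl
    exacts [R.pos_simple _, pos_s_simple hne, pos_s_simple hne.symm, R.pos_simple _]

theorem ne_B2 (h : R.C j k * R.C k j = 2) : [R.simple j, R.s j • R.simple k, R.s k • R.simple j,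
    R.simple k].Nodup ∧ R.Pos (R.s j • R.simple k) ∧ R.Pos (R.s k • R.simple j) := by
  obtain ⟨hne, hC⟩ := C_of_mul_eq_two h
  refine ⟨?_, pos_s_simple hne, pos_s_simple hne.symm⟩
  refine List.Nodup.of_map (fun r => (R.rc r j, R.rc r k)) ?_
  simp only [List.map_cons, List.map_nil, rc_s_simple, R.rc_simple, Pi.sub_apply, Pi.smul_apply,
    Pi.single_eq_same, Pi.single_eq_of_ne hne, Pi.single_eq_of_ne hne.symm]
  rcases hC with ⟨a, b⟩ | ⟨a, b⟩ <;> rw [a, b] <;> decide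

theorem cone_B2 (h : R.C j k * R.C k j = 2) :
    (cox R).cone (R.simple j) (R.simple k) ⊆ {R.s j • R.simple k, R.s k • R.simple j} ∧
    (cox R).cone (R.simple j) (R.s k • R.simple j) ⊆ {R.s j • R.simple k} ∧
    (cox R).cone (R.s j • R.simple k) (R.simple k) ⊆ {R.s k • R.simple j} ∧
    (cox R).cone (R.simple j) (R.s j • R.simple k) = ∅ ∧
    (cox R).cone (R.s j • R.simple k) (R.s k • R.simple j) = ∅ ∧
    (cox R).cone (R.s k • R.simple j) (R.simple k) = ∅ := by
  have hne := (C_of_mul_eq_two h).1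
  have e1 := s_s_B2 h
  have e2 := s_s_B2 (j := k) (k := j) (R := R) (by rwa [mul_comm])
  have p1 := R.pos_simple j
  have p4 := R.pos_simple k
  have p2 := pos_s_simple (R := R) hne
  have p3 := pos_s_simple (R := R) hne.symm
  have n1 := R.not_pos_s_smul_simple j
  have n4 := R.not_pos_s_smul_simple k
  have i1 : R.InJ {j, k} (R.simple j) := R.inJ_simple_iff.2 (by simp)
  have i4 : R.InJ {j, k} (R.simple k) := R.inJ_simple_iff.2 (by simp)
  have i2 : R.InJ {j, k} (R.s j • R.simple k) := R.inJ_smul (R.s_mem_WJ (by simp)) i4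
  have i3 : R.InJ {j, k} (R.s k • R.simple j) := R.inJ_smul (R.s_mem_WJ (by simp)) i1
  have key : ∀ {r s β : A}, R.Pos r → R.Pos s → R.InJ {j, k} r → R.InJ {j, k} s →
      β ∈ (cox R).cone r s → (β = R.simple j ∨ β = R.s j • R.simple k ∨ β = R.s k • R.simple j ∨
        β = R.simple k) ∧ β ≠ r ∧ β ≠ s ∧
        ∀ w : R.W, R.Pos (w • r) → R.Pos (w • s) → R.Pos (w • β) := by
    intro r s β hr hs hr' hs' hβ
    have h' := mem_cone.1 hβ
    refine ⟨pos_inJ_B2 h ?_ (cone_inJ hr' hs' (ne_neg hr hs) hβ), h'.2.1, h'.2.2.1,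
      fun w => (h'.2.2.2 w).1⟩
    simpa using (h'.2.2.2 1).1 (by simpa using hr) (by simpa using hs)
  refine ⟨fun β hβ => ?_, fun β hβ => ?_, fun β hβ => ?_, Set.eq_empty_of_forall_notMem fun β hβ => ?_,
    Set.eq_empty_of_forall_notMem fun β hβ => ?_, Set.eq_empty_of_forall_notMem fun β hβ => ?_⟩
  · obtain ⟨rfl | rfl | rfl | rfl, a, b, -⟩ := key p1 p4 i1 i4 hβ
    exacts [absurd rfl a, Or.inl rfl, Or.inr rfl, absurd rfl b]
  · obtain ⟨rfl | rfl | rfl | rfl, a, b, c⟩ := key p1 p3 i1 i3 hβ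
    exacts [absurd rfl a, rfl, absurd rfl b, absurd (c (R.s k) p3 (by rwa [s_s_smul])) n4]
  · obtain ⟨rfl | rfl | rfl | rfl, a, b, c⟩ := key p2 p4 i2 i4 hβ
    exacts [absurd (c (R.s j) (by rwa [s_s_smul]) p2) n1, absurd rfl a, rfl, absurd rfl b]
  · obtain ⟨rfl | rfl | rfl | rfl, a, b, c⟩ := key p1 p2 i1 i2 hβ
    · exact a rfl
    · exact b rfl
    · have := c (R.s j * R.s k) (by rwa [mul_smul, e1]) (by rwa [mul_smul, e2, s_s_smul])
      rw [mul_smul, s_s_smul] at this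
      exact n1 this
    · exact n4 (c (R.s k) p3 (by rwa [e2]))
  · obtain ⟨rfl | rfl | rfl | rfl, a, b, c⟩ := key p2 p3 i2 i3 hβ
    · exact n1 (c (R.s j) (by rwa [s_s_smul]) (by rwa [e1]))
    · exact a rfl
    · exact b rfl
    · exact n4 (c (R.s k) (by rwa [e2]) (by rwa [s_s_smul]))
  · obtain ⟨rfl | rfl | rfl | rfl, a, b, c⟩ := key p3 p4 i3 i4 hβ
    · exact n1 (c (R.s j) (by rwa [e1]) p2)
    · have := c (R.s k * R.s j) (by rwa [mul_smul, e1, s_s_smul]) (by rwa [mul_smul, e2])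
      rw [mul_smul, s_s_smul] at this
      exact n4 this
    · exact a rfl
    · exact b rfl

end Rt2

end Cfsg.Lib.BLD
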