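import Cfsg.Agent.BLD.Pl0
import Cfsg.Agent.BLD.Pl4
import Cfsg.Agent.BLD.Grd3
import Cfsg.Agent.BLD.Rt2

/-! # Coordinates for the root groups of an `A₂`-residue -/

set_option autoImplicit false
set_option linter.unusedSectionVars false
set_option linter.unusedVariables false

namespace Cfsg.Lib.BLD

open Cfsg.Lib.Chev Cfsg.Lib.Perm.Plane Configuration

variable {ι A : Type} [Fintype ι] [DecidableEq ι] [DecidableEq A] {R : WeylData ι A}

namespace A2c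

variable {i j : ι}

theorem si_mem : R.s i ∈ R.WJ {i, j} := R.s_mem_WJ (by simp)

theorem sj_mem : R.s j ∈ R.WJ {i, j} := R.s_mem_WJ (by simp)

theorem act_i (h : R.C i j * R.C j i = 1) (x y : Fin 3) (hxy : x ≠ y) :
    R.s i • R.rho i j x y = R.rho i j (Equiv.swap 0 1 x) (Equiv.swap 0 1 y) := by
  rw [R.s_smul _ (R.rho_mem ..), WeylData.σ_rho_left (C_of_mul_eq_one h).2.1 hxy]

theorem act_j (h : R.C i j * R.C j i = 1) (x y : Fin 3) (hxy : x ≠ y) :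
    R.s j • R.rho i j x y = R.rho i j (Equiv.swap 1 2 x) (Equiv.swap 1 2 y) := by
  rw [R.s_smul _ (R.rho_mem ..),
    WeylData.σ_rho_right (C_of_mul_eq_one h).2.1 (C_of_mul_eq_one h).2.2 hxy]

theorem act_mul {v w : R.W} {π π' : Equiv.Perm (Fin 3)}
    (h : ∀ x y, x ≠ y → v • R.rho i j x y = R.rho i j (π x) (π y))
    (h' : ∀ x y, x ≠ y → w • R.rho i j x y = R.rho i j (π' x) (π' y)) :
    ∀ x y, x ≠ y → (v * w) • R.rho i j x y = R.rho i j ((π * π') x) ((π * π') y) := fun x y hxy => by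
  rw [mul_smul, h' x y hxy, h _ _ (π'.injective.ne hxy)]
  rfl

/-- The chamber of the flag `(p a, l b)`. -/
theorem exists_w (h : R.C i j * R.C j i = 1) (a b : Fin 3) (hab : a ≠ b) :
    ∃ w ∈ R.WJ {i, j}, ∃ π : Equiv.Perm (Fin 3), π 0 = a ∧ π 2 = b ∧
      (∀ x y, x ≠ y → w • R.rho i j x y = R.rho i j (π x) (π y)) ∧
      (![1, R.s i, R.s j * R.s i] a)⁻¹ * w ∈ R.WJ {j} ∧
      (![R.s i * R.s j, R.s j, 1] b)⁻¹ * w ∈ R.WJ {i} := by
  have hi : R.s i ∈ R.WJ {i} := R.s_mem_WJ rfl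
  have hj : R.s j ∈ R.WJ {j} := R.s_mem_WJ rfl
  fin_cases a <;> fin_cases b
  · exact absurd rfl hab
  · exact ⟨_, sj_mem, _, by decide, by decide, act_j h, by simpa using hj, by simp⟩
  · exact ⟨1, one_mem _, 1, rfl, rfl, fun x y _ => one_smul _ _, by simp, by simp⟩
  · exact ⟨_, mul_mem si_mem sj_mem, _, by decide, by decide, act_mul (act_i h) (act_j h),
      by simpa using hj, by simp [mul_assoc]⟩
  · exact absurd rfl hab
  · exact ⟨_, si_mem, _, by decide, by decide, act_i h, by simp, by simpa using hi⟩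
  · refine ⟨_, mul_mem (mul_mem si_mem sj_mem) si_mem, _, by decide, by decide,
      act_mul (act_mul (act_i h) (act_j h)) (act_i h), ?_, by simpa [mul_assoc] using hi⟩
    rw [braid_A2 h]
    simpa [mul_assoc] using hj
  · exact ⟨_, mul_mem sj_mem si_mem, _, by decide, by decide, act_mul (act_j h) (act_i h),
      by simp [mul_assoc], by simpa using hi⟩
  · exact absurd rfl hab

theorem rho02 (h : R.C i j * R.C j i = 1) : R.rho i j 0 2 = R.s j • R.simple i := by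
  rw [← s_simple_A2 h, R.s_smul _ (R.simple_mem _)]
  rfl

theorem pos_rho (h : R.C i j * R.C j i = 1) {x y : Fin 3} (h1 : x ≠ y) (h2 : x ≠ 2) (h3 : y ≠ 0) :
    R.Pos (R.rho i j x y) := by
  have h02 : R.Pos (R.rho i j 0 2) := by
    rw [rho02 h]
    exact R.pos_s_smul (R.pos_simple i) (R.simple_injective.ne (C_of_mul_eq_one h).1)
  fin_cases x <;> fin_cases y <;> first | exact h02 | exact R.pos_simple _ | simp at h1 h2 h3

theorem inJ_rho (h : R.C i j * R.C j i = 1) {a b : Fin 3} (hab : a ≠ b) :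
    R.InJ {i, j} (R.rho i j a b) := by
  obtain ⟨w, hw, π, rfl, rfl, h3, -⟩ := exists_w h a b hab
  rw [← h3 0 2 (by decide), rho02 h]
  exact R.inJ_smul hw (R.inJ_smul sj_mem (R.inJ_simple_iff.2 (by simp)))

theorem exists_hf (h : R.C i j * R.C j i = 1) {a b : Fin 3} (hab : a ≠ b) :
    ∃ w, ∀ c d, c ≠ d → b ≠ c → a ≠ d → Hf R (R.rho i j c d) w := by
  obtain ⟨w, hw, π, rfl, rfl, h3, -⟩ := exists_w h a b hab
  refine ⟨w, fun c d h1 h2 h4 => ?_⟩
  obtain ⟨x, rfl⟩ := π.surjective c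
  obtain ⟨y, rfl⟩ := π.surjective d
  have hxy : x ≠ y := fun e => h1 (e ▸ rfl)
  unfold Hf
  rw [← h3 x y hxy, inv_smul_smul]
  exact pos_rho h hxy (fun e => h2 (e ▸ rfl)) fun e => h4 (e ▸ rfl)

theorem hf_facts (h : R.C i j * R.C j i = 1) (w : R.W) :
    Hf R (w • R.s j • R.simple i) w ∧ Hf R (w • R.s j • R.simple i) (w * R.s i) ∧
      Hf R (w • R.s j • R.simple i) (w * R.s j) ∧
      ¬ Hf R (w • R.s j • R.simple i) (w * R.s j * R.s i) := by
  have h1 := hf_smul_simple (R := R) (w * R.s j) i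
  rw [mul_smul] at h1
  refine ⟨?_, ?_, h1⟩ <;> unfold Hf
  · rw [inv_smul_smul]
    exact R.pos_s_smul (R.pos_simple i) (R.simple_injective.ne (C_of_mul_eq_one h).1)
  · rw [mul_inv_rev, mul_smul, inv_smul_smul, R.s_inv, ← mul_smul, s_s_A2 h]
    exact R.pos_simple j

variable {Γ Ch : Type*} [Group Γ] [MulAction Γ Ch] {B : Bld R Γ Ch}

theorem not_inc (h : R.C i j * R.C j i = 1) {x y : B.Res {i, j}} (hd : B.δ x.1 y.1 = R.s i * R.s j) :
    B.pt {i, j} j x ∉ B.ln {i, j} j i y := by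
  rw [Bld.pt_mem_ln_iff]
  rintro ⟨z, h1, h2⟩
  have h3 := B.δ_coset x.1 h2
  rw [hd] at h3
  have hij := R.s_injective.ne (C_of_mul_eq_one h).1
  rcases mem_WJ_single.1 h1 with e | e <;> rw [e] at h3 <;> rcases mem_WJ_single.1 h3 with e' | e'
  · rw [inv_one, one_mul, mul_eq_one_iff_eq_inv, R.s_inv] at e'
    exact hij e'
  · exact R.s_ne_one j (by simpa using e')
  · rw [inv_mul_eq_one] at e'
    exact R.s_ne_one i (by simpa using e'.symm)
  · rw [inv_mul_eq_iff_eq_mul] at e'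
    exact Pl0.not_comm h e'

theorem res_mem (g : B.St {i, j} (B.a 1)) : B.res {i, j} g ∈ B.Aut {i, j} ⊤ :=
  Bld.mem_Aut.2 ⟨g, trivial, rfl⟩

theorem U_le_St {r : A} (hr : R.InJ {i, j} r) : B.U r ≤ B.St {i, j} (B.a 1) :=
  fun _ hg => (Bld.Br_le_Lev hr hg.1).1

variable [Finite Γ] [Finite Ch] [hA : Fact (R.C i j * R.C j i = 1)]

theorem res_persp {x : B.Res {i, j}} {w : R.W} (hx : x.1 = B.a w) (g : B.St {i, j} (B.a 1))
    (hg : g.1 ∈ B.U (w • R.s j • R.simple i)) :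
    (⟨B.res {i, j} g, res_mem g⟩ : B.Aut {i, j} ⊤) ∈
      persp (B.Aut {i, j} ⊤) (B.pt {i, j} j x) (B.ln {i, j} j i x) := by
  obtain ⟨h1, h2, h3, -⟩ := hf_facts hA.out w
  refine ⟨(Bld.mem_centre_iff _ x).2 ((Bld.mem_Tv_iff_res (by simp) g x).1 ?_),
    (Bld.mem_axis_iff _ x).2 ((Bld.mem_Tv_iff_res (by simp) g x).1 ?_)⟩ <;> rw [hx]
  exacts [(Bld.mem_U.1 hg).2 w j h1 h3, (Bld.mem_U.1 hg).2 w i h1 h2]

theorem exists_res (hB : B.RG) {x : B.Res {i, j}} {w : R.W} (hw : w ∈ R.WJ {i, j}) (hx : x.1 = B.a w)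
    {σ : B.Aut {i, j} ⊤} (hσ : σ ∈ persp (B.Aut {i, j} ⊤) (B.pt {i, j} j x) (B.ln {i, j} j i x)) :
    ∃ g : B.St {i, j} (B.a 1), g.1 ∈ B.U (w • R.s j • R.simple i) ∧ B.res {i, j} g = σ.1 := by
  obtain ⟨-, -, h3, h4⟩ := hf_facts hA.out w
  let x₀ : B.Res {i, j} := ⟨B.a (w * R.s j), by rw [Bld.δ_a_one]; exact mul_mem hw sj_mem⟩
  let y : B.Res {i, j} :=
    ⟨B.a (w * R.s j * R.s i), by rw [Bld.δ_a_one]; exact mul_mem (mul_mem hw sj_mem) si_mem⟩
  have e0 : σ.1.1 x₀ = x₀ := (Bld.mem_centre_iff σ x).1 hσ.1 x₀ (by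
    rw [hx]
    change B.δ (B.a w) (B.a (w * R.s j)) ∈ _
    rw [Bld.Grd1.δ_adj]
    exact R.s_mem_WJ rfl)
  have e1 : B.δ x₀.1 y.1 = R.s i := Bld.Grd1.δ_adj _ _
  have e2 : B.δ x₀.1 (σ.1.1 y).1 = R.s i := by rw [← e1, ← σ.1.2 x₀ y, e0]
  obtain ⟨g, hg, e3⟩ := hB.trOn h3 h4 _ _ e1 e2
  have hr : R.InJ {i, j} (w • R.s j • R.simple i) :=
    R.inJ_smul hw (R.inJ_smul sj_mem (R.inJ_simple_iff.2 (by simp)))
  refine ⟨⟨g, U_le_St hr hg⟩, hg, ?_⟩
  have hp := mul_mem (inv_mem (res_persp hx ⟨g, U_le_St hr hg⟩ hg)) hσ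
  have e4 : (B.res {i, j} ⟨g, U_le_St hr hg⟩).1 y = σ.1.1 y := Subtype.ext e3
  have := elation_free (Bld.pt_mem_ln j i x) hp.1 hp.2 (x := B.pt {i, j} j y) (not_inc hA.out (by
    rw [hx]
    change B.δ (B.a (w * R.s j * R.s i)) (B.a w) = _
    rw [B.δ_a]
    simp [mul_assoc])) (by
      rw [mul_smul, inv_smul_eq_iff]
      change σ.1 • B.pt {i, j} j y = B.res {i, j} _ • B.pt {i, j} j y
      rw [B.smul_pt, B.smul_pt, e4])
  exact congrArg Subtype.val (inv_mul_eq_one.1 this)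

theorem move {σ : B.Iso {i, j}} {x y : B.Res {i, j}} (h1 : σ • B.pt {i, j} j x = B.pt {i, j} j y)
    (h2 : σ • B.ln {i, j} j i x = B.ln {i, j} j i y) : σ.1 x = y :=
  Bld.flag_ext (C_of_mul_eq_one hA.out).1 (by rw [← B.smul_pt, h1]) (by rw [← B.smul_ln, h2])

theorem res_inj (hB : B.RG) {u : R.W} {g g' : B.St {i, j} (B.a 1)}
    (hg : g.1 ∈ spanX B.U {β | R.InJ {i, j} β ∧ Hf R β u})
    (hg' : g'.1 ∈ spanX B.U {β | R.InJ {i, j} β ∧ Hf R β u})
    (h : B.res {i, j} g = B.res {i, j} g') : g = g' := by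
  have h1 : B.res {i, j} (g⁻¹ * g') = 1 := by rw [map_mul, map_inv, h, inv_mul_cancel]
  refine inv_mul_eq_one.1 (Subtype.ext ?_)
  exact hB.span_inj (fun _ h => h) (mul_mem (inv_mem hg) hg') fun w hw =>
    (Bld.res_eq_one_iff _).1 h1 _ (by rwa [Bld.δ_a_one])

end A2c

namespace Bld

variable {Γ Ch : Type*} [Group Γ] [MulAction Γ Ch] {B : Bld R Γ Ch}
  {Γ' Ch' : Type*} [Group Γ'] [MulAction Γ' Ch'] {B' : Bld R Γ' Ch'}

open A2c in
theorem RG.exists_a2c [Finite Γ] [Finite Ch] (hB : B.RG) {i j : ι} (h : R.C i j * R.C j i = 1) :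
    ∃ (F : Type) (_ : Field F) (_ : Finite F) (e : Fin 3 → Fin 3 → F → Γ),
      Nat.card F = B.q j ∧ B.A2C i j F e := by
  have : Fact (R.C i j * R.C j i = 1) := ⟨h⟩
  have hu : ∀ a : Fin 3, B.δ (B.a 1) (B.a (![1, R.s i, R.s j * R.s i] a)) ∈ R.WJ {i, j} := by
    intro a
    rw [δ_a_one]
    fin_cases a
    exacts [one_mem _, si_mem, mul_mem sj_mem si_mem]
  have hv : ∀ a : Fin 3, B.δ (B.a 1) (B.a (![R.s i * R.s j, R.s j, 1] a)) ∈ R.WJ {i, j} := by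
    intro a
    rw [δ_a_one]
    fin_cases a
    exacts [mul_mem si_mem sj_mem, sj_mem, one_mem _]
  let p : Fin 3 → B.Pan {i, j} j := fun a => B.pt {i, j} j ⟨_, hu a⟩
  let l : Fin 3 → B.Ln {i, j} j i := fun a => B.ln {i, j} j i ⟨_, hv a⟩
  have hw : ∀ a b, a ≠ b → ∃ w ∈ R.WJ {i, j}, ∃ x : B.Res {i, j}, x.1 = B.a w ∧
      p a = B.pt {i, j} j x ∧ l b = B.ln {i, j} j i x ∧ R.rho i j a b = w • R.s j • R.simple i := by
    intro a b hab
    obtain ⟨w, hw, π, h1, h2, h3, h4, h5⟩ := exists_w h a b hab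
    refine ⟨w, hw, ⟨B.a w, by rwa [δ_a_one]⟩, rfl, pt_eq_iff.2 ?_, ln_eq_iff.2 ?_, ?_⟩
    · rwa [← B.δ_a] at h4
    · rwa [← B.δ_a] at h5
    · rw [← rho02 h, h3 0 2 (by decide), h1, h2]
  have hinc : ∀ a b, p a ∈ l b ↔ a ≠ b := by
    refine fun a b => ⟨?_, fun hab => ?_⟩
    · rintro hp rfl
      refine not_inc h ?_ hp
      change B.δ (B.a _) (B.a _) = _
      rw [B.δ_a]
      fin_cases a <;> simp
    · obtain ⟨w, -, x, -, h1, h2, -⟩ := hw a b hab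
      rw [h1, h2]
      exact pt_mem_ln j i x
  obtain ⟨F, _, _, e, hc, hst, he⟩ :=
    exists_stA (isMoufang (B := B) (i := i) (j := j) (K := ⊤) le_top) p l hinc
  have hex : ∀ a b t, ∃ g : B.St {i, j} (B.a 1),
      a ≠ b → g.1 ∈ B.U (R.rho i j a b) ∧ B.res {i, j} g = (e a b t).1 := by
    intro a b t
    by_cases hab : a = b
    · exact ⟨1, fun h => absurd hab h⟩
    obtain ⟨w, hw, x, hx, h1, h2, h3⟩ := hw a b hab
    obtain ⟨g, hg⟩ := exists_res hB hw hx (h1 ▸ h2 ▸ ((he a b hab).1 t))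
    exact ⟨g, fun _ => h3 ▸ hg⟩
  choose E hE using hex
  have hsp : ∀ {u c d}, c ≠ d → Hf R (R.rho i j c d) u → ∀ {g}, g ∈ B.U (R.rho i j c d) →
      g ∈ spanX B.U {β | R.InJ {i, j} β ∧ Hf R β u} :=
    fun hcd hf g hg => le_spanX B.U (T := {β | R.InJ {i, j} β ∧ Hf R β _}) ⟨inJ_rho h hcd, hf⟩ hg
  have hstE : StA E := by
    refine ⟨fun a b hab t u => ?_, fun a b c h1 h2 h3 t u => ?_, fun a b c d h1 h2 h3 h4 t u => ?_⟩
    · obtain ⟨w, hw⟩ := exists_hf h hab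
      have k := fun t => hsp hab (hw a b hab hab.symm hab) (hE a b t hab).1
      refine res_inj hB (mul_mem (k t) (k u)) (k _) ?_
      rw [map_mul, (hE a b _ hab).2, (hE a b _ hab).2, (hE a b _ hab).2]
      exact congrArg Subtype.val (hst.add a b hab t u)
    · obtain ⟨w, hw⟩ := exists_hf h h3
      have k1 := fun t => hsp h1 (hw a b h1 h3.symm h1) (hE a b t h1).1
      have k2 := fun t => hsp h2 (hw b c h2 h2.symm h3) (hE b c t h2).1
      have k3 := fun t => hsp h3 (hw a c h3 h3.symm h3) (hE a c t h3).1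
      refine res_inj hB (mul_mem (k1 t) (k2 u)) (mul_mem (mul_mem (k3 _) (k2 u)) (k1 t)) ?_
      rw [map_mul, map_mul, map_mul, (hE a b _ h1).2, (hE b c _ h2).2, (hE a c _ h3).2]
      exact congrArg Subtype.val (hst.comm a b c h1 h2 h3 t u)
    · obtain ⟨w, hw⟩ := exists_hf h h1
      have k1 := fun t => hsp h1 (hw a b h1 h1.symm h1) (hE a b t h1).1
      have k2 := fun t => hsp h2 (hw c d h2 h3 h4) (hE c d t h2).1
      refine res_inj hB (mul_mem (k1 t) (k2 u)) (mul_mem (k2 u) (k1 t)) ?_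
      rw [map_mul, map_mul, (hE a b _ h1).2, (hE c d _ h2).2]
      exact congrArg Subtype.val (hst.commute a b c d h1 h2 h3 h4 t u).eq
  have hW : ∀ a b, a ≠ b → ∀ t, B.res {i, j} (stW E a b t) = (stW e a b t).1 := by
    intro a b hab t
    rw [stW, stW, map_mul, map_mul, (hE a b _ hab).2, (hE b a _ hab.symm).2]
    rfl
  have hne : ∀ a b, a ≠ b → p a ≠ p b := fun a b hab e' =>
    (hinc b b).1 (e' ▸ (hinc a b).2 hab) rfl
  have hL : ∀ a b k, a ≠ b → R.rho i j a b = R.simple k → ∀ t, (stW E a b t).1 ∈ B.Lev {k} := by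
    intro a b k hab e' t
    have k1 : R.InJ {k} (R.rho i j a b) := e' ▸ R.inJ_simple_iff.2 rfl
    have k2 : R.InJ {k} (R.rho i j b a) := R.neg_rho i j hab ▸ R.inJ_neg k1
    exact mul_mem (mul_mem (Br_le_Lev k1 (hE a b _ hab).1.1) (Br_le_Lev k2 (hE b a _ hab.symm).1.1))
      (Br_le_Lev k1 (hE a b _ hab).1.1)
  refine ⟨F, inferInstance, inferInstance, fun a b t => (E a b t).1,
    by rw [hc, plane_order.1, (plane_order (B := B) (i := i) (j := j)).2], hstE.map (Subgroup.subtype _),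
    fun a b hab t => (hE a b t hab).1, fun a b hab t ht => (he a b hab).2.1 t ?_,
    fun a b hab g hg => ?_, fun t ht => ?_, fun t ht => ?_⟩
  · refine Subtype.ext ?_
    rw [← (hE a b t hab).2, show E a b t = 1 from Subtype.ext ht, map_one]
    rfl
  · obtain ⟨w, hw', x, hx, h1, h2, h3⟩ := hw a b hab
    have hg' := U_le_St (inJ_rho h hab) hg
    obtain ⟨t, ht⟩ := (he a b hab).2.2.1 _ (h1 ▸ h2 ▸ res_persp hx ⟨g, hg'⟩ (h3 ▸ hg))
    obtain ⟨u, hu'⟩ := exists_hf h hab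
    have k := hu' a b hab hab.symm hab
    exact ⟨t, congrArg Subtype.val (res_inj hB (g' := ⟨g, hg'⟩) (hsp hab k (hE a b t hab).1)
      (hsp hab k hg) (by rw [(hE a b t hab).2, ht]))⟩
  · obtain ⟨h1, h2⟩ := (he 0 1 (by decide)).2.2.2 t ht
    have h3 : stW e 0 1 t • l 2 = l 2 := smul_line_eq (hne 0 1 (by decide))
      ((hinc 0 2).2 (by decide)) ((hinc 1 2).2 (by decide))
      (h1 ▸ (hinc 1 2).2 (by decide)) (h2 ▸ (hinc 0 2).2 (by decide))
    have h4 : l 2 = B.ln {i, j} j i ⟨_, hu 1⟩ := ln_eq_iff.2 (by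
      change B.δ (B.a 1) (B.a (R.s i)) ∈ _
      rw [δ_a_one]
      exact R.s_mem_WJ rfl)
    have k1 := move (σ := (stW e 0 1 t).1) (x := ⟨_, hu 0⟩) (y := ⟨_, hu 1⟩) h1 (h3.trans h4)
    have k2 := move (σ := (stW e 0 1 t).1) (x := ⟨_, hu 1⟩) (y := ⟨_, hu 0⟩) h2 (h4 ▸ h3)
    rw [← hW 0 1 (by decide)] at k1 k2
    exact lifts_of_swap (hL 0 1 i (by decide) rfl t) (congrArg Subtype.val k1)
      (congrArg Subtype.val k2)
  · obtain ⟨h1, h2⟩ := (he 1 2 (by decide)).2.2.2 t ht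
    have h0 : stW e 1 2 t • p 0 = p 0 := by
      have k1 := fun t => ((he 1 2 (by decide)).1 t).2 (p 0) ((hinc 0 2).2 (by decide))
      have k2 := fun t => ((he 2 1 (by decide)).1 t).2 (p 0) ((hinc 0 1).2 (by decide))
      rw [stW, mul_smul, mul_smul, k1, k2, k1]
    have h3 : stW e 1 2 t • l 2 = l 1 := smul_line_eq (hne 0 1 (by decide))
      ((hinc 0 2).2 (by decide)) ((hinc 1 2).2 (by decide))
      (h0.symm ▸ (hinc 0 1).2 (by decide)) (h1.symm ▸ (hinc 2 1).2 (by decide))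
    have h3' : stW e 1 2 t • l 1 = l 2 := smul_line_eq (hne 0 2 (by decide))
      ((hinc 0 1).2 (by decide)) ((hinc 2 1).2 (by decide))
      (h0.symm ▸ (hinc 0 2).2 (by decide)) (h2.symm ▸ (hinc 1 2).2 (by decide))
    have h4 : p 0 = B.pt {i, j} j ⟨_, hv 1⟩ := pt_eq_iff.2 (by
      change B.δ (B.a 1) (B.a (R.s j)) ∈ _
      rw [δ_a_one]
      exact R.s_mem_WJ rfl)
    have k1 := move (σ := (stW e 1 2 t).1) (x := ⟨_, hv 2⟩) (y := ⟨_, hv 1⟩) (h0.trans h4) h3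
    have k2 := move (σ := (stW e 1 2 t).1) (x := ⟨_, hv 1⟩) (y := ⟨_, hv 2⟩) (h4 ▸ h0) h3'
    rw [← hW 1 2 (by decide)] at k1 k2
    exact lifts_of_swap (hL 1 2 j (by decide) rfl t) (congrArg Subtype.val k1)
      (congrArg Subtype.val k2)

end Bld

end Cfsg.Lib.BLD
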