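import Cfsg.Agent.BLD.Bas1

/-! # Buildings: rigidity and Levi subgroups -/

set_option autoImplicit false
set_option linter.unusedSectionVars false

namespace Cfsg.Lib.BLD

open Cfsg.Lib.Chev

variable {ι A : Type} [Fintype ι] [DecidableEq ι] [DecidableEq A] {R : WeylData ι A}

namespace Bas2

variable {J K : Set ι} {j l : ι} {u v t : R.W} {r : A}

theorem exists_opp (hj : j ∈ J) : ∃ k ∈ J, (R.w0 J * R.s j) • R.simple j = R.simple k := by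
  obtain ⟨k, hk, h⟩ : ∃ k ∈ J, R.Pos ((R.s j * R.w0 J) • R.simple k) := by
    by_contra! n
    exact R.s_ne_one j (mul_eq_right.1 (R.eq_w0 (mul_mem (R.s_mem_WJ hj) (R.w0_mem J)) n))
  refine ⟨k, hk, ?_⟩
  have e := R.eq_simple_of_not_pos_s_smul (i := j) h (by
    rw [← mul_smul, ← mul_assoc, R.s_mul_self, one_mul]
    exact R.not_pos_w0_simple hk)
  rw [← e, ← mul_smul, mul_assoc, ← mul_assoc (R.s j), R.s_mul_self, one_mul, R.w0_mul_self,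
    one_smul]

theorem exists_neg (hj : j ∈ J) : ∃ k ∈ J, R.w0 J • R.simple j = R.neg (R.simple k) ∧
    R.w0 J • R.simple k = R.neg (R.simple j) := by
  obtain ⟨k, hk, e⟩ := exists_opp (R := R) hj
  rw [mul_smul, R.s_smul_simple] at e
  refine ⟨k, hk, ?_, ?_⟩
  · rw [← e, R.smul_neg _ (R.simple_mem j), R.neg_neg (R.smul_mem _ (R.simple_mem j))]
  · rw [← e, ← mul_smul, R.w0_mul_self, one_smul]

theorem min_unique (hu : ∀ j ∈ J, R.Pos (u • R.simple j)) (hv : ∀ j ∈ J, R.Pos (v • R.simple j))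
    (h : u⁻¹ * v ∈ R.WJ J) : u = v := by
  refine inv_mul_eq_one.1 (R.eq_one_of_mem_WJ_of_pos h fun j hj => ?_)
  rw [← R.pos_smul_iff_of_inJ hu (R.inJ_smul h (R.inJ_simple_iff.2 hj)), ← mul_smul,
    mul_inv_cancel_left]
  exact hv j hj

theorem mem_opp {k : ι} (h : R.w0 Set.univ • R.simple l = R.neg (R.simple k)) :
    l ∈ opp R J ↔ k ∈ J := by
  change R.w0 Set.univ * R.s l * (R.w0 Set.univ)⁻¹ ∈ R.WJ J ↔ _
  rw [R.mul_s_of_smul_simple_eq_neg h, mul_inv_cancel_right, R.s_mem_WJ_iff]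

theorem pos_u0 (hl : l ∈ opp R J) : R.Pos ((R.w0 J * R.w0 Set.univ) • R.simple l) := by
  obtain ⟨k, -, e, -⟩ := exists_neg (R := R) (Set.mem_univ l)
  have hk := (mem_opp e).1 hl
  rw [mul_smul, e, R.pos_w0_smul_iff (R.inJ_neg (R.inJ_simple_iff.2 hk)),
    R.pos_neg_iff (R.simple_mem k), not_not]
  exact R.pos_simple k

theorem u0_inv : (R.w0 J * R.w0 Set.univ)⁻¹ = R.w0 Set.univ * R.w0 J := by
  rw [mul_inv_rev, R.w0_inv, R.w0_inv]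

theorem pos_u0_inv (hj : j ∈ J) : R.Pos ((R.w0 J * R.w0 Set.univ)⁻¹ • R.simple j) := by
  rw [u0_inv, mul_smul, R.pos_w0_univ_smul_iff (R.smul_mem _ (R.simple_mem j))]
  exact R.not_pos_w0_simple hj

theorem len_u0 (ht : t ∈ R.WJ J) :
    R.len (t * (R.w0 J * R.w0 Set.univ)) = R.len t + R.len (R.w0 J * R.w0 Set.univ) := by
  rw [← R.len_inv, mul_inv_rev, R.len_mul_of_min (fun _ hj => pos_u0_inv hj) (inv_mem ht),
    R.len_inv, R.len_inv, add_comm]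

theorem inJ_of_u0 (h : R.Pos r) (h' : R.Pos ((R.w0 J * R.w0 Set.univ)⁻¹ • r)) : R.InJ J r := by
  rw [u0_inv, mul_smul, R.pos_w0_univ_smul_iff (R.smul_mem _ h.1)] at h'
  exact (R.mem_invs_w0.1 (R.mem_invs.2 ⟨h, h'⟩)).2

theorem conj_mem (ht : t ∈ R.WJ J) :
    (R.w0 Set.univ)⁻¹ * (t * R.w0 Set.univ) ∈ R.WJ (opp R J) := by
  rwa [mem_WJ_opp, mul_inv_cancel_left, mul_inv_cancel_right]

theorem exists_part (J : Set ι) (v : R.W) :
    ∃ u ∈ R.WJ J, (∀ j ∈ J, R.Pos ((v⁻¹ * u) • R.simple j)) ∧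
      ∀ r, R.InJ J r → (Hf R r u ↔ Hf R r v) := by
  obtain ⟨u, hu, h⟩ := R.exists_min_rep J v⁻¹
  refine ⟨u, hu, h, fun r hr => ?_⟩
  rw [Hf, Hf, ← R.pos_smul_iff_of_inJ h (R.inJ_smul (inv_mem hu) hr), ← mul_smul,
    mul_inv_cancel_right]

end Bas2

namespace Bld

variable {Γ Ch : Type*} [Group Γ] [MulAction Γ Ch] {B : Bld R Γ Ch}
  {Γ' Ch' : Type*} [Group Γ'] [MulAction Γ' Ch'] {B' : Bld R Γ' Ch'}

variable {x y z x' y' : Ch} {u v w : R.W} {i j j' l : ι} {J K : Set ι} {g h : Γ} {r : A}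

namespace Bas2L

open BLD.Bas2

theorem isom_of {f : Ch → Ch'} (hf : B.Isom B' J x f) (h : B.δ x y ∈ R.WJ J) : B.Isom B' J y f :=
  fun u v hu hv => hf u v (B.δ_mem_trans h hu) (B.δ_mem_trans h hv)

theorem stepA {f f' : Ch → Ch'} (hf : B.Isom B' J x f) (hf' : B.Isom B' J x f')
    (hy : B.δ x y = R.w0 J) (h0 : f x = f' x) (h1 : ∀ j ∈ J, ∀ z, B.δ x z = R.s j → f z = f' z)
    (h2 : f y = f' y) : ∀ j ∈ J, ∀ z, B.δ y z = R.s j → f z = f' z := by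
  intro j hj z hz
  obtain ⟨k, hk, e⟩ := exists_opp (R := R) hj
  have e1 : R.s k * (R.w0 J * R.s j) = R.w0 J := by
    rw [← R.mul_s_of_smul_simple e, mul_assoc, R.s_mul_self, mul_one]
  have my : B.δ x y ∈ R.WJ J := hy ▸ R.w0_mem J
  have mz : B.δ x z ∈ R.WJ J := B.δ_mem_trans my (hz ▸ R.s_mem_WJ hj)
  obtain ⟨p, mp, hp, fp⟩ : ∃ p, B.δ x p ∈ R.WJ J ∧ B.δ p z = R.w0 J * R.s j ∧ f p = f' p := by
    rcases B.δ_step x hz with h | h <;> rw [hy] at h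
    · exact ⟨x, B.δ_self x ▸ one_mem _, h, h0⟩
    · rw [← e1] at h
      obtain ⟨p, p1, p2⟩ := exists_mid h (by
        rw [← R.mul_s_of_smul_simple e, R.len_mul_s_of_pos (e ▸ R.pos_simple k), R.len_s, add_comm])
      exact ⟨p, p1 ▸ R.s_mem_WJ hk, p2, h1 k hk p p1⟩
  refine par_unique e ((hf p z mp mz).trans hp) (fp ▸ (hf' p z mp mz).trans hp) ?_
  refine B'.δ_mem_trans (y := f y) ?_ ?_
  · rw [hf z y mz my, B.δ_symm, hz, R.s_inv]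
    exact R.s_mem_WJ rfl
  · rw [h2, hf' y z my mz, hz]
    exact R.s_mem_WJ rfl

theorem exists_opp_both (hy : B.δ x y = R.w0 J) (hj : j ∈ J) (hx : B.δ x x' = R.s j) :
    ∃ y', (y' = y ∨ ∃ k ∈ J, B.δ y y' = R.s k) ∧ B.δ x y' = R.w0 J ∧ B.δ x' y' = R.w0 J := by
  obtain ⟨k, hk, -, e⟩ := exists_neg (R := R) hj
  have e0 : (R.w0 J * R.s k) • R.simple k = R.simple j := by
    rw [mul_smul, R.s_smul_simple, R.smul_neg _ (R.simple_mem k), e, R.neg_neg (R.simple_mem j)]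
  have e1 : R.w0 J * R.s k = R.s j * R.w0 J := R.mul_s_of_smul_simple_eq_neg e
  have key : ∀ c, B.δ x c = R.w0 J ∨ B.δ x c = R.w0 J * R.s k →
      B.δ x' c = R.w0 J ∨ B.δ x' c = R.w0 J * R.s k := fun c hc => by
    have h := B.δ_step c hx
    rw [B.δ_symm x' c, B.δ_symm x c, inv_eq_iff_eq_inv, inv_inj, mul_inv_rev, inv_inv,
      R.s_inv] at h
    rcases hc with hc | hc <;> rw [hc] at h
    · rw [e1]; exact h.symm
    · rwa [e1, ← mul_assoc, R.s_mul_self, one_mul, ← e1] at h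
  obtain ⟨a, b, ab, ha, hb⟩ := B.thick y k
  have k1 : ∀ c, B.δ y c = R.s k → B.δ x c = R.w0 J ∨ B.δ x c = R.w0 J * R.s k := fun c hc => by
    have := B.δ_step x hc
    rw [hy] at this
    exact this.symm
  rcases key y (.inl hy) with h | h
  · exact ⟨y, .inl rfl, hy, h⟩
  have k2 : ∀ c, B.δ y c = R.s k → B.δ x' c = R.w0 J := fun c hc =>
    (key c (k1 c hc)).resolve_right fun n => R.s_ne_one k (by
      rw [← hc, par_unique e0 h n (hc ▸ R.s_mem_WJ rfl), B.δ_self])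
  rcases k1 a ha with h1 | h1
  · exact ⟨a, .inr ⟨k, hk, ha⟩, h1, k2 a ha⟩
  rcases k1 b hb with h2 | h2
  · exact ⟨b, .inr ⟨k, hk, hb⟩, h2, k2 b hb⟩
  exact absurd (par_unique e0 h1 h2 (panel ha hb ab ▸ R.s_mem_WJ rfl)) ab

theorem mem_St_of_fix (h : B.δ x y ∈ R.WJ J) (hy : g • y = y) : g ∈ B.St J x :=
  B.δ_mem_trans h (by rw [← hy, B.δ_smul]; exact B.δ_mem_symm h)

theorem exists_far (hy : B.δ (B.a 1) y ∈ R.WJ J) :
    ∃ z, B.δ (B.a (R.w0 Set.univ)) z ∈ R.WJ (opp R J) ∧ B.δ y z = R.w0 J * R.w0 Set.univ := by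
  obtain ⟨z, h1, h2⟩ := B.exists_gate (opp R J) y (B.a (R.w0 Set.univ))
  refine ⟨z, h1, (min_unique (fun _ hl => pos_u0 hl) h2 ?_).symm⟩
  have h3 := B.δ_coset y h1
  have h4 := B.δ_coset (B.a (R.w0 Set.univ)) hy
  rw [B.δ_a, mul_one, inv_inv, B.δ_symm y] at h4
  generalize B.δ y (B.a (R.w0 Set.univ)) = e at h3 h4
  have h5 := conj_mem (mul_mem (inv_mem (R.w0_mem J)) (inv_mem h4))
  convert mul_mem h5 h3 using 1
  group

theorem far_unique {z' : Ch} (h1 : B.δ (B.a (R.w0 Set.univ)) z ∈ R.WJ (opp R J))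
    (h2 : B.δ y z = R.w0 J * R.w0 Set.univ) (h1' : B.δ (B.a (R.w0 Set.univ)) z' ∈ R.WJ (opp R J))
    (h2' : B.δ y z' = R.w0 J * R.w0 Set.univ) : z = z' :=
  gate_unique (x := y) (fun _ hl => h2 ▸ pos_u0 hl) (fun _ hl => h2' ▸ pos_u0 hl)
    (B.δ_mem_trans (B.δ_mem_symm h1) h1')

theorem far_a (hu : u ∈ R.WJ J) :
    B.δ (B.a (R.w0 Set.univ)) (B.a (u * (R.w0 J * R.w0 Set.univ))) ∈ R.WJ (opp R J) := by
  rw [B.δ_a, ← mul_assoc u]
  exact conj_mem (mul_mem hu (R.w0_mem J))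

end Bas2L

open Bas2L BLD.Bas2

theorem rigid {f f' : Ch → Ch'} (hf : B.Isom B' J x f) (hf' : B.Isom B' J x f')
    (hy : B.δ x y = R.w0 J) (h0 : f x = f' x) (h1 : ∀ j ∈ J, ∀ z, B.δ x z = R.s j → f z = f' z)
    (h2 : f y = f' y) : ∀ z, B.δ x z ∈ R.WJ J → f z = f' z := by
  suffices ∀ w ∈ R.WJ J, ∀ z, B.δ x z = w → f z = f' z ∧
      (∀ j ∈ J, ∀ c, B.δ z c = R.s j → f c = f' c) ∧ ∃ y, B.δ z y = R.w0 J ∧ f y = f' y from
    fun z hz => (this _ hz z rfl).1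
  intro w hw
  refine R.WJ_induction_pos_right (p := fun w => ∀ z, B.δ x z = w → f z = f' z ∧
      (∀ j ∈ J, ∀ c, B.δ z c = R.s j → f c = f' c) ∧ ∃ y, B.δ z y = R.w0 J ∧ f y = f' y) hw
    (fun z e => ?_) fun i hi w hw _ ih z e => ?_
  · obtain rfl := B.δ_eq_one.1 e
    exact ⟨h0, h1, y, hy, h2⟩
  · obtain ⟨c, c1, c2⟩ := B.δ_ex x z i
    rw [e, mul_assoc, R.s_mul_self, mul_one] at c2
    have c3 : B.δ c z = R.s i := by rw [B.δ_symm, c1, R.s_inv]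
    obtain ⟨a0, a1, d, d1, d2⟩ := ih c c2
    have mc : B.δ x c ∈ R.WJ J := c2 ▸ hw
    have gf := isom_of hf mc
    have gf' := isom_of hf' mc
    obtain ⟨d', e0, e1, e2⟩ := exists_opp_both d1 hi c3
    have fd : f d' = f' d' := by
      rcases e0 with rfl | ⟨k, hk, e0⟩
      exacts [d2, stepA gf gf' d1 a0 a1 d2 k hk _ e0]
    have md : B.δ c d' ∈ R.WJ J := e1 ▸ R.w0_mem J
    exact ⟨a1 i hi z c3, stepA (isom_of gf md) (isom_of gf' md) (by rw [B.δ_symm, e2, R.w0_inv]) fd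
      (stepA gf gf' e1 a0 a1 fd) (a1 i hi z c3), d', e2, fd⟩

theorem mem_Kr_of (hy : B.δ x y = R.w0 J) (h0 : g • x = x) (h1 : ∀ j ∈ J, g ∈ B.Tv x j)
    (h2 : g • y = y) : g ∈ B.Kr J x :=
  rigid (B' := B) (f := fun c => g • c) (f' := id) (fun _ _ _ _ => B.δ_smul _ _ _)
    (fun _ _ _ _ => rfl) hy h0 (fun j hj => (h1 j hj).2) h2

theorem eq_one_of_H (hB : ∀ g : Γ, (∀ x : Ch, g • x = x) → g = 1) (hg : g ∈ B.H)
    (h : ∀ i, g ∈ B.Tv (B.a w) i) : g = 1 :=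
  hB g fun x => mem_Kr_of (J := Set.univ) (y := B.a (w * R.w0 Set.univ))
    (by rw [B.δ_a, inv_mul_cancel_left]) (hg w) (fun j _ => h j) (hg _) x (by simp)

theorem lev_trans (hx : B.δ (B.a 1) x ∈ R.WJ J) (hy : B.δ (B.a 1) y ∈ R.WJ J)
    (hx' : B.δ (B.a 1) x' ∈ R.WJ J) (hy' : B.δ (B.a 1) y' ∈ R.WJ J) (h : B.δ x y = B.δ x' y') :
    ∃ g ∈ B.Lev J, g • x = x' ∧ g • y = y' := by
  obtain ⟨z, z1, z2⟩ := exists_far hy
  obtain ⟨z', z1', z2'⟩ := exists_far hy'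
  have hl := len_u0 (B.δ_mem_trans (B.δ_mem_symm hx') hy')
  obtain ⟨g, g1, g2⟩ := B.trans ((δ_mul h z2 hl).trans (δ_mul rfl z2' hl).symm)
  refine ⟨g, ⟨?_, ?_⟩, g1, mid_unique hl ?_ ?_ rfl z2'⟩
  · exact B.δ_mem_trans hx' (by rw [← g1, B.δ_smul]; exact B.δ_mem_symm hx)
  · exact B.δ_mem_trans z1' (by rw [← g2, B.δ_smul]; exact B.δ_mem_symm z1)
  · rw [← h, ← g1, B.δ_smul]
  · rw [← g2, B.δ_smul, z2]

theorem lev_fix (hg : g ∈ B.Lev J) (hv : g • B.a v = B.a v)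
    (h : ∀ r, R.InJ J r → Hf R r v → Hf R r w) : g • B.a w = B.a w := by
  obtain ⟨u, hu, h1, h2⟩ := exists_part J v
  have mu : B.δ (B.a 1) (B.a u) ∈ R.WJ J := by rwa [δ_a_one]
  have f1 : g • B.a u = B.a u :=
    gate_unique (x := B.a v) (by rwa [← hv, B.δ_smul, B.δ_a]) (by rwa [B.δ_a])
      (B.δ_mem_trans (B.δ_mem_symm (St.smul_mem hg.1 mu)) mu)
  have f2 : g • B.a (u * (R.w0 J * R.w0 Set.univ)) = B.a (u * (R.w0 J * R.w0 Set.univ)) :=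
    far_unique (y := B.a u) (St.smul_mem hg.2 (far_a hu))
      (by rw [← f1, B.δ_smul, B.δ_a, inv_mul_cancel_left]) (far_a hu)
      (by rw [B.δ_a, inv_mul_cancel_left])
  refine fix_conv (fun r a b => ?_) f1 f2
  rw [Hf, mul_inv_rev, mul_smul] at b
  have m := (R.inJ_smul_iff (inv_mem hu)).1 (inJ_of_u0 a b)
  exact h r m ((h2 r m).1 a)

theorem mem_H_of_lev (hg : g ∈ B.Lev J) (h : ∀ w ∈ R.WJ J, g • B.a w = B.a w) : g ∈ B.H :=
  fun w => by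
  obtain ⟨u, hu, -, h2⟩ := exists_part J w
  exact lev_fix hg (h u hu) fun r hr => (h2 r hr).1

theorem Br_le_Lev (hr : R.InJ J r) : B.Br r ≤ B.Lev J := fun g hg => by
  obtain ⟨u, hu, u', hu', h1, h2⟩ : ∃ u ∈ R.WJ J, ∃ u' ∈ R.WJ J, Hf R r u ∧ ¬ Hf R r u' := by
    have e : Hf R r (R.w0 J) ↔ ¬ Hf R r 1 := by
      rw [hf_one, Hf, R.w0_inv, R.pos_w0_smul_iff hr]
    by_cases c : Hf R r 1
    · exact ⟨1, one_mem _, _, R.w0_mem J, c, fun n => e.1 n c⟩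
    · exact ⟨_, R.w0_mem J, 1, one_mem _, e.2 c, c⟩
  refine ⟨mem_St_of_fix (by rwa [δ_a_one]) (hg u h1),
    mem_St_of_fix ?_ (hg _ ((hf_mul_w0 hr.1).2 h2))⟩
  rw [B.δ_a]
  exact conj_mem hu'

theorem H_le_Lev : B.H ≤ B.Lev J := fun _ hg =>
  ⟨mem_St_of_fix (B.δ_self _ ▸ one_mem _) (hg _), mem_St_of_fix (B.δ_self _ ▸ one_mem _) (hg _)⟩

theorem Lifts.mem_Lev (hn : B.Lifts g w) (hw : w ∈ R.WJ J) : g ∈ B.Lev J := by
  rw [Bld.mem_Lev, hn, hn, mul_one, δ_a_one, B.δ_a]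
  exact ⟨hw, conj_mem hw⟩

theorem Lev_mono (h : J ⊆ K) : B.Lev J ≤ B.Lev K := fun _ hg =>
  ⟨R.WJ_mono h hg.1, R.WJ_mono (fun _ hi => R.WJ_mono h hi) hg.2⟩

theorem mem_Br_of_lev (hg : g ∈ B.Lev J) (hw : w ∈ R.WJ J) (hl : l ∈ J) (h1 : g • B.a w = B.a w)
    (h2 : g • B.a (w * R.s l * R.w0 J) = B.a (w * R.s l * R.w0 J)) :
    g ∈ B.Br (w • R.simple l) := fun v hv => by
  obtain ⟨u, hu, -, h3⟩ := exists_part J v
  refine lev_fix hg (fix_conv (fun β a b => ?_) h1 h2) fun r hr => (h3 r hr).1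
  by_cases c : R.InJ J β
  · rw [Hf, mul_inv_rev, mul_inv_rev, R.w0_inv, R.s_inv, mul_smul, mul_smul,
      R.pos_w0_smul_iff (R.inJ_smul (R.s_mem_WJ hl) (R.inJ_smul (inv_mem hw) c))] at b
    have e := inv_smul_eq_iff.1 (R.eq_simple_of_not_pos_s_smul a b)
    exact (h3 β c).2 (e ▸ hv)
  · have := R.pos_smul_of_not_inJ (mul_mem (inv_mem hu) hw) a
      (mt (R.inJ_smul_iff (inv_mem hw)).1 c)
    rwa [← mul_smul, mul_inv_cancel_right] at this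

theorem lev_panel (hh : h ∈ B.Lev J) (hj : j ∈ J) (h1 : B.δ (B.a 1) (h • B.a 1) ∈ R.WJ {j})
    (hv : ∀ l ∈ J, Hf R (R.simple l) v) (hj' : v • R.simple j' = R.simple j) :
    B.δ (B.a v) (h • B.a v) ∈ R.WJ {j'} := by
  have pv : ∀ r, R.InJ J r → Hf R r 1 → Hf R r v := fun r a b =>
    R.pos_smul_of_inJ hv (hf_one.1 b) a
  rcases δ_mem_single.1 h1 with e | e
  · rw [lev_fix hh e.symm pv, B.δ_self]
    exact one_mem _
  have hl := len_add_of_hf (u := 1) (v := R.w0 J * R.w0 Set.univ) (w := v)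
    fun r a b => pv r (inJ_of_u0 (hf_one.1 a) b) a
  obtain ⟨k, hk, -, k1⟩ := exists_neg (R := R) hj
  obtain ⟨m, -, -, m1⟩ := exists_neg (R := R) (Set.mem_univ k)
  have m2 : (v⁻¹ * (R.w0 J * R.w0 Set.univ)) • R.simple m = R.simple j' := by
    rw [mul_smul, mul_smul, m1, R.smul_neg _ (R.simple_mem k), k1, R.neg_neg (R.simple_mem j),
      ← hj', inv_smul_smul]
  have fa := far_a (B := B) (one_mem (R.WJ J))
  rw [one_mul] at fa
  rw [inv_one, one_mul, one_mul] at hl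
  have hl' : R.len (v * (v⁻¹ * (R.w0 J * R.w0 Set.univ))) =
      R.len v + R.len (v⁻¹ * (R.w0 J * R.w0 Set.univ)) := by rwa [mul_inv_cancel_left]
  obtain ⟨p, p1, p2⟩ := par_exists hj' (δ_a_one v) e
  obtain ⟨q, q1, q2⟩ := par_exists m2 (B.δ_a v _) p1
  have q3 := δ_mul p2 q2 hl'
  rw [mul_inv_cancel_left] at q3
  have q4 : h • B.a (R.w0 J * R.w0 Set.univ) = q :=
    far_unique (St.smul_mem hh.2 fa) (by rw [B.δ_smul, δ_a_one])
      (B.δ_mem_trans fa (q1 ▸ R.s_mem_WJ ((mem_opp m1).2 hk))) q3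
  rw [mid_unique hl' (y := h • B.a v) (by rw [B.δ_smul, δ_a_one]) (by rw [← q4, B.δ_smul, B.δ_a])
    p2 q2, p1]
  exact R.s_mem_WJ rfl

theorem lifts_of_swap (hg : g ∈ B.Lev {i}) (h1 : g • B.a 1 = B.a (R.s i))
    (h2 : g • B.a (R.s i) = B.a 1) : B.Lifts g (R.s i) := by
  obtain ⟨n, hn⟩ := B.exists_lifts (R.s i)
  have h3 : n⁻¹ * g ∈ B.H :=
    mem_H_of_lev (mul_mem (inv_mem (hn.mem_Lev (R.s_mem_WJ (Set.mem_singleton i)))) hg) fun w hw => by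
      rw [mul_smul, inv_smul_eq_iff, hn]
      rcases mem_WJ_single.1 hw with rfl | rfl
      · rw [h1, mul_one]
      · rw [h2, R.s_mul_self]
  simpa using hn.mul (lifts_one_iff.2 h3)

end Bld

end Cfsg.Lib.BLD
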