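import Cfsg.Agent.BLD.Defs
import Cfsg.Agent.Chev.CurtisTits

/-!
# Half-apartments and cones
-/

set_option autoImplicit false
set_option linter.unusedSectionVars false

namespace Cfsg.Lib.BLD

open Cfsg.Lib.Chev

variable {ι A : Type} [Fintype ι] [DecidableEq ι] [DecidableEq A] {R : WeylData ι A}

section Rt1
variable {i j k : ι} {r s β : A} {u v w : R.W} {J : Set ι}

theorem C_nonpos (h : i ≠ j) : R.C i j ≤ 0 := by
  have e := (R.pos_σ (i := i) (R.pos_simple j) fun e => h (R.simple_injective e).symm).2 i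
  rw [R.rc_σ' i (R.simple_mem j), R.rc_simple, R.sl_apply, R.a_single] at e
  simpa [h] using e

theorem C_eq_zero_symm (h : R.C i j = 0) : R.C j i = 0 := by
  have e := R.symm i j
  rw [h, mul_zero] at e
  exact (mul_eq_zero.1 e.symm).resolve_left (R.d_pos j).ne'

theorem C_of_mul_eq_one (h : R.C i j * R.C j i = 1) : i ≠ j ∧ R.C i j = -1 ∧ R.C j i = -1 := by
  have n : i ≠ j := by
    rintro rfl
    rw [R.C_diag] at h
    omega
  have := C_nonpos (R := R) n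
  rcases Int.eq_one_or_neg_one_of_mul_eq_one' h with e | e
  · omega
  · exact ⟨n, e⟩

theorem C_of_mul_eq_two (h : R.C j k * R.C k j = 2) :
    j ≠ k ∧ ((R.C j k = -1 ∧ R.C k j = -2) ∨ (R.C j k = -2 ∧ R.C k j = -1)) := by
  have n : j ≠ k := by
    rintro rfl
    rw [R.C_diag] at h
    omega
  have h1 := C_nonpos (R := R) n
  have h2 := C_nonpos (R := R) n.symm
  refine ⟨n, ?_⟩
  generalize R.C j k = a at *
  generalize R.C k j = b at *
  have h3 : b ≠ 0 := by rintro rfl; simp at h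
  have h4 : -2 ≤ a := by nlinarith [lt_of_le_of_ne h2 h3]
  interval_cases a <;> omega

theorem Hf.mem (h : Hf R r w) : r ∈ R.Φ := (R.smul_mem_iff _).1 h.1

theorem hf_one : Hf R r 1 ↔ R.Pos r := by rw [Hf, inv_one, one_smul]

theorem hf_smul (u : R.W) : Hf R (u • r) (u * w) ↔ Hf R r w := by
  rw [Hf, Hf, mul_inv_rev, mul_smul, inv_smul_smul]

theorem hf_neg (hr : r ∈ R.Φ) : Hf R (R.neg r) w ↔ ¬ Hf R r w := by
  rw [Hf, Hf, R.smul_neg _ hr, R.pos_neg_iff (R.smul_mem _ hr)]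

theorem hf_mul_w0 (hr : r ∈ R.Φ) : Hf R r (w * R.w0 Set.univ) ↔ ¬ Hf R r w := by
  rw [Hf, Hf, mul_inv_rev, mul_smul, R.w0_inv, R.pos_w0_univ_smul_iff (R.smul_mem _ hr)]

theorem eq_of_hf_of_not_hf (h : Hf R r w) (h' : ¬ Hf R r (w * R.s j)) : r = w • R.simple j := by
  rw [Hf, mul_inv_rev, mul_smul, R.s_inv] at h'
  rw [← R.eq_simple_of_not_pos_s_smul h h', smul_inv_smul]

theorem hf_smul_simple (w : R.W) (j : ι) :
    Hf R (w • R.simple j) w ∧ ¬ Hf R (w • R.simple j) (w * R.s j) := by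
  rw [Hf, Hf, mul_inv_rev, mul_smul, inv_smul_smul, R.s_inv]
  exact ⟨R.pos_simple j, R.not_pos_s_smul_simple j⟩

theorem Rt1.len_add (x : R.W) : ∀ y : R.W, (∀ b, R.Pos b → R.Pos (y⁻¹ • b) → R.Pos (x⁻¹ • b)) →
    R.len y = R.len x + R.len (x⁻¹ * y) := by
  refine R.induction_pos_left x (fun y _ => by simp) fun i x hx ih y h => ?_
  have h1 : ¬ R.Pos (y⁻¹ • R.simple i) := fun c => by
    have := h _ (R.pos_simple i) c
    rw [mul_inv_rev, mul_smul, R.s_inv, R.s_smul_simple, R.smul_neg _ (R.simple_mem i),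
      R.pos_neg_iff hx.mem] at this
    exact this hx
  have h2 := ih (R.s i * y) fun b hb c => by
    by_cases e : b = R.simple i
    · exact e ▸ hx
    · rw [mul_inv_rev, mul_smul, R.s_inv] at c
      have := h _ (R.pos_s_smul hb e) c
      rwa [mul_inv_rev, mul_smul, inv_smul_smul] at this
  rw [← R.len_s_mul_of_not_pos h1, h2, R.len_s_mul_of_pos hx, mul_inv_rev, R.s_inv, mul_assoc]
  omega

theorem len_add_of_hf (h : ∀ r, Hf R r u → Hf R r v → Hf R r w) :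
    R.len (u⁻¹ * v) = R.len (u⁻¹ * w) + R.len (w⁻¹ * v) := by
  rw [Rt1.len_add (u⁻¹ * w) (u⁻¹ * v) fun b hb c => ?_]
  · congr 2
    group
  · have := h (u • b) (by rwa [Hf, inv_smul_smul]) (by rwa [mul_inv_rev, inv_inv, mul_smul] at c)
    rwa [mul_inv_rev, inv_inv, mul_smul]

theorem inJ_of_sep (hu : u ∈ R.WJ J) (hv : v ∈ R.WJ J) (h : Hf R r u) (h' : ¬ Hf R r v) :
    R.InJ J r :=
  (R.inJ_smul_iff (inv_mem hu)).1 (R.mem_WJ_iff.1 (mul_mem (inv_mem hv) hu) _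
    (R.mem_invs.2 ⟨h, by rwa [mul_smul, smul_inv_smul]⟩))

theorem exists_common (hr : R.InJ J r) (hs : R.InJ J s) (h : s ≠ R.neg r) :
    ∃ u ∈ R.WJ J, Hf R r u ∧ Hf R s u := by
  obtain ⟨w, hw, l, hl, rfl⟩ := R.exists_smul_simple_inJ hr
  by_cases c : Hf R s w
  · exact ⟨w, hw, (hf_smul_simple w l).1, c⟩
  have m := mul_mem hw (R.s_mem_WJ hl)
  have k : ∀ t, R.InJ J t → ¬ Hf R t (w * R.s l) → Hf R t (w * R.s l * R.w0 J) := fun t ht e => by
    rw [Hf, mul_inv_rev, mul_smul, R.w0_inv, R.pos_w0_smul_iff (R.inJ_smul (inv_mem m) ht)]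
    exact e
  refine ⟨_, mul_mem m (R.w0_mem J), k _ hr (hf_smul_simple w l).2, k _ hs fun e => h ?_⟩
  rw [← eq_of_hf_of_not_hf ((hf_neg hs.1).2 c) fun d => (hf_neg hs.1).1 d e, R.neg_neg hs.1]

theorem mem_WJ_single : w ∈ R.WJ {j} ↔ w = 1 ∨ w = R.s j := by
  constructor
  · refine fun h => R.WJ_induction h (.inl rfl) ?_
    rintro i rfl w - (rfl | rfl)
    · exact .inr (mul_one _)
    · exact .inl (R.s_mul_self _)
  · rintro (rfl | rfl)
    exacts [one_mem _, R.s_mem_WJ rfl]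

theorem Rt1.exists_opp (j : ι) : ∃ l, R.w0 Set.univ * R.s l * (R.w0 Set.univ)⁻¹ = R.s j := by
  obtain ⟨l, hl⟩ := R.exists_not_pos_of_ne_one (w := R.w0 Set.univ * R.s j * R.w0 Set.univ) fun e =>
    R.s_ne_one j (by rw [← conj_eq_one_iff (a := R.w0 Set.univ), R.w0_inv, e])
  have m := R.smul_mem (R.w0 Set.univ) (R.simple_mem l)
  rw [mul_smul, mul_smul, R.pos_w0_univ_smul_iff (R.smul_mem _ m), not_not] at hl
  have e := R.eq_simple_of_not_pos_s_smul (i := j) ((R.pos_neg_iff m).2 (R.not_pos_w0_simple trivial)) (by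
    rw [R.smul_neg _ m, R.pos_neg_iff hl.mem, not_not]; exact hl)
  exact ⟨l, mul_inv_eq_of_eq_mul (R.mul_s_of_smul_simple_eq_neg (by rw [← e, R.neg_neg m]))⟩

theorem mem_WJ_opp : w ∈ R.WJ (opp R J) ↔ R.w0 Set.univ * w * (R.w0 Set.univ)⁻¹ ∈ R.WJ J := by
  refine ⟨fun h => ?_, fun h => ?_⟩
  · refine R.WJ_induction h (by simp) fun i hi w _ ih => ?_
    rw [← conj_mul]
    exact mul_mem hi ih
  · suffices ∀ v ∈ R.WJ J, (R.w0 Set.univ)⁻¹ * v * (R.w0 Set.univ)⁻¹⁻¹ ∈ R.WJ (opp R J) by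
      convert this _ h using 1
      group
    intro v hv
    refine R.WJ_induction hv (by simp) fun j hj w _ ih => ?_
    obtain ⟨l, e⟩ := Rt1.exists_opp (R := R) j
    rw [← conj_mul]
    refine mul_mem ?_ ih
    convert R.s_mem_WJ (J := opp R J) (i := l) (show _ ∈ R.WJ J from e ▸ R.s_mem_WJ hj) using 1
    rw [← e]
    group

theorem mem_cone : β ∈ (cox R).cone r s ↔ β ∈ R.Φ ∧ β ≠ r ∧ β ≠ s ∧ ∀ w : R.W,
    (R.Pos (w • r) → R.Pos (w • s) → R.Pos (w • β)) ∧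
      (¬ R.Pos (w • r) → ¬ R.Pos (w • s) → ¬ R.Pos (w • β)) := Iff.rfl

theorem opp_iff (hr : r ∈ R.Φ) (hs : s ∈ R.Φ) : (cox R).Opp r s ↔ s = R.neg r := by
  refine ⟨fun h => (cox R).eqv_of_pos_iff hs (R.neg_mem _ hr) fun w => ?_, ?_⟩
  · change R.Pos _ ↔ R.Pos _
    rw [R.smul_neg _ hr, R.pos_neg_iff (R.smul_mem _ hr)]
    exact (not_iff_not.2 (h w)).trans not_not |>.symm
  · rintro rfl w
    change R.Pos _ ↔ ¬ R.Pos _
    rw [R.smul_neg _ hr, R.pos_neg_iff (R.smul_mem _ hr), not_not]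

theorem eq_of_hf_iff (hr : r ∈ R.Φ) (hs : s ∈ R.Φ) (h : ∀ w, Hf R r w ↔ Hf R s w) : r = s :=
  (cox R).eqv_of_pos_iff hr hs fun w => by
    have := h w⁻¹
    rwa [Hf, Hf, inv_inv] at this

theorem cone_inJ (hr : R.InJ J r) (hs : R.InJ J s) (h : s ≠ R.neg r) (hβ : β ∈ (cox R).cone r s) :
    R.InJ J β := by
  obtain ⟨u, hu, h1, h2⟩ := exists_common hr hs h
  obtain ⟨-, -, -, e⟩ := mem_cone.1 hβ
  refine (R.inJ_smul_iff (inv_mem hu)).1 (R.mem_invs_w0.1 (R.mem_invs.2 ⟨(e _).1 h1 h2, ?_⟩)).2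
  rw [← mul_smul]
  refine (e _).2 ?_ ?_ <;> rw [mul_smul, R.pos_w0_smul_iff (R.inJ_smul (inv_mem hu) ‹_›), not_not]
  exacts [h1, h2]

theorem cone_smul (w : R.W) : w • β ∈ (cox R).cone (w • r) (w • s) ↔ β ∈ (cox R).cone r s := by
  rw [mem_cone, mem_cone, R.smul_mem_iff, (MulAction.injective w).ne_iff, (MulAction.injective w).ne_iff]
  refine and_congr_right fun _ => and_congr_right fun _ => and_congr_right fun _ =>
    ⟨fun h v => ?_, fun h v => ?_⟩
  · simpa only [smul_smul, inv_mul_cancel_right] using h (v * w⁻¹)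
  · simpa only [smul_smul] using h (v * w)

theorem Rt1.eq_of_smul (hr : r ∈ R.Φ) (hs : s ∈ R.Φ) {a b : ℤ} (ha : 0 < a) (hb : 0 < b)
    (e : a • R.rc s = b • R.rc r) : r = s :=
  (cox R).eqv_of_pos_iff hr hs fun w => by
    have e1 : a • R.rc (w • s) = b • R.rc (w • r) := by
      rw [R.rc_smul w hs, R.rc_smul w hr, ← map_smul, ← map_smul, e]
    refine and_congr (iff_of_true (R.smul_mem w hr) (R.smul_mem w hs)) (forall_congr' fun l => ?_)
    have e2 : a * R.rc (w • s) l = b * R.rc (w • r) l := congrFun e1 l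
    change 0 ≤ R.rc (w • r) l ↔ 0 ≤ R.rc (w • s) l
    rw [← mul_nonneg_iff_of_pos_left hb, ← e2, mul_nonneg_iff_of_pos_left ha]

theorem exists_comb (hr : R.InJ {i, j} r) (hs : R.InJ {i, j} s) (hβ : R.InJ {i, j} β) (h1 : r ≠ s)
    (h2 : s ≠ R.neg r) : ∃ n x y : ℤ, 0 < n ∧ n • R.rc β = x • R.rc r + y • R.rc s := by
  have ex : ∀ {f g : ι → ℤ}, f i = g i → f j = g j → (∀ l, l ∉ ({i, j} : Set ι) → f l = g l) → f = g :=
    fun a b c => funext fun l => by
      by_cases e : l ∈ ({i, j} : Set ι)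
      · rcases e with rfl | rfl
        exacts [a, b]
      · exact c l e
  have hD : R.rc r i * R.rc s j - R.rc r j * R.rc s i ≠ 0 := fun e => by
    have k : ∀ l, R.rc r l • R.rc s = R.rc s l • R.rc r := fun l => by
      by_cases c : l ∈ ({i, j} : Set ι)
      · refine ex ?_ ?_ fun m hm => by simp [hr.2 m hm, hs.2 m hm]
        all_goals
          rcases c with rfl | rfl <;> simp only [Pi.smul_apply, smul_eq_mul] <;> linarith
      · simp [hr.2 l c, hs.2 l c]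
    obtain ⟨l, hl⟩ := Function.ne_iff.1 (R.rc_ne_zero r hr.1)
    have hl' : R.rc s l ≠ 0 := fun c => R.rc_ne_zero s hs.1
      ((smul_eq_zero.1 ((k l).trans (by rw [c, zero_smul]))).resolve_left hl)
    have e1 : (R.rc r l * R.rc r l) • R.rc s = (R.rc r l * R.rc s l) • R.rc r := by
      rw [mul_smul, mul_smul, k]
    rcases lt_or_gt_of_ne (mul_ne_zero hl hl') with c | c
    · exact h2 (Rt1.eq_of_smul (R.neg_mem _ hr.1) hs.1 (mul_self_pos.2 hl) (neg_pos.2 c)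
        (by rw [e1, R.rc_neg _ hr.1, neg_smul_neg])).symm
    · exact h1 (Rt1.eq_of_smul hr.1 hs.1 (mul_self_pos.2 hl) c e1)
  refine ⟨_, (R.rc r i * R.rc s j - R.rc r j * R.rc s i) * (R.rc β i * R.rc s j - R.rc β j * R.rc s i),
    (R.rc r i * R.rc s j - R.rc r j * R.rc s i) * (R.rc r i * R.rc β j - R.rc r j * R.rc β i),
    mul_self_pos.2 hD, ex ?_ ?_ fun m hm => by simp [hr.2 m hm, hs.2 m hm, hβ.2 m hm]⟩
  all_goals
    simp only [Pi.add_apply, Pi.smul_apply, smul_eq_mul]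
    ring

theorem cone_C0 (h : R.C i k = 0) (hr : r = R.simple i ∨ r = R.neg (R.simple i))
    (hs : s = R.simple k ∨ s = R.neg (R.simple k)) : (cox R).cone r s = ∅ := by
  have n : i ≠ k := by
    rintro rfl
    rw [R.C_diag] at h
    omega
  have a : ∀ {l t}, l ∈ ({i, k} : Set ι) → t = R.simple l ∨ t = R.neg (R.simple l) → R.InJ {i, k} t := by
    rintro l t hl (rfl | rfl)
    exacts [R.inJ_simple_iff.2 hl, R.inJ_neg (R.inJ_simple_iff.2 hl)]
  have b : ∀ {l t t'}, t = R.simple l ∨ t = R.neg (R.simple l) → t' = R.simple l ∨ t' = R.neg (R.simple l) →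
      t' ≠ t → t' = R.neg t := by
    rintro l t t' (rfl | rfl) (rfl | rfl) e
    exacts [absurd rfl e, rfl, (R.neg_neg (R.simple_mem l)).symm, absurd rfl e]
  have h1 := a (.inl rfl) hr
  have h2 := a (.inr rfl) hs
  have h3 : s ≠ R.neg r := fun e => by
    have := congrArg (R.rc · i) e
    rcases hr with rfl | rfl <;> rcases hs with rfl | rfl <;>
      simp [R.rc_neg, R.neg_mem, R.simple_mem, R.rc_simple, n] at this
  refine Set.eq_empty_iff_forall_notMem.2 fun β hβ => ?_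
  obtain ⟨u, -, c1, c2⟩ := exists_common h1 h2 h3
  obtain ⟨l, hl, e⟩ := R.inJ_pair_of_eq_zero (.inr ⟨h, C_eq_zero_symm h⟩) (cone_inJ h1 h2 h3 hβ)
  obtain ⟨-, n1, n2, d⟩ := mem_cone.1 hβ
  have c3 : Hf R β u := (d _).1 c1 c2
  rcases hl with rfl | rfl
  · exact (hf_neg h1.1).1 (b hr e n1 ▸ c3) c1
  · exact (hf_neg h2.1).1 (b hs e n2 ▸ c3) c2

end Rt1

end Cfsg.Lib.BLD
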