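import Cfsg.Agent.BLD.Defs2
import Cfsg.Agent.BLD.Rt1
import Cfsg.Agent.Perm.PlaneElation

/-!
# Finite spherical buildings: basic lemmas

Additivity of the Weyl distance, gates, parallel panels, convexity of fixed sets, lifts of Weyl
group elements and transitivity on panels.
-/

set_option autoImplicit false
set_option linter.unusedSectionVars false
set_option linter.unusedVariables false

namespace Cfsg.Lib.BLD

open Cfsg.Lib.Chev Cfsg.Lib.Perm.Plane Configuration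

variable {ι A : Type} [Fintype ι] [DecidableEq ι] [DecidableEq A] {R : WeylData ι A}

namespace Bas1Aux

variable {i j k : ι} {r s : A} {u v w : R.W} {J : Set ι}

theorem c_symm (h : R.C i j = 0) : R.C j i = 0 := by
  have h1 := R.symm i j
  rw [h, mul_zero] at h1
  exact (mul_eq_zero.1 h1.symm).resolve_left (R.d_pos j).ne'

theorem hf_mem (h : Hf R r w) : r ∈ R.Φ := (R.smul_mem_iff _).1 h.1

theorem hf_smul' (u : R.W) : Hf R (u • r) (u * w) ↔ Hf R r w := by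
  simp only [Hf, mul_inv_rev, mul_smul, inv_smul_smul]

theorem hf_neg' (hr : r ∈ R.Φ) : Hf R (R.neg r) w ↔ ¬ Hf R r w := by
  simp only [Hf]
  rw [R.smul_neg _ hr, R.pos_neg_iff (R.smul_mem _ hr)]

theorem hf_mul_w0' (hr : r ∈ R.Φ) : Hf R r (w * R.w0 Set.univ) ↔ ¬ Hf R r w := by
  simp only [Hf]
  rw [mul_inv_rev, mul_smul, R.w0_inv, R.pos_w0_univ_smul_iff (R.smul_mem _ hr)]

open Classical in
theorem len_eq_card (u v : R.W) :
    R.len (u⁻¹ * v) = (R.Φ.filter fun r => Hf R r u ∧ ¬ Hf R r v).card := by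
  rw [← R.len_inv, ← R.card_invs]
  refine Finset.card_bij (fun r _ => u • r) (fun r hr => ?_) (fun r _ s _ h => ?_) fun r hr => ?_
  · rw [R.mem_invs] at hr
    refine Finset.mem_filter.2 ⟨R.smul_mem _ hr.1.1, ?_, ?_⟩
    · simpa [Hf] using hr.1
    · simpa [Hf, mul_smul] using hr.2
  · exact MulAction.injective u h
  · obtain ⟨h1, h2, h3⟩ := Finset.mem_filter.1 hr
    refine ⟨u⁻¹ • r, R.mem_invs.2 ⟨h2, ?_⟩, smul_inv_smul _ _⟩
    simpa [Hf, mul_smul] using h3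

theorem len_add (h : ∀ r, Hf R r u → Hf R r v → Hf R r w) :
    R.len (u⁻¹ * v) = R.len (u⁻¹ * w) + R.len (w⁻¹ * v) := by
  classical
  rw [len_eq_card, len_eq_card, len_eq_card, ← Finset.card_union_of_disjoint]
  · congr 1
    ext r
    simp only [Finset.mem_filter, Finset.mem_union]
    constructor
    · rintro ⟨h1, h2, h3⟩
      by_cases h4 : Hf R r w
      · exact Or.inr ⟨h1, h4, h3⟩
      · exact Or.inl ⟨h1, h2, h4⟩
    · rintro (⟨h1, h2, h3⟩ | ⟨h1, h2, h3⟩)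
      · exact ⟨h1, h2, fun h4 => h3 (h r h2 h4)⟩
      · refine ⟨h1, ?_, h3⟩
        by_contra h4
        exact (hf_neg' h1).1 (h _ ((hf_neg' h1).2 h4) ((hf_neg' h1).2 h3)) h2
  · rw [Finset.disjoint_left]
    intro r h1 h2
    exact (Finset.mem_filter.1 h1).2.2 (Finset.mem_filter.1 h2).2.1

theorem mem_single : w ∈ R.WJ {j} ↔ w = 1 ∨ w = R.s j := by
  constructor
  · intro hw
    refine R.WJ_induction (p := fun w => w = 1 ∨ w = R.s j) hw (Or.inl rfl) ?_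
    rintro i rfl w _ (rfl | rfl)
    · exact Or.inr (mul_one _)
    · exact Or.inl (R.s_mul_self _)
  · rintro (rfl | rfl)
    · exact one_mem _
    · exact R.s_mem_WJ rfl

/-- lengths add after removing the last letter -/
theorem len_step (hw : R.Pos (w • R.simple i))
    (h : R.len (u * (w * R.s i)) = R.len u + R.len (w * R.s i)) :
    R.len (u * w) = R.len u + R.len w ∧ R.Pos ((u * w) • R.simple i) := by
  rw [R.len_mul_s_of_pos hw, ← mul_assoc] at h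
  have h1 := R.len_mul_le u w
  by_cases h2 : R.Pos ((u * w) • R.simple i)
  · rw [R.len_mul_s_of_pos h2] at h
    exact ⟨by omega, h2⟩
  · have := R.len_mul_s_of_not_pos h2
    omega

theorem ne_mul_s (w : R.W) (i : ι) : w ≠ w * R.s i := fun h =>
  R.s_ne_one i (by simpa using h.symm)

theorem len_w0 (v : R.W) :
    R.len (v * (v⁻¹ * R.w0 Set.univ)) = R.len v + R.len (v⁻¹ * R.w0 Set.univ) := by
  have := len_add (u := (1 : R.W)) (v := 1 * R.w0 Set.univ) (w := v)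
    fun r h1 h2 => absurd h1 ((hf_mul_w0' (hf_mem h1)).1 h2)
  simpa using this

end Bas1Aux

open Bas1Aux

namespace Bld

variable {Γ Ch : Type*} [Group Γ] [MulAction Γ Ch] {B : Bld R Γ Ch}
  {Γ' Ch' : Type*} [Group Γ'] [MulAction Γ' Ch'] {B' : Bld R Γ' Ch'}

section Bas1
variable {x y z x' y' : Ch} {u v w : R.W} {i j k : ι} {J : Set ι} {g h : Γ} {r : A} {S S' : Subgroup Γ}

theorem δ_mul (h1 : B.δ x y = u) (h2 : B.δ y z = v) (h : R.len (u * v) = R.len u + R.len v) :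
    B.δ x z = u * v := by
  induction v using R.induction_pos_right generalizing z with
  | h1 => rw [← B.δ_eq_one.1 h2, h1, mul_one]
  | hs i w hw ih =>
    obtain ⟨z', h3, h4⟩ := B.δ_ex y z i
    rw [h2, mul_assoc, R.s_mul_self, mul_one] at h4
    obtain ⟨h5, h6⟩ := len_step hw h
    have h7 := ih h4 h5
    have h8 : B.δ z' z = R.s i := by rw [B.δ_symm, h3, R.s_inv]
    rw [B.δ_up h8 (by rwa [h7]), h7, mul_assoc]

theorem exists_mid (h1 : B.δ x z = u * v) (h : R.len (u * v) = R.len u + R.len v) :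
    ∃ y, B.δ x y = u ∧ B.δ y z = v := by
  induction v using R.induction_pos_right generalizing z with
  | h1 => exact ⟨z, by rw [h1, mul_one], B.δ_self z⟩
  | hs i w hw ih =>
    obtain ⟨z', h3, h4⟩ := B.δ_ex x z i
    rw [h1, mul_assoc, mul_assoc, R.s_mul_self, mul_one] at h4
    obtain ⟨h5, h6⟩ := len_step hw h
    obtain ⟨y, h7, h8⟩ := ih h4 h5
    have h9 : B.δ z' z = R.s i := by rw [B.δ_symm, h3, R.s_inv]
    exact ⟨y, h7, by rw [B.δ_up h9 (by rwa [h8]), h8]⟩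

theorem panel (h1 : B.δ x y = R.s i) (h2 : B.δ x z = R.s i) (h : y ≠ z) : B.δ y z = R.s i := by
  have h3 : B.δ y x = R.s i := by rw [B.δ_symm, h1, R.s_inv]
  rcases B.δ_step y h2 with h4 | h4
  · rw [h3, R.s_mul_self] at h4
    exact absurd (B.δ_eq_one.1 h4) h
  · rw [h4, h3]

theorem mid_unique (h : R.len (u * v) = R.len u + R.len v) (h1 : B.δ x y = u) (h2 : B.δ y z = v)
    (h1' : B.δ x y' = u) (h2' : B.δ y' z = v) : y = y' := by
  induction v using R.induction_pos_right generalizing z with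
  | h1 => rw [B.δ_eq_one.1 h2, B.δ_eq_one.1 h2']
  | hs i w hw ih =>
    obtain ⟨h5, h6⟩ := len_step hw h
    have hl : R.len (w * R.s i) = R.len w + R.len (R.s i) := by
      rw [R.len_mul_s_of_pos hw, R.len_s]
    obtain ⟨z1, a1, b1⟩ := exists_mid h2 hl
    obtain ⟨z2, a2, b2⟩ := exists_mid h2' hl
    have c1 := δ_mul h1 a1 h5
    have c2 := δ_mul h1' a2 h5
    have e : z1 = z2 := by
      by_contra hne
      have d := panel (x := z) (by rw [B.δ_symm, b1, R.s_inv]) (by rw [B.δ_symm, b2, R.s_inv]) hne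
      have := B.δ_up (x := x) d (by rwa [c1])
      rw [c1, c2] at this
      exact ne_mul_s _ _ this
    subst e
    exact ih h5 a1 a2

theorem exists_ext (B : Bld R Γ Ch) (x : Ch) (w : R.W) : ∃ y, B.δ x y = w := by
  induction w using R.induction_right with
  | h1 => exact ⟨x, B.δ_self x⟩
  | hs i w ih =>
    obtain ⟨y, hy⟩ := ih
    obtain ⟨z, -, hz⟩ := B.δ_ex x y i
    exact ⟨z, by rw [hz, hy]⟩

theorem δ_mem_single : B.δ x y ∈ R.WJ {j} ↔ x = y ∨ B.δ x y = R.s j := by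
  rw [mem_single, B.δ_eq_one]

theorem exists_gate (B : Bld R Γ Ch) (J : Set ι) (x y : Ch) :
    ∃ z, B.δ y z ∈ R.WJ J ∧ ∀ j ∈ J, R.Pos (B.δ x z • R.simple j) := by
  suffices ∀ n, ∀ y', R.len (B.δ x y') = n → B.δ y y' ∈ R.WJ J →
      ∃ z, B.δ y z ∈ R.WJ J ∧ ∀ j ∈ J, R.Pos (B.δ x z • R.simple j) from
    this _ y rfl (by rw [B.δ_self]; exact one_mem _)
  intro n
  induction n using Nat.strong_induction_on with
  | _ n ih =>
    intro y' hn hy'
    by_cases hc : ∀ j ∈ J, R.Pos (B.δ x y' • R.simple j)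
    · exact ⟨y', hy', hc⟩
    · push Not at hc
      obtain ⟨j, hj, hc⟩ := hc
      obtain ⟨z, h1, h2⟩ := B.δ_ex x y' j
      refine ih _ ?_ z rfl (B.δ_mem_trans hy' (h1 ▸ R.s_mem_WJ hj))
      rw [h2, ← hn]
      exact R.len_mul_s_lt_iff.2 hc

theorem gate_δ (h : ∀ j ∈ J, R.Pos (B.δ x z • R.simple j)) (hy : B.δ z y ∈ R.WJ J) :
    B.δ x y = B.δ x z * B.δ z y :=
  δ_mul rfl rfl (R.len_mul_of_min h hy)

theorem gate_unique (h : ∀ j ∈ J, R.Pos (B.δ x y • R.simple j))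
    (h' : ∀ j ∈ J, R.Pos (B.δ x y' • R.simple j)) (hy : B.δ y y' ∈ R.WJ J) : y = y' := by
  have h1 := R.len_mul_of_min h hy
  have h2 := R.len_mul_of_min h' (B.δ_mem_symm hy)
  rw [← gate_δ h hy] at h1
  rw [← gate_δ h' (B.δ_mem_symm hy)] at h2
  exact B.δ_eq_one.1 (R.len_eq_zero_iff.1 (by omega))

theorem par_exists (hv : v • R.simple i = R.simple j) (h : B.δ x y = v) (hx : B.δ x x' = R.s j) :
    ∃ y', B.δ y y' = R.s i ∧ B.δ x' y' = v := by
  have h1 : R.Pos (v⁻¹ • R.simple j) := by rw [← hv, inv_smul_smul]; exact R.pos_simple i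
  have h2 : R.Pos (v • R.simple i) := by rw [hv]; exact R.pos_simple j
  have h3 : B.δ x' y = R.s j * v :=
    δ_mul (by rw [B.δ_symm, hx, R.s_inv]) h (by rw [R.len_s_mul_of_pos h1, R.len_s, add_comm])
  rw [← R.mul_s_of_smul_simple hv] at h3
  obtain ⟨y', h4, h5⟩ := exists_mid h3 (by rw [R.len_mul_s_of_pos h2, R.len_s])
  exact ⟨y', by rw [B.δ_symm, h5, R.s_inv], h4⟩

theorem par_unique (hv : v • R.simple i = R.simple j) (h : B.δ x y = v) (h' : B.δ x y' = v)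
    (hy : B.δ y y' ∈ R.WJ {i}) : y = y' := by
  rcases δ_mem_single.1 hy with h1 | h1
  · exact h1
  · have := B.δ_up (x := x) h1 (by rw [h, hv]; exact R.pos_simple j)
    rw [h, h'] at this
    exact absurd this (ne_mul_s _ _)

theorem triv_par (hv : v • R.simple i = R.simple j) (h : B.δ x y = v) (hg : g ∈ B.Tv x j)
    (hy : g • y = y) : g ∈ B.Tv y i := by
  refine ⟨hy, fun y' hy' => ?_⟩
  have hv' : v⁻¹ • R.simple j = R.simple i := by rw [← hv, inv_smul_smul]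
  obtain ⟨x', h1, h2⟩ := par_exists hv' (by rw [B.δ_symm, h]) hy'
  have h3 : B.δ x' y' = v := by rw [B.δ_symm, h2, inv_inv]
  have h4 : B.δ x' (g • y') = v := by rw [← hg.2 x' h1, B.δ_smul, h3]
  refine par_unique hv h4 h3 (B.δ_mem_trans (y := y) (B.δ_mem_symm ?_) ?_)
  · rw [← hy, B.δ_smul, hy']
    exact R.s_mem_WJ rfl
  · rw [hy']
    exact R.s_mem_WJ rfl

theorem trOn_par (hv : v • R.simple i = R.simple j) (h : B.δ x y = v)
    (hS : ∀ g ∈ S, g • x = x ∧ g • y = y) (ht : B.TrOn S y i) : B.TrOn S x j := by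
  intro x1 x2 h1 h2
  have hv' : v⁻¹ • R.simple j = R.simple i := by rw [← hv, inv_smul_smul]
  obtain ⟨y1, a1, b1⟩ := par_exists hv h h1
  obtain ⟨y2, a2, b2⟩ := par_exists hv h h2
  obtain ⟨g, hg, e⟩ := ht y1 y2 a1 a2
  refine ⟨g, hg, par_unique (x := y2) hv' ?_ ?_ (B.δ_mem_trans (y := x) (B.δ_mem_symm ?_) ?_)⟩
  · rw [← e, B.δ_smul, B.δ_symm, b1]
  · rw [B.δ_symm, b2]
  · rw [← (hS g hg).1, B.δ_smul, h1]
    exact R.s_mem_WJ rfl
  · rw [h2]
    exact R.s_mem_WJ rfl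

theorem triv_comm (hC : R.C j k = 0) (hg : g ∈ B.Tv x j) (h : B.δ x y = R.s k) (hy : g • y = y) :
    g ∈ B.Tv y j :=
  triv_par (by rw [R.s_smul k (R.simple_mem j), WeylData.σ_simple_of_eq_zero (c_symm hC)]) h hg hy

theorem mem_Tv_iff : g ∈ B.Tv x i ↔ ∀ y, B.δ x y ∈ R.WJ {i} → g • y = y := by
  constructor
  · intro hg y hy
    rcases δ_mem_single.1 hy with rfl | h1
    · exact hg.1
    · exact hg.2 y h1
  · intro hg
    exact ⟨hg x (δ_mem_single.2 (Or.inl rfl)), fun y hy => hg y (δ_mem_single.2 (Or.inr hy))⟩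

theorem Tv_panel (hg : g ∈ B.Tv x i) (h : B.δ x y ∈ R.WJ {i}) : g ∈ B.Tv y i :=
  mem_Tv_iff.2 fun z hz => mem_Tv_iff.1 hg z (B.δ_mem_trans h hz)

theorem Kr_conj (hg : g ∈ B.Kr J x) (h : Γ) : h * g * h⁻¹ ∈ B.Kr J (h • x) := by
  intro y hy
  rw [mul_smul, mul_smul, hg (h⁻¹ • y) (by rwa [← B.δ_smul h, smul_inv_smul]), smul_inv_smul]

theorem Tv_conj (hg : g ∈ B.Tv x i) (h : Γ) : h * g * h⁻¹ ∈ B.Tv (h • x) i :=
  mem_Tv_iff.2 (Kr_conj (J := {i}) (mem_Tv_iff.1 hg) h)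

theorem Kr_eq (h : B.δ x y ∈ R.WJ J) : B.Kr J x = B.Kr J y := by
  ext g
  exact ⟨fun hg z hz => hg z (B.δ_mem_trans h hz),
    fun hg z hz => hg z (B.δ_mem_trans (B.δ_mem_symm h) hz)⟩

theorem Kr_le_Tv (hj : j ∈ J) : B.Kr J x ≤ B.Tv x j := fun _ hg =>
  mem_Tv_iff.2 fun y hy => hg y (R.WJ_mono (Set.singleton_subset_iff.2 hj) hy)

theorem fix_mid (h : R.len (B.δ x y * B.δ y z) = R.len (B.δ x y) + R.len (B.δ y z))
    (hx : g • x = x) (hz : g • z = z) : g • y = y := by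
  refine mid_unique (B := B) (x := x) (z := z) h ?_ ?_ rfl rfl
  · conv_lhs => rw [← hx, B.δ_smul]
  · conv_lhs => rw [← hz, B.δ_smul]

theorem fix_conv (h : ∀ r, Hf R r u → Hf R r v → Hf R r w) (hu : g • B.a u = B.a u)
    (hv : g • B.a v = B.a v) : g • B.a w = B.a w := by
  refine fix_mid (B := B) ?_ hu hv
  rw [B.δ_a, B.δ_a, ← len_add h]
  congr 1
  group

theorem card_panel (B : Bld R Γ Ch) (x : Ch) (i : ι) :
    Nat.card {y : Ch // B.δ x y = R.s i} = B.q i := by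
  obtain ⟨g, hg, -⟩ := B.trans (x := x) (y := x) (x' := B.a 1) (y' := B.a 1)
    (by rw [B.δ_self, B.δ_self])
  refine Nat.card_congr ((MulAction.toPerm g).subtypeEquiv fun y => ?_)
  rw [MulAction.toPerm_apply, ← hg, B.δ_smul]

theorem two_le_q [Finite Ch] (B : Bld R Γ Ch) (i : ι) : 2 ≤ B.q i := by
  obtain ⟨y, z, hne, h1, h2⟩ := B.thick (B.a 1) i
  have : Nontrivial {y : Ch // B.δ (B.a 1) y = R.s i} :=
    ⟨⟨y, h1⟩, ⟨z, h2⟩, fun e => hne (congrArg Subtype.val e)⟩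
  exact Finite.one_lt_card

theorem a_injective (B : Bld R Γ Ch) : Function.Injective B.a := by
  intro v w h
  have := B.δ_eq_one.2 h
  rw [B.δ_a] at this
  exact inv_mul_eq_one.1 this

theorem mem_H_of (hv : g • B.a v = B.a v)
    (hv' : g • B.a (v * R.w0 Set.univ) = B.a (v * R.w0 Set.univ)) : g ∈ B.H := fun w =>
  fix_conv (fun r h1 h2 => absurd h1 ((hf_mul_w0' (hf_mem h1)).1 h2)) hv hv'

theorem exists_lifts (B : Bld R Γ Ch) (w : R.W) : ∃ g, B.Lifts g w := by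
  obtain ⟨g, h1, h2⟩ := B.trans (x := B.a 1) (y := B.a (R.w0 Set.univ)) (x' := B.a w)
    (y' := B.a (w * R.w0 Set.univ)) (by rw [B.δ_a, B.δ_a]; group)
  refine ⟨g, fun v => mid_unique (B := B) (x := B.a w) (z := B.a (w * R.w0 Set.univ)) (len_w0 v)
    ?_ ?_ ?_ ?_⟩
  · rw [← h1, B.δ_smul, δ_a_one]
  · rw [← h2, B.δ_smul, B.δ_a]
  · rw [B.δ_a]; group
  · rw [B.δ_a]; group

theorem lifts_one_iff : B.Lifts g 1 ↔ g ∈ B.H := by
  simp only [Lifts, one_mul, mem_H]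

theorem Lifts.mul (h1 : B.Lifts g v) (h2 : B.Lifts h w) : B.Lifts (g * h) (v * w) := fun u => by
  rw [mul_smul, h2, h1, mul_assoc]

theorem Lifts.inv (h1 : B.Lifts g w) : B.Lifts g⁻¹ w⁻¹ := fun u => by
  rw [inv_smul_eq_iff, h1, mul_inv_cancel_left]

theorem Lifts.conj_Br (hn : B.Lifts h w) : h * g * h⁻¹ ∈ B.Br (w • r) ↔ g ∈ B.Br r := by
  constructor
  · intro hg u hu
    have := hg (w * u) ((hf_smul' w).2 hu)
    rw [← hn u, mul_smul, mul_smul, inv_smul_smul] at this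
    exact MulAction.injective h this
  · intro hg u hu
    obtain ⟨u, rfl⟩ : ∃ u', u = w * u' := ⟨w⁻¹ * u, by group⟩
    rw [← hn u, mul_smul, mul_smul, inv_smul_smul, hg u ((hf_smul' w).1 hu)]

theorem Lifts.conj_UJ (hn : B.Lifts h w) (hw : w ∈ R.WJ J) :
    h * g * h⁻¹ ∈ B.UJ J (w • r) ↔ g ∈ B.UJ J r := by
  rw [mem_UJ, mem_UJ, hn.conj_Br]
  refine and_congr_right fun _ => ⟨fun hg u hu j hj h1 h2 => ?_, fun hg u hu j hj h1 h2 => ?_⟩
  · have := Tv_conj (hg (w * u) (mul_mem hw hu) j hj ((hf_smul' w).2 h1)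
      (by rw [mul_assoc]; exact (hf_smul' w).2 h2)) h⁻¹
    rw [← hn u, inv_smul_smul] at this
    simpa [mul_assoc] using this
  · obtain ⟨u, rfl⟩ : ∃ u', u = w * u' := ⟨w⁻¹ * u, by group⟩
    rw [← hn u]
    rw [mul_assoc] at h2
    exact Tv_conj (hg u ((mul_mem_cancel_left hw).1 hu) j hj ((hf_smul' w).1 h1)
      ((hf_smul' w).1 h2)) h

theorem Lifts.conj_U (hn : B.Lifts h w) : h * g * h⁻¹ ∈ B.U (w • r) ↔ g ∈ B.U r :=
  hn.conj_UJ (by simp)

theorem U_le_UJ (J : Set ι) (r : A) : B.U r ≤ B.UJ J r := fun _ hg =>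
  ⟨hg.1, fun w _ j _ => (mem_U.1 hg).2 w j⟩

theorem TrOn.mono (ht : B.TrOn S x i) (h : S ≤ S') : B.TrOn S' x i := fun y z hy hz =>
  let ⟨g, hg, e⟩ := ht y z hy hz
  ⟨g, h hg, e⟩

theorem TrOn.conj (ht : B.TrOn S x i) (h : Γ) (hS : ∀ g ∈ S, h * g * h⁻¹ ∈ S') :
    B.TrOn S' (h • x) i := by
  intro y z hy hz
  obtain ⟨g, hg, e⟩ := ht (h⁻¹ • y) (h⁻¹ • z) (by rwa [← B.δ_smul h, smul_inv_smul])
    (by rwa [← B.δ_smul h, smul_inv_smul])
  exact ⟨_, hS g hg, by rw [mul_smul, mul_smul, e, smul_inv_smul]⟩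

namespace Bas1Aux

theorem orbit_subset (hS : ∀ g ∈ S, g • x = x) (hy : B.δ x y = R.s i) :
    MulAction.orbit S y ⊆ {z | B.δ x z = R.s i} := by
  rintro _ ⟨g, rfl⟩
  change B.δ x ((g : Γ) • y) = R.s i
  rw [← hS g g.2, B.δ_smul, hy]

theorem orbit_eq (ht : B.TrOn S x i) (hS : ∀ g ∈ S, g • x = x) (hy : B.δ x y = R.s i) :
    MulAction.orbit S y = {z | B.δ x z = R.s i} := by
  refine (orbit_subset hS hy).antisymm fun z hz => ?_
  obtain ⟨g, hg, e⟩ := ht y z hy hz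
  exact ⟨⟨g, hg⟩, e⟩

theorem ncard_panel (B : Bld R Γ Ch) (x : Ch) (i : ι) : {z | B.δ x z = R.s i}.ncard = B.q i :=
  card_panel B x i

end Bas1Aux

theorem TrOn.sylow [Finite Γ] [Finite Ch] {p e : ℕ} (hp : p.Prime) (ht : B.TrOn S x i)
    (hS : ∀ g ∈ S, g • x = x) (hq : B.q i = p ^ e) :
    ∃ S' ≤ S, IsPGroup p S' ∧ B.TrOn S' x i := by
  have := Fact.mk hp
  obtain ⟨Q, hQ⟩ := Block.exists_isSylowIn p S
  refine ⟨Q, hQ.le, hQ.isPGroup, fun y z hy hz => ?_⟩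
  have h1 : p ^ e ∣ (MulAction.orbit Q y).ncard :=
    pow_dvd_ncard_orbit hQ y (by rw [Bas1Aux.orbit_eq ht hS hy, Bas1Aux.ncard_panel, hq])
  have h2 : MulAction.orbit Q y = {z | B.δ x z = R.s i} := by
    refine Set.eq_of_subset_of_ncard_le (Bas1Aux.orbit_subset (fun g hg => hS g (hQ.le hg)) hy) ?_
    rw [Bas1Aux.ncard_panel, hq]
    exact Nat.le_of_dvd ((Set.ncard_pos (Set.toFinite _)).2 ⟨y, MulAction.mem_orbit_self y⟩) h1
  obtain ⟨g, hg⟩ : z ∈ MulAction.orbit Q y := h2 ▸ hz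
  exact ⟨g, g.2, hg⟩

theorem TrOn.q_pow [Finite Γ] [Finite Ch] {p : ℕ} (hp : p.Prime) (ht : B.TrOn S x i)
    (hS : ∀ g ∈ S, g • x = x) (hP : IsPGroup p S) : ∃ e, 0 < e ∧ B.q i = p ^ e := by
  have := Fact.mk hp
  obtain ⟨y, hy⟩ := exists_ext B x (R.s i)
  obtain ⟨n, hn⟩ := IsPGroup.iff_card.1 hP
  have h1 := card_eq_ncard_orbit_mul S y
  rw [Bas1Aux.orbit_eq ht hS hy, Bas1Aux.ncard_panel, hn] at h1
  obtain ⟨e, -, he⟩ := (Nat.dvd_prime_pow hp).1 (Dvd.intro _ h1.symm)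
  refine ⟨e, Nat.pos_of_ne_zero ?_, he⟩
  rintro rfl
  have := two_le_q B i
  rw [pow_zero] at he
  omega

end Bas1

end Bld

end Cfsg.Lib.BLD
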