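import Cfsg.Agent.BLD.GqH
import Cfsg.Agent.Perm.PlaneElation

/-!
# `p`-groups fixing two disjoint lines of a generalised quadrangle pointwise
-/

set_option autoImplicit false
set_option linter.unusedSectionVars false

namespace Cfsg.Lib.BLD

open Cfsg.Lib.Chev Cfsg.Lib.Perm.Plane Configuration

namespace GQ

variable {G P L : Type*} [Group G] [MulAction G P] [MulAction G L] [Finite P] [Finite L]
  (Q : GQ G P L)

namespace Fx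

variable {Q} {g : G} {x y z : P} {l m n l₁ l₂ : L} {A A' S : Subgroup G}

theorem line (hx : Q.I x l) (hy : Q.I y l) (h : x ≠ y) (ex : g • x = x) (ey : g • y = y) :
    g • l = l :=
  (Q.uniq (ex ▸ (Q.smul g x l).2 hx) (ey ▸ (Q.smul g y l).2 hy) hx hy).resolve_left h

theorem of_disj (hd : ∀ x, Q.I x l → ¬ Q.I x n) (hl : ∀ x, Q.I x l → g • x = x) (e : g • n = n)
    (hy : Q.I y n) : g • y = y := by
  obtain ⟨x, k, h1, h2, h3⟩ := Q.ex y l fun h => hd y h hy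
  exact Q.un (hd x h1) (e ▸ (Q.smul g y n).2 hy) (hl x h1 ▸ (Q.smul g x k).2 h3)
    ((Q.smul g y k).2 h2) hy h3 h2

theorem disj (hx : Q.I x l) (hy : Q.I y l) (h : x ≠ y) (hm : Q.I x m) (ml : m ≠ l) (hn : Q.I y n)
    (nl : n ≠ l) : ∀ c, Q.I c m → ¬ Q.I c n := fun c h1 h2 => by
  by_cases hc : Q.I c l
  · exact h (((Q.uniq hm h1 hx hc).resolve_right ml).trans
      ((Q.uniq h2 hn hc hy).resolve_right nl))
  · exact h (Q.un hc hx h1 hm hy h2 hn)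

theorem exists_pt (l : L) (x y : P) : ∃ z, Q.I z l ∧ z ≠ x ∧ z ≠ y := by
  by_contra! h
  have h1 : {z | Q.I z l} ⊆ {x, y} := fun z hz => or_iff_not_imp_left.2 (h z hz)
  have h2 := (Set.ncard_le_ncard h1).trans (Set.ncard_insert_le x {y})
  have := Q.two_le_s
  rw [Q.card_pts, Set.ncard_singleton] at h2
  omega

variable (Q) in
/-- The lines through `x` fixed by `A`. -/
def FL (A : Subgroup G) (x : P) : Set L := {l | Q.I x l ∧ ∀ g ∈ A, g • l = l}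

theorem FL_eq_1' : type_of% @FL.eq_1 := @FL.eq_1

variable (Q) in
/-- The hypotheses on `S`. -/
structure Hy (S : Subgroup G) (l₁ l₂ : L) : Prop where
  hd : ∀ x, Q.I x l₁ → ¬ Q.I x l₂
  h₁ : ∀ g ∈ S, ∀ x, Q.I x l₁ → g • x = x
  h₂ : ∀ g ∈ S, ∀ x, Q.I x l₂ → g • x = x
  h₃ : ∀ g ∈ S, ∃ m, m ≠ l₁ ∧ (∃ x, Q.I x m ∧ Q.I x l₁) ∧ ∀ x, Q.I x m → g • x = x

theorem Hy.mono (h : Hy Q S l₁ l₂) (hA : A ≤ S) : Hy Q A l₁ l₂ :=
  ⟨h.hd, fun g hg => h.h₁ g (hA hg), fun g hg => h.h₂ g (hA hg), fun g hg => h.h₃ g (hA hg)⟩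

theorem Hy.trv (h : Hy Q S l₁ l₂) (hx : Q.I x l₁) :
    ∃ y m, Q.I y l₂ ∧ Q.I y m ∧ m ≠ l₁ ∧ m ∈ FL Q S x := by
  obtain ⟨y, m, h1, h2, h3⟩ := Q.ex x l₂ (h.hd x hx)
  exact ⟨y, m, h1, h3, fun e => h.hd y (e ▸ h3) h1, h2, fun g hg =>
    line h2 h3 (fun e => h.hd x hx (e ▸ h1)) (h.h₁ g hg x hx) (h.h₂ g hg y h1)⟩

theorem Hy.mem (h : Hy Q S l₁ l₂) (hx : Q.I x l₁) : l₁ ∈ FL Q S x := by
  obtain ⟨z, h1, h2, -⟩ := exists_pt (Q := Q) l₁ x x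
  exact ⟨hx, fun g hg => line h1 hx h2 (h.h₁ g hg z h1) (h.h₁ g hg x hx)⟩

theorem Hy.closed (h : Hy Q S l₁ l₂) (hg : g ∈ S) (e : g • n = n) (hy : Q.I y n) : g • y = y := by
  obtain ⟨m, m1, ⟨x, m2, m3⟩, m4⟩ := h.h₃ g hg
  by_cases h1 : n = l₁
  · exact h.h₁ g hg y (h1 ▸ hy)
  by_cases h2 : ∀ a, Q.I a l₁ → ¬ Q.I a n
  · exact of_disj h2 (h.h₁ g hg) e hy
  push Not at h2
  obtain ⟨a, a1, a2⟩ := h2
  by_cases h3 : x = a
  · obtain ⟨z, z1, z2, -⟩ := exists_pt (Q := Q) l₁ x x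
    obtain ⟨-, k, -, -, k1, k2, k3⟩ := h.trv z1
    exact of_disj (disj z1 m3 z2 k2 k1 (h3 ▸ a2) h1)
      (fun c => of_disj (disj m3 z1 z2.symm m2 m1 k2 k1) m4 (k3 g hg)) e hy
  · exact of_disj (disj m3 a1 h3 m2 m1 a2 h1) m4 e hy

theorem Hy.fix (h : Hy Q S l₁ l₂) (hl : l ∈ FL Q S x) (hy : Q.I y l) : ∀ g ∈ S, g • y = y :=
  fun g hg => h.closed hg (hl.2 g hg) hy

theorem Hy.card_le (h : Hy Q S l₁ l₂) (hy : ∀ g ∈ S, g • y = y)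
    (hn : ∀ l, Q.I x l → ¬ Q.I y l) : (FL Q S x).ncard ≤ (FL Q S y).ncard := by
  have k : ∀ l : FL Q S x, ∃ u m, Q.I u l ∧ Q.I y m ∧ Q.I u m := fun l => Q.ex y l (hn l l.2.1)
  choose u m h1 h2 h3 using k
  rw [← Set.ncard_coe]
  refine Set.ncard_le_ncard_of_injOn m (fun l _ => ⟨h2 l, fun g hg => line (h2 l) (h3 l)
    (fun e => hn l l.2.1 (e ▸ h1 l)) (hy g hg) (h.fix l.2 (h1 l) g hg)⟩) fun l _ l' _ e => ?_
  have a : ¬ Q.I x (m l) := fun a => hn _ a (h2 l)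
  have b : u l = u l' := Q.un a (h3 l) l.2.1 (h1 l) (e ▸ h3 l') l'.2.1 (h1 l')
  exact Subtype.ext ((Q.uniq l.2.1 (h1 l) l'.2.1 (b ▸ h1 l')).resolve_left
    fun c => a (c ▸ h3 l))

theorem Hy.card_eq (h : Hy Q S l₁ l₂) (hx : ∀ g ∈ S, g • x = x) (hy : ∀ g ∈ S, g • y = y)
    (hn : ∀ l, Q.I x l → ¬ Q.I y l) : (FL Q S x).ncard = (FL Q S y).ncard :=
  le_antisymm (h.card_le hy hn) (h.card_le hx fun l a b => hn l b a)

theorem Hy.card_eq₁ (h : Hy Q S l₁ l₂) (hx : Q.I x l₁) (hy : Q.I y l₁) :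
    (FL Q S x).ncard = (FL Q S y).ncard := by
  obtain ⟨z, z1, z2, z3⟩ := exists_pt (Q := Q) l₁ x y
  obtain ⟨w, k, w1, w2, -, k2, -⟩ := h.trv z1
  have a : ∀ u, Q.I u l₁ → z ≠ u → (FL Q S u).ncard = (FL Q S w).ncard := fun u u1 u2 =>
    h.card_eq (fun g hg => h.h₁ g hg u u1) (fun g hg => h.h₂ g hg w w1) fun l b c =>
      u2 (Q.un (fun d => h.hd w d w1) z1 w2 k2 u1 c b)
  rw [a x hx z2, a y hy z3]

theorem Hy.card_eq₂ (h : Hy Q S l₁ l₂) (hx : Q.I x l₁) (hl : l ∈ FL Q S x) (hne : l ≠ l₁)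
    (hy : Q.I y l) (hxy : y ≠ x) : (FL Q S y).ncard = (FL Q S x).ncard := by
  obtain ⟨z, z1, z2, -⟩ := exists_pt (Q := Q) l₁ x x
  rw [h.card_eq₁ hx z1]
  exact h.card_eq (h.fix hl hy) (fun g hg => h.h₁ g hg z z1) fun k a b => z2 (Q.un
    (fun d => hxy ((Q.uniq hy hl.1 d hx).resolve_right hne)) z1 a b hx hy hl.1)

theorem card_FL_le (A : Subgroup G) (x : P) : (FL Q A x).ncard ≤ Q.t + 1 :=
  Q.card_lns x ▸ Set.ncard_le_ncard fun _ h => h.1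

theorem Hy.all (h : Hy Q S l₁ l₂) (hx : Q.I x l₁) (ha : ∀ l, Q.I x l → l ∈ FL Q S x) :
    ∀ g ∈ S, g • y = y := by
  obtain ⟨-, m, -, -, m1, m2⟩ := h.trv hx
  by_cases h1 : Q.I y m
  · exact h.fix m2 h1
  obtain ⟨u, k, u1, u2, u3⟩ := Q.ex y m h1
  by_cases h2 : u = x
  · exact h.fix (ha k (h2 ▸ u3)) u2
  have e : FL Q S u = {l | Q.I u l} := Set.eq_of_subset_of_ncard_le (fun _ a => a.1) (by
    rw [h.card_eq₂ hx m2 m1 u1 h2, Q.card_lns, ← Q.card_lns x]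
    exact Set.ncard_le_ncard ha)
  exact h.fix (x := u) (e ▸ u3) u2

theorem Hy.sub (h : Hy Q S l₁ l₂) (hA : A ≤ S) (hx : Q.I x l₁) (hl : l ∈ FL Q A x)
    (hl' : l ∉ FL Q S x) : Q.s * ((FL Q S x).ncard - 1) + 1 ≤ (FL Q A x).ncard := by
  classical
  have ne : l ≠ l₁ := fun e => hl' (e ▸ h.mem hx)
  obtain ⟨y, y1, y2, -⟩ := exists_pt (Q := Q) l x x
  have y3 : ¬ Q.I y l₁ := fun d => y2 ((Q.uniq y1 hl.1 d hx).resolve_right ne)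
  have nf : ∀ u, Q.I u l → (∀ g ∈ S, g • u = u) → u = x := fun u u1 u2 => by_contra fun u3 =>
    hl' ⟨hl.1, fun g hg => line u1 hl.1 u3 (u2 g hg) (h.h₁ g hg x hx)⟩
  let T := (z : ({z | Q.I z l₁} \ {x} : Set P)) × (FL Q S z \ {l₁} : Set L)
  have c : Nat.card T = Q.s * ((FL Q S x).ncard - 1) := by
    have := Fintype.ofFinite ({z | Q.I z l₁} \ {x} : Set P)
    rw [Nat.card_sigma, Finset.sum_const_nat (m := (FL Q S x).ncard - 1) fun z _ => by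
      rw [Nat.card_coe_set_eq, Set.ncard_sdiff_singleton_of_mem (h.mem z.2.1), h.card_eq₁ z.2.1 hx],
      Finset.card_univ, ← Nat.card_eq_fintype_card, Nat.card_coe_set_eq,
      Set.ncard_sdiff_singleton_of_mem (show x ∈ {z | Q.I z l₁} from hx), Q.card_pts,
      Nat.add_sub_cancel]
  have nc : ∀ (a : T) k, Q.I y k → ¬ Q.I a.1.1 k := fun a k b d =>
    a.1.2.2 (Q.un y3 a.1.2.1 b d hx y1 hl.1)
  have k : ∀ a : T, ∃ u m, Q.I u a.2.1 ∧ Q.I y m ∧ Q.I u m := fun a =>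
    Q.ex y a.2.1 fun d => nc a _ d a.2.2.1.1
  choose u m h1 h2 h3 using k
  have fu : ∀ a, ∀ g ∈ S, g • u a = u a := fun a => h.fix a.2.2.1 (h1 a)
  have nu : ∀ a, ¬ Q.I (u a) l₁ := fun a d =>
    nc a _ (h2 a) ((Q.uniq (h1 a) a.2.2.1.1 d a.1.2.1).resolve_right a.2.2.2 ▸ h3 a)
  have i : Function.Injective m := fun a b e => by
    have e1 : u a = u b := by_contra fun d => y2 (nf y y1 fun g hg =>
      h.closed hg (line (h3 a) (e ▸ h3 b) d (fu a g hg) (fu b g hg)) (h2 a))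
    obtain ⟨⟨z, z1⟩, ka, k1⟩ := a
    obtain ⟨⟨z', z1'⟩, kb, k1'⟩ := b
    have e2 : z = z' := Q.un (nu _) z1.1 (h1 ⟨⟨z, z1⟩, ka, k1⟩) k1.1.1 z1'.1
      (e1 ▸ h1 ⟨⟨z', z1'⟩, kb, k1'⟩) k1'.1.1
    subst e2
    have e3 : ka = kb := (Q.uniq (h1 ⟨⟨z, z1⟩, ka, k1⟩) k1.1.1 (e1 ▸ h1 ⟨⟨z, z1⟩, kb, k1'⟩)
      k1'.1.1).resolve_left fun d => nu ⟨⟨z, z1⟩, ka, k1⟩ (by rw [d]; exact z1.1)
    subst e3
    rfl
  have hy := (h.mono hA).fix hl y1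
  have le : Nat.card T ≤ (FL Q A y \ {l}).ncard := by
    rw [← Set.ncard_univ]
    refine Set.ncard_le_ncard_of_injOn m (fun a _ => ⟨⟨h2 a, fun g hg => line (h2 a) (h3 a)
      (fun e => nc a _ (e ▸ h1 a) a.2.2.1.1) (hy g hg) (fu a g (hA hg))⟩, fun e => ?_⟩) i.injOn
    exact nu a (nf _ ((show m a = l from e) ▸ h3 a) (fu a) ▸ hx)
  have hm : l ∈ FL Q A y := ⟨y1, hl.2⟩
  rw [← (h.mono hA).card_eq₂ hx hl ne y1 y2, ← Set.ncard_sdiff_singleton_add_one hm, ← c]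
  omega

theorem Hy.two_le (h : Hy Q S l₁ l₂) (hx : Q.I x l₁) : 2 ≤ (FL Q S x).ncard := by
  obtain ⟨-, m, -, -, m1, m2⟩ := h.trv hx
  exact (Set.one_lt_ncard).2 ⟨m, m2, l₁, h.mem hx, m1⟩

end Fx

open Fx in
theorem fix_lt [Finite G] {p : ℕ} (hp : p.Prime) (hs : p ∣ Q.s) {S K : Subgroup G}
    (hS : IsPGroup p S) (hK : ∀ g, g ∈ K ↔ ∀ x : P, g • x = x) {l₁ l₂ : L}
    (hd : ∀ x, Q.I x l₁ → ¬ Q.I x l₂) (h₁ : ∀ g ∈ S, ∀ x, Q.I x l₁ → g • x = x)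
    (h₂ : ∀ g ∈ S, ∀ x, Q.I x l₂ → g • x = x)
    (h₃ : ∀ g ∈ S, ∃ m, m ≠ l₁ ∧ (∃ x, Q.I x m ∧ Q.I x l₁) ∧ ∀ x, Q.I x m → g • x = x) :
    K.relIndex S < Q.s ^ 2 := by
  have h : Hy Q S l₁ l₂ := ⟨hd, h₁, h₂, h₃⟩
  obtain ⟨x, hx⟩ : {x | Q.I x l₁}.Nonempty :=
    Set.nonempty_of_ncard_ne_zero (by rw [Q.card_pts]; omega)
  have : Nonempty P := ⟨x⟩
  have ht := Q.t_le
  have s2 := Q.two_le_s
  have f2 := h.two_le hx
  by_cases ha : ∀ l, Q.I x l → l ∈ FL Q S x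
  · rw [Subgroup.relIndex_eq_one.2 fun g hg => (hK g).2 fun y => h.all hx ha g hg]
    nlinarith
  push Not at ha
  obtain ⟨N, N1, N2⟩ := ha
  have hA := h.mono (A := S ⊓ MulAction.stabilizer G N) inf_le_left
  by_cases hb : ∀ l, Q.I x l → l ∈ FL Q (S ⊓ MulAction.stabilizer G N) x
  · have e : K.subgroupOf S = MulAction.stabilizer S N := by
      ext g
      refine ⟨fun hg => ?_, fun hg => (hK g).2 fun y => hA.all hx hb g ⟨g.2, hg⟩⟩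
      obtain ⟨z, z1, z2, -⟩ := exists_pt (Q := Q) N x x
      exact line (g := (g : G)) z1 N1 z2 ((hK g).1 hg z) ((hK g).1 hg x)
    have e1 : MulAction.orbit S N ⊆ {l | Q.I x l} \ FL Q S x := by
      rintro _ ⟨g, rfl⟩
      refine ⟨h₁ g g.2 x hx ▸ (Q.smul g x N).2 N1, fun d => N2 ?_⟩
      have := d.2 _ (inv_mem g.2)
      rw [show (g : G)⁻¹ • g • N = N from inv_smul_smul _ _] at this
      exact this ▸ d
    have e2 := Set.ncard_le_ncard e1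
    rw [Set.ncard_sdiff (fun _ a => a.1), Q.card_lns] at e2
    rw [Subgroup.relIndex, e, MulAction.index_stabilizer]
    have := Q.two_le_t
    omega
  push Not at hb
  obtain ⟨M, M1, M2⟩ := hb
  have a1 := h.sub (A := S ⊓ MulAction.stabilizer G N) inf_le_left hx (l := N)
    ⟨N1, fun g hg => hg.2⟩ N2
  have a2 := (hA.sub bot_le hx (l := M) ⟨M1, fun g hg => by
    rw [Subgroup.mem_bot.1 hg, one_smul]⟩ M2).trans (card_FL_le _ x)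
  have := Fact.mk hp
  have a3 := ncard_modEq_fixed hS {l | Q.I x l} fun g hg l hl =>
    h₁ g hg x hx ▸ (Q.smul g x l).2 hl
  rw [Q.card_lns] at a3
  change _ ≡ (FL Q S x).ncard [MOD p] at a3
  obtain ⟨f, hf⟩ : ∃ f, (FL Q S x).ncard = f + 2 := ⟨_, (Nat.sub_add_cancel f2).symm⟩
  rw [hf] at a1 a3
  have a4 : Q.s * (Q.s * (f + 1)) ≤ Q.t :=
    (Nat.mul_le_mul_left _ (Nat.le_sub_one_of_lt a1)).trans (by omega)
  have a5 : f = 0 := by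
    by_contra d
    have : Q.s * (Q.s * 2) ≤ Q.s * (Q.s * (f + 1)) := by gcongr; omega
    nlinarith
  subst a5
  have a6 : Q.t = Q.s * Q.s := by nlinarith
  rw [a6] at a3
  have a7 := (Nat.ModEq.add_right_cancel' 1 (a3 : Q.s * Q.s + 1 ≡ 1 + 1 [MOD p])).symm.trans
    ((Nat.modEq_zero_iff_dvd).2 (hs.mul_right _))
  exact absurd ((Nat.modEq_zero_iff_dvd).1 a7) hp.not_dvd_one

end GQ

end Cfsg.Lib.BLD
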