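import Cfsg.Agent.BLD.Defs

/-!
The half Moufang condition in a finite generalised quadrangle.
-/

set_option autoImplicit false
set_option linter.unusedSectionVars false

namespace Cfsg.Lib.BLD

open Subgroup

namespace GQ

namespace Half

theorem lift {G X : Type*} [Group G] [Finite G] [Group X] {p : ℕ} (hp : p.Prime) (f : G →* X) (s : Set G)
    (h1 : ∀ g ∈ s, f (g ^ p) = 1)
    (h2 : ∀ a ∈ closure s, ∀ b ∈ closure s, ∀ g ∈ s, f g * f (a * b * a⁻¹ * b⁻¹) = f (a * b * a⁻¹ * b⁻¹) * f g) :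
    ∃ S ≤ closure s, IsPGroup p S ∧ ∀ g ∈ closure s, ∃ x ∈ S, f x = f g := by
  have := Fact.mk hp
  let φ := (f.comp (closure s).subtype).rangeRestrict
  have hφ : Function.Surjective φ := MonoidHom.rangeRestrict_surjective _
  have := Finite.of_surjective φ hφ
  have : Group.IsNilpotent (f.comp (closure s).subtype).range :=
    Subgroup.isNilpotent_of_ker_le_center Abelianization.of (by
      rw [Abelianization.ker_of, commutator_def, commutator_le]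
      intro a _ b _
      obtain ⟨a, rfl⟩ := hφ a
      obtain ⟨b, rfl⟩ := hφ b
      refine mem_center_iff.2 fun g => ?_
      obtain ⟨g, rfl⟩ := hφ g
      have := mem_centralizer_singleton_iff.1 (((closure_le ((centralizer {f (a * b * a⁻¹ * b⁻¹)}).comap f)).2
        fun g hg => mem_centralizer_singleton_iff.2 (h2 a a.2 b b.2 g hg)) g.2)
      exact Subtype.ext (by simpa [φ, commutatorElement_def] using this))
  obtain ⟨S⟩ : Nonempty (Sylow p (closure s)) := inferInstance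
  have := Sylow.unique_of_normal (S.mapSurjective hφ)
    (Sylow.normal_of_normalizerCondition Group.normalizerCondition_of_isNilpotent _)
  refine ⟨S.1.map (closure s).subtype, map_subtype_le _, S.isPGroup'.map _, fun g hg => ?_⟩
  refine (closure_le ((S.1.map (f.comp (closure s).subtype)).comap f)).2 (fun g hg => ?_) hg |>.elim
    fun x hx => ⟨x, ⟨x, hx.1, rfl⟩, hx.2⟩
  obtain ⟨R, hR⟩ := (IsPGroup.of_card_dvd_pow (G := zpowers (φ ⟨g, subset_closure hg⟩)) (p := p) (n := 1) (by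
    rw [Nat.card_zpowers, pow_one]
    exact orderOf_dvd_of_pow_eq_one (Subtype.ext (by simpa [φ] using h1 g hg)))).exists_le_sylow
  obtain ⟨x, hx, e⟩ := (Subsingleton.elim R (S.mapSurjective hφ) ▸ hR) (mem_zpowers _)
  exact ⟨x, hx, congrArg Subtype.val e⟩

variable {G P L : Type*} [Group G] [MulAction G P] [MulAction G L] [Finite P] [Finite L] {Q : GQ G P L}

/-- Collinear points. -/
def Col (Q : GQ G P L) (x y : P) : Prop := ∃ m, Q.I x m ∧ Q.I y m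

theorem Col.symm {x y : P} (h : Col Q x y) : Col Q y x := h.imp fun _ k => k.symm

theorem Col.un {x y y' : P} {l : L} (h : ¬ Q.I x l) (hy : Q.I y l) (hy' : Q.I y' l) (c : Col Q x y)
    (c' : Col Q x y') : y = y' :=
  c.elim fun _ k => c'.elim fun _ k' => Q.un h hy k.1 k.2 hy' k'.1 k'.2

theorem exc {x : P} {l : L} (h : ¬ Q.I x l) : ∃ y, Q.I y l ∧ Col Q x y :=
  (Q.ex x l h).imp fun _ ⟨m, k⟩ => ⟨k.1, m, k.2⟩

theorem third {α : Type*} {s : Set α} {n : ℕ} (h : s.ncard = n + 1) (hn : 2 ≤ n) (a b : α) :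
    ∃ y ∈ s, y ≠ a ∧ y ≠ b := by
  by_contra! k
  have : s ⊆ {a, b} := fun y hy => by_contra fun l => l (Or.inr (k y hy fun e => l (Or.inl e)))
  have := (Set.ncard_le_ncard this (Set.toFinite _)).trans (Set.ncard_insert_le a {b})
  rw [Set.ncard_singleton] at this
  omega

theorem ex_pt (l : L) (a b : P) : ∃ y, Q.I y l ∧ y ≠ a ∧ y ≠ b := third (Q.card_pts l) Q.two_le_s a b

theorem ex_ln (x : P) (a : L) : ∃ n, Q.I x n ∧ n ≠ a :=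
  (third (Q.card_lns x) Q.two_le_t a a).imp fun _ k => ⟨k.1, k.2.1⟩

theorem proj {g : G} {x x' y y' : P} {l : L} (hx : g • x = x') (hl : g • l = l) (h : ¬ Q.I x' l) (hy : Q.I y l)
    (hy' : Q.I y' l) (c : Col Q x y) (c' : Col Q x' y') : g • y = y' :=
  Col.un h (hl ▸ (Q.smul g y l).2 hy) hy' (c.elim fun m k =>
    ⟨g • m, hx ▸ (Q.smul g x m).2 k.1, (Q.smul g y m).2 k.2⟩) c'

theorem mapl {g : G} {x x' y y' : P} {l l' : L} (hx : g • x = x') (hy : g • y = y') (h : x ≠ y) (a : Q.I x l)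
    (b : Q.I y l) (a' : Q.I x' l') (b' : Q.I y' l') : g • l = l' :=
  (Q.uniq (hx ▸ (Q.smul g x l).2 a) (hy ▸ (Q.smul g y l).2 b) a' b').resolve_left fun e =>
    h (MulAction.injective g (hx.trans (e.trans hy.symm)))

variable {c : P}

theorem conn {O : Set P} {m : L} (h1 : ∀ z ∈ O, ¬ Col Q c z)
    (h2 : ∀ z ∈ O, ∀ z', ¬ Col Q c z' → Col Q z z' → z' ∈ O) {z z' : P} (hz : z ∈ O) (hz' : ¬ Col Q c z') :
    z' ∈ O := by
  by_contra k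
  have nc : ∀ w ∈ O, ¬ Col Q w z' := fun w hw l => k (h2 w hw z' hz' l)
  obtain ⟨n, zn, -⟩ := ex_ln (Q := Q) z m
  have cn : ¬ Q.I c n := fun l => h1 z hz ⟨n, l, zn⟩
  obtain ⟨u, un, cu⟩ := exc cn
  obtain ⟨y, yn, yz, yu⟩ := ex_pt (Q := Q) n z u
  have yO := h2 z hz y (fun l => yu (l.un cn yn un cu)) ⟨n, zn, yn⟩
  obtain ⟨n', zn', e⟩ := ex_ln (Q := Q) z n
  obtain ⟨u', l, a1, a2, a3⟩ := Q.ex z' n' fun l => nc z hz ⟨n', zn', l⟩
  have cu' : Col Q c u' := by_contra fun r => nc u' (h2 z hz u' r ⟨n', zn', a1⟩) ⟨l, a3, a2⟩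
  obtain ⟨v, b1, b2⟩ := exc (Q := Q) (x := y) (l := l) fun r => nc y yO ⟨l, r, a2⟩
  have cv : Col Q c v := by_contra fun r => nc v (h2 y yO v r b2) ⟨l, b1, a2⟩
  obtain rfl := cv.un (fun r => hz' ⟨l, r, a2⟩) b1 a3 cu'
  exact yz (b2.symm.un (fun r => (Q.uniq r zn a1 zn').elim (fun e => h1 z hz (e ▸ cv)) e.symm) yn zn ⟨n', a1, zn'⟩)

theorem frame {n : L} (h : ¬ Q.I c n) : ∃ u m m', Q.I c m ∧ Q.I c m' ∧ m ≠ m' ∧ Q.I u m ∧ u ≠ c ∧ Q.I u n ∧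
    ∀ z, ¬ Col Q c z → ∃ x, Q.I x m' ∧ x ≠ c ∧ ¬ Q.I x n ∧ Col Q x z := by
  obtain ⟨u, m, a1, a2, a3⟩ := Q.ex c n h
  obtain ⟨m', b1, b2⟩ := ex_ln (Q := Q) c m
  have uc : u ≠ c := fun e => h (e ▸ a1)
  refine ⟨u, m, m', a2, b1, b2.symm, a3, uc, a1, fun z hz => ?_⟩
  obtain ⟨x, c1, c2⟩ := exc (Q := Q) (x := z) (l := m') fun r => hz ⟨m', b1, r⟩
  refine ⟨x, c1, fun e => hz (e ▸ c2.symm), fun r => ?_, c2.symm⟩
  obtain rfl := Q.un h r b1 c1 a1 a2 a3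
  exact (Q.uniq c1 b1 a3 a2).elim uc b2

theorem fix_on {σ : G} (h : ∀ x, Col Q c x → σ • x = x) {n : L} (hn : σ • n = n) {z : P} (zn : Q.I z n) :
    σ • z = z := by
  by_cases hz : Col Q c z
  · exact h z hz
  obtain ⟨u, m, m', -, a, -, -, -, -, k⟩ := frame (Q := Q) (c := c) (n := n) fun r => hz ⟨n, r, zn⟩
  obtain ⟨x, b1, -, b2, b3⟩ := k z hz
  exact proj (h x ⟨m', a, b1⟩) hn b2 zn zn b3 b3

theorem rig {σ : G} (h : ∀ x, Col Q c x → σ • x = x) {u : P} {m : L} (cm : Q.I c m) (um : Q.I u m) (uc : u ≠ c)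
    (hu : ∀ n, Q.I u n → σ • n = n) : MulAction.toPermHom G P σ = 1 := by
  obtain ⟨n, un, e⟩ := ex_ln (Q := Q) u m
  obtain ⟨z, zn, zu, -⟩ := ex_pt (Q := Q) n u u
  have cn : ¬ Q.I c n := fun r => (Q.uniq un r um cm).elim uc e
  refine Equiv.ext fun x => show σ • x = x from ?_
  by_cases hx : Col Q c x
  · exact h x hx
  refine (conn (O := {z | ¬ Col Q c z ∧ σ • z = z}) (m := m) (fun _ => And.left) ?_
    ⟨fun r => zu (r.un cn zn un ⟨m, cm, um⟩), fix_on h (hu n un) zn⟩ hx).2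
  rintro z ⟨hz, e⟩ z' hz' ⟨n, zn, zn'⟩
  obtain ⟨u, un, cu⟩ := exc (Q := Q) (x := c) (l := n) fun r => hz ⟨n, r, zn⟩
  exact ⟨hz', fix_on h (mapl e (h u cu) (fun r => hz (r ▸ cu)) zn un zn un) zn'⟩

end Half

open Half

variable {G P L : Type*} [Group G] [MulAction G P] [MulAction G L] [Finite P] [Finite L]
  (Q : GQ G P L)

theorem half [Finite G] {p : ℕ} (hp : p.Prime) {M : Subgroup G} {c : P}
    (h0 : ∀ g ∈ M, ∀ m, Q.I c m → g • m = m)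
    (h1 : ∀ g ∈ M, ∀ h ∈ M, ∀ x m, Q.I c m → Q.I x m → g • h • x = h • g • x ∧ g ^ p • x = x)
    (h2 : ∀ m m' u x y, Q.I c m → Q.I c m' → m ≠ m' → Q.I u m → u ≠ c → Q.I x m' → x ≠ c →
      Q.I y m' → y ≠ c → ∃ g ∈ M, (∀ n, Q.I u n → g • n = n) ∧ g • x = y)
    {m₁ m₂ : L} {u₁ u₂ : P} (hm₁ : Q.I c m₁) (hm₂ : Q.I c m₂) (hm : m₁ ≠ m₂) (hu₁ : Q.I u₁ m₁)
    (hu₁' : u₁ ≠ c) (hu₂ : Q.I u₂ m₂) (hu₂' : u₂ ≠ c) :
    ∃ S ≤ M, IsPGroup p S ∧ (∀ g ∈ S, g • u₁ = u₁ ∧ g • u₂ = u₂) ∧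
      ∀ n n', Q.I u₁ n → n ≠ m₁ → Q.I u₁ n' → n' ≠ m₁ → ∃ g ∈ S, g • n = n' := by
  let s : Set G := {g | g ∈ M ∧ ∃ u m, Q.I c m ∧ Q.I u m ∧ u ≠ c ∧ ∀ n, Q.I u n → g • n = n}
  have sM : closure s ≤ M := (closure_le M).2 fun _ => And.left
  have nb : ∀ g ∈ M, ∀ x, Col Q c x → Col Q c (g • x) := fun g hg x ⟨m, a, b⟩ =>
    ⟨m, a, h0 g hg m a ▸ (Q.smul g x m).2 b⟩
  obtain ⟨S, S1, S2, S3⟩ := lift hp (MulAction.toPermHom G P) s (fun g ⟨hg, u, m, a, b, e, k⟩ =>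
    rig (fun x ⟨m, l, l'⟩ => (h1 g hg g hg x m l l').2) a b e fun n r =>
      pow_mem (show g ∈ MulAction.stabilizer G n from k n r) p) fun a ha b hb g ⟨hg, u, m, cm, um, e, k⟩ => by
    have z : ∀ x, Col Q c x → (a * b * a⁻¹ * b⁻¹)⁻¹ • x = x := fun x hx => by
      obtain ⟨m, l, l'⟩ := nb _ (inv_mem (sM ha)) _ (nb _ (inv_mem (sM hb)) x hx)
      rw [inv_smul_eq_iff, mul_smul, mul_smul, mul_smul, (h1 a (sM ha) b (sM hb) _ m l l').1, smul_inv_smul,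
        smul_inv_smul]
    generalize a * b * a⁻¹ * b⁻¹ = σ at z
    rw [← mul_inv_eq_one, ← map_mul, ← map_mul, ← map_inv, ← map_mul]
    refine rig (fun x hx => ?_) cm um e fun n r => ?_
    · rw [mul_inv_rev, mul_smul, mul_smul, mul_smul, z x hx, ← z _ (nb _ (inv_mem hg) x hx), smul_inv_smul,
        smul_inv_smul]
    · rw [mul_inv_rev, mul_smul, mul_smul, mul_smul,
        inv_smul_eq_iff.2 (k _ (z u ⟨m, cm, um⟩ ▸ (Q.smul σ⁻¹ u n).2 r)).symm, smul_inv_smul, k n r]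
  have tr : ∀ z z', ¬ Col Q c z → ¬ Col Q c z' → ∃ g ∈ S, g • z = z' := fun z z' hz hz' => by
    obtain ⟨-, g, hg, e⟩ := conn (O := {w | ¬ Col Q c w ∧ ∃ g ∈ closure s, g • z = w}) (m := m₁)
      (fun _ => And.left) (fun w ⟨hw, g, hg, e⟩ w' hw' ⟨n, wn, wn'⟩ => by
        obtain ⟨u, m, m', a1, a2, a3, a4, a5, a6, k⟩ := frame (Q := Q) (c := c) (n := n) fun r => hw ⟨n, r, wn⟩
        obtain ⟨x, b1, b2, -, b4⟩ := k w hw
        obtain ⟨y, c1, c2, c3, c4⟩ := k w' hw'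
        obtain ⟨g', d1, d2, d3⟩ := h2 m m' u x y a1 a2 a3 a4 a5 b1 b2 c1 c2
        exact ⟨hw', g' * g, mul_mem (subset_closure ⟨d1, u, m, a1, a4, a5, d2⟩) hg,
          by rw [mul_smul, e, proj d3 (d2 n a6) c3 wn wn' b4 c4]⟩) ⟨hz, 1, one_mem _, one_smul _ _⟩ hz'
    obtain ⟨x, hx, l⟩ := S3 g hg
    exact ⟨x, hx, (DFunLike.congr_fun l z).trans e⟩
  have pz : ∀ n, Q.I u₁ n → n ≠ m₁ → ∃ z, Q.I z n ∧ ¬ Col Q c z ∧ z ≠ u₁ ∧ Col Q z u₂ := fun n a e => by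
    have cn : ¬ Q.I c n := fun r => (Q.uniq a r hu₁ hm₁).elim hu₁' e
    have u12 : ¬ Q.I u₂ m₁ := fun r => (Q.uniq r hm₁ hu₂ hm₂).elim hu₂' hm
    obtain ⟨z, b1, b2⟩ := exc (Q := Q) (x := u₂) (l := n) fun r => u12 (Q.un cn r hm₂ hu₂ a hm₁ hu₁ ▸ hu₁)
    have zu : z ≠ u₁ := fun r => hu₁' ((r ▸ b2).un u12 hu₁ hm₁ ⟨m₂, hu₂, hm₂⟩)
    exact ⟨z, b1, fun r => zu (r.un cn b1 a ⟨m₁, hm₁, hu₁⟩), zu, b2.symm⟩
  refine ⟨S ⊓ (MulAction.stabilizer G u₁ ⊓ MulAction.stabilizer G u₂), inf_le_left.trans (S1.trans sM),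
    S2.to_le inf_le_left, fun g hg => hg.2, fun n n' a e a' e' => ?_⟩
  obtain ⟨z, b1, b2, b3, b4⟩ := pz n a e
  obtain ⟨z', c1, c2, -, c4⟩ := pz n' a' e'
  obtain ⟨g, hg, k⟩ := tr z z' b2 c2
  have k1 : g • u₁ = u₁ := proj k (h0 g (sM (S1 hg)) _ hm₁) (fun r => c2 ⟨_, hm₁, r⟩) hu₁ hu₁ ⟨n, b1, a⟩ ⟨n', c1, a'⟩
  exact ⟨g, ⟨hg, k1, proj k (h0 g (sM (S1 hg)) _ hm₂) (fun r => c2 ⟨_, hm₂, r⟩) hu₂ hu₂ b4 c4⟩,
    mapl k k1 b3 b1 a c1 a'⟩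

end GQ

end Cfsg.Lib.BLD
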