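import Cfsg.Agent.BLD.Res
import Cfsg.Agent.BLD.Bas1
import Cfsg.Agent.BLD.Rt2
import Cfsg.Agent.BLD.GqFix
import Cfsg.Agent.BLD.GqHalf

/-! # Residues of type `B₂` as generalised quadrangles -/

set_option autoImplicit false
set_option linter.unusedSectionVars false

namespace Cfsg.Lib.BLD

open Cfsg.Lib.Chev

variable {ι A : Type} [Fintype ι] [DecidableEq ι] [DecidableEq A] {R : WeylData ι A}

namespace Bld

variable {Γ Ch : Type*} [Group Γ] [MulAction Γ Ch] {B : Bld R Γ Ch}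

namespace GqB

variable {j k : ι} {J : Set ι}

theorem adj {x y : B.Res J} (h : B.δ x.1 y.1 ∈ R.WJ {j}) (hne : x ≠ y) : B.δ x.1 y.1 = R.s j :=
  (δ_mem_single.1 h).resolve_left fun e => hne (Subtype.ext e)

theorem adj_ln {x y : B.Res J} (h : B.ln J k j x = B.ln J k j y) (hne : B.pt J k x ≠ B.pt J k y) :
    B.δ x.1 y.1 = R.s j := adj (ln_eq_iff.1 h) fun e => hne (e ▸ rfl)

theorem adj_pt {x y : B.Res J} (h : B.pt J k x = B.pt J k y) (hne : B.ln J k j x ≠ B.ln J k j y) :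
    B.δ x.1 y.1 = R.s k := adj (pt_eq_iff.1 h) fun e => hne (e ▸ rfl)

theorem len_step (x : Ch) {y z : Ch} (h : B.δ y z ∈ R.WJ {j}) :
    R.len (B.δ x z) ≤ R.len (B.δ x y) + 1 := by
  rcases δ_mem_single.1 h with rfl | e
  · omega
  · rcases B.δ_step x e with e' | e' <;> rw [e']
    · simpa using R.len_mul_le (B.δ x y) (R.s j)
    · omega

theorem uniq (h : R.C j k * R.C k j = 2) {x y : B.Pan J k} {l m : B.Ln J k j} (h1 : x ∈ l)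
    (h2 : y ∈ l) (h3 : x ∈ m) (h4 : y ∈ m) : x = y ∨ l = m := by
  by_contra hc
  obtain ⟨hxy, hlm⟩ := not_or.1 hc
  obtain ⟨c1, p1, l1⟩ := exists_flag h1
  obtain ⟨c2, p2, l2⟩ := exists_flag h2
  obtain ⟨c3, p3, l3⟩ := exists_flag h3
  obtain ⟨c4, p4, l4⟩ := exists_flag h4
  have e1 := adj_ln (l1.symm.trans l2) (p1 ▸ p2 ▸ hxy)
  have e2 := adj_pt (p2.symm.trans p4) (l2 ▸ l4 ▸ hlm)
  have e3 := adj_ln (l4.symm.trans l3) (p4 ▸ p3 ▸ Ne.symm hxy)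
  obtain ⟨n2, n3, -⟩ := len_B2 h
  have e4 := δ_mul (δ_mul e1 e2 (by simp [n2])) e3 (by simp [n2, n3])
  have := len_step c1.1 (pt_eq_iff.1 (p1.symm.trans p3))
  rw [e4, n3, B.δ_self, R.len_one] at this
  omega

theorem un (h : R.C j k * R.C k j = 2) {x y y' : B.Pan J k} {l m m' : B.Ln J k j} (h0 : x ∉ l)
    (h1 : y ∈ l) (h2 : x ∈ m) (h3 : y ∈ m) (h4 : y' ∈ l) (h5 : x ∈ m') (h6 : y' ∈ m') : y = y' := by
  by_contra hy
  obtain ⟨c1, p1, l1⟩ := exists_flag h2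
  obtain ⟨c2, p2, l2⟩ := exists_flag h3
  obtain ⟨c3, p3, l3⟩ := exists_flag h1
  obtain ⟨c4, p4, l4⟩ := exists_flag h4
  obtain ⟨c5, p5, l5⟩ := exists_flag h6
  obtain ⟨c6, p6, l6⟩ := exists_flag h5
  have e1 := adj_ln (l1.symm.trans l2) (p1 ▸ p2 ▸ fun e : x = y => h0 (e ▸ h1))
  have e2 := adj_pt (p2.symm.trans p3) (l2 ▸ l3 ▸ fun e : m = l => h0 (e ▸ h2))
  have e3 := adj_ln (l3.symm.trans l4) (p3 ▸ p4 ▸ hy)
  have e4 := adj_pt (p4.symm.trans p5) (l4 ▸ l5 ▸ fun e : l = m' => h0 (e ▸ h5))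
  obtain ⟨n2, n3, n4⟩ := len_B2 h
  have e5 := δ_mul (δ_mul (δ_mul e1 e2 (by simp [n2])) e3 (by simp [n2, n3])) e4 (by simp [n3, n4])
  have a1 := len_step c1.1 (pt_eq_iff.1 (p1.symm.trans p6))
  have a2 := len_step c1.1 (ln_eq_iff.1 (l6.symm.trans l5))
  rw [B.δ_self, R.len_one] at a1
  rw [e5, n4] at a2
  omega

theorem ex (h : R.C j k * R.C k j = 2) (x : B.Pan {j, k} k) (l : B.Ln {j, k} k j) (hx : x ∉ l) :
    ∃ (y : B.Pan {j, k} k) (m : B.Ln {j, k} k j), y ∈ l ∧ x ∈ m ∧ y ∈ m := by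
  have hj : R.s j ∈ R.WJ {j, k} := R.s_mem_WJ (by simp)
  have hk : R.s k ∈ R.WJ {j, k} := R.s_mem_WJ (by simp)
  let P : R.W → Prop := fun w => ∀ c d : B.Res {j, k}, B.δ c.1 d.1 = w →
    B.pt _ k c ∉ B.ln _ k j d → ∃ (y : B.Pan {j, k} k) (m : B.Ln {j, k} k j),
      y ∈ B.ln _ k j d ∧ B.pt _ k c ∈ m ∧ y ∈ m
  have p0 : P 1 := fun c d e hn => by
    obtain rfl : c = d := Subtype.ext (B.δ_eq_one.1 e)
    exact absurd (pt_mem_ln k j c) hn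
  have pr : ∀ w, P w → R.len (w * R.s j) = R.len w + 1 → P (w * R.s j) := fun w hw hl c d e hn => by
    obtain ⟨d', e1, e2⟩ := exists_mid e (by simp [hl])
    let f : B.Res {j, k} := ⟨d', B.δ_mem_trans d.2 (B.δ_mem_symm (e2 ▸ hj))⟩
    have e3 : B.ln _ k j f = B.ln _ k j d := ln_eq_iff.2 (e2 ▸ R.s_mem_WJ rfl)
    rw [← e3] at hn ⊢
    exact hw c f e1 hn
  have pl : ∀ w, P w → R.len (R.s k * w) = R.len w + 1 → P (R.s k * w) := fun w hw hl c d e hn => by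
    obtain ⟨c', e1, e2⟩ := exists_mid e (by simp [hl, add_comm])
    let f : B.Res {j, k} := ⟨c', B.δ_mem_trans c.2 (e1 ▸ hk)⟩
    have e3 : B.pt _ k c = B.pt _ k f := pt_eq_iff.2 (e1 ▸ R.s_mem_WJ rfl)
    rw [e3] at hn ⊢
    exact hw f d e2 hn
  obtain ⟨n2, n3, n4⟩ := len_B2 h
  obtain ⟨n2', n3', n4'⟩ := len_B2 ((mul_comm _ _).trans h)
  have p2 : P (R.s j * R.s k) := fun c d e _ => by
    obtain ⟨f, e1, e2⟩ := exists_mid e (by simp [n2])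
    let f' : B.Res {j, k} := ⟨f, B.δ_mem_trans c.2 (e1 ▸ hj)⟩
    have e3 : B.pt _ k f' = B.pt _ k d := pt_eq_iff.2 (e2 ▸ R.s_mem_WJ rfl)
    have e4 : B.ln _ k j c = B.ln _ k j f' := ln_eq_iff.2 (e1 ▸ R.s_mem_WJ rfl)
    exact ⟨B.pt _ k d, B.ln _ k j c, pt_mem_ln k j d, pt_mem_ln k j c, e3 ▸ e4 ▸ pt_mem_ln k j f'⟩
  have p1 : P (R.s j) := by simpa using pr 1 p0 (by simp)
  have p3 : P (R.s k * R.s j * R.s k) := by
    rw [mul_assoc] at n3' ⊢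
    exact pl _ p2 (by rw [n3', n2])
  obtain ⟨c, rfl⟩ := B.pt_surjective _ k x
  obtain ⟨d, rfl⟩ := B.ln_surjective _ k j l
  suffices P (B.δ c.1 d.1) from this c d rfl hx
  rcases (mem_WJ_B2 h).1 (B.δ_mem_trans (B.δ_mem_symm c.2) d.2) with e | e | e | e | e | e | e | e <;>
    rw [e]
  · exact p0
  · exact p1
  · simpa using pl 1 p0 (by simp)
  · exact p2
  · exact pl _ p1 (by simp [n2'])
  · exact pr _ p2 (by rw [n3, n2])
  · exact p3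
  · rw [braid_B2 h]
    exact pr _ p3 (by rw [n4', n3'])

/-- The quadrangle of a `B₂`-residue. -/
noncomputable def gq [Finite Ch] (h : R.C j k * R.C k j = 2) (G : Type*) [Group G]
    [MulAction G (B.Pan {j, k} k)] [MulAction G (B.Ln {j, k} k j)]
    (hs : ∀ (g : G) (x : B.Pan {j, k} k) (l : B.Ln {j, k} k j), g • x ∈ g • l ↔ x ∈ l) :
    GQ G (B.Pan {j, k} k) (B.Ln {j, k} k j) where
  I x l := x ∈ l
  s := B.q j
  t := B.q k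
  uniq := uniq h
  ex := ex h
  un := un h
  card_pts := ncard_pts (C_of_mul_eq_two h).1 (by simp)
  card_lns := ncard_lns (C_of_mul_eq_two h).1 (by simp)
  two_le_s := B.two_le_q j
  two_le_t := B.two_le_q k
  smul := hs

theorem gq_eq_1' : type_of% @gq.eq_1 := @gq.eq_1

theorem not_mem (h : j ≠ k) : R.s j ∉ R.WJ {k} := fun e => h ((R.s_mem_WJ_iff (J := {k})).1 e)

theorem eq_one (h : R.C j k * R.C k j = 2) (σ : B.Iso {j, k}) (hσ : ∀ x : B.Pan {j, k} k, σ • x = x) :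
    σ = 1 := by
  have hjk := (C_of_mul_eq_two h).1
  refine Subtype.ext (Equiv.ext fun x => (fix_iff hjk σ).2 ⟨hσ _, ?_⟩)
  obtain ⟨y, hy⟩ := B.exists_ext x.1 (R.s j)
  let y' : B.Res {j, k} := ⟨y, B.δ_mem_trans x.2 (hy ▸ R.s_mem_WJ (by simp))⟩
  have e : B.ln _ k j x = B.ln _ k j y' := ln_eq_iff.2 (hy ▸ R.s_mem_WJ rfl)
  have m1 := pt_mem_ln k j x
  have m2 : B.pt _ k y' ∈ B.ln _ k j x := e ▸ pt_mem_ln k j y'
  have m3 := (smul_mem_iff σ _ _).2 m1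
  have m4 := (smul_mem_iff σ _ _).2 m2
  rw [hσ] at m3 m4
  exact (uniq h m3 m4 m1 m2).resolve_left fun e' => not_mem hjk (hy ▸ pt_eq_iff.1 e')

theorem Tv_le_St (x : Ch) (i : ι) : B.Tv x i ≤ B.St J x := fun g hg => by
  rw [mem_St, hg.1, B.δ_self]
  exact one_mem _

/-- A chamber of the base apartment in the residue. -/
def ap (B : Bld R Γ Ch) (J : Set ι) (w : R.W) (hw : w ∈ R.WJ J) : B.Res J :=
  ⟨B.a w, by rwa [δ_a_one]⟩

theorem ap_eq_1' : type_of% @ap.eq_1 := @ap.eq_1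

end GqB

open GqB

section Fin
variable [Finite Γ] [Finite Ch] {i j k : ι} {p : ℕ}

theorem gq_fix (h : R.C j k * R.C k j = 2) (hp : p.Prime) (hq : p ∣ B.q j) {S : Subgroup Γ}
    (hS : IsPGroup p S) (h₁ : S ≤ B.Tv (B.a 1) j) (h₂ : S ≤ B.Tv (B.a (R.w0 {j, k})) j)
    (h₃ : ∀ g ∈ S, ∃ x x', B.δ (B.a 1) x ∈ R.WJ {j} ∧ B.δ x x' = R.s k ∧ g ∈ B.Tv x' j) :
    (B.Kr {j, k} (B.a 1)).relIndex S < B.q j ^ 2 := by
  have hjk := (C_of_mul_eq_two h).1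
  have hj : j ∈ ({j, k} : Set ι) := by simp
  have hk : k ∈ ({j, k} : Set ι) := by simp
  have fx : ∀ (g : B.St {j, k} (B.a 1)) (c : B.Res {j, k}), g.1 ∈ B.Tv c.1 j →
      ∀ x : B.Pan {j, k} k, x ∈ B.ln _ k j c → B.res _ g • x = x := fun g c hg =>
    ((fix_pts_iff hjk _ c).2 ((mem_Tv_iff_res hj g c).1 hg)).2
  rw [← card_Aut (h₁.trans (Tv_le_St _ j)), ← Subgroup.relIndex_bot_left]
  refine (gq h (B.Iso {j, k}) smul_mem_iff).fix_lt hp hq (hS.comap_subtype.map _)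
    (fun σ => ⟨fun e x => by rw [Subgroup.mem_bot.1 e, one_smul], fun e => eq_one h σ e⟩)
    (l₁ := B.ln _ k j (ap B _ 1 (one_mem _))) (l₂ := B.ln _ k j (ap B _ _ (R.w0_mem _)))
    (fun x h1 h2 => ?_) ?_ ?_ ?_
  · obtain ⟨c, p1, l1⟩ := exists_flag h1
    obtain ⟨d, p2, l2⟩ := exists_flag h2
    have a1 := len_step (B.a 1) (ln_eq_iff.1 l1)
    have a2 := len_step (B.a 1) (pt_eq_iff.1 (p1.symm.trans p2))
    have a3 := len_step (B.a 1) (ln_eq_iff.1 l2.symm)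
    simp only [ap, δ_a_one, R.len_one, w0_B2 h, (len_B2 h).2.2] at a1 a3
    omega
  · rintro _ ⟨g, hg, rfl⟩
    exact fx g _ (h₁ hg)
  · rintro _ ⟨g, hg, rfl⟩
    exact fx g _ (h₂ hg)
  · rintro _ ⟨g, hg, rfl⟩
    obtain ⟨x, x', e1, e2, e3⟩ := h₃ g hg
    let c : B.Res {j, k} := ⟨x, R.WJ_mono (Set.singleton_subset_iff.2 hj) e1⟩
    let c' : B.Res {j, k} := ⟨x', B.δ_mem_trans c.2 (e2 ▸ R.s_mem_WJ hk)⟩
    have e4 : B.ln _ k j (ap B _ 1 (one_mem _)) = B.ln _ k j c := ln_eq_iff.2 e1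
    have e5 : B.pt _ k c = B.pt _ k c' := pt_eq_iff.2 (e2 ▸ R.s_mem_WJ rfl)
    rw [e4]
    exact ⟨B.ln _ k j c', fun e => not_mem hjk.symm (e2 ▸ ln_eq_iff.1 e.symm),
      ⟨B.pt _ k c, e5 ▸ pt_mem_ln k j c', pt_mem_ln k j c⟩, fx g c' e3⟩

theorem gq_half (h : R.C j k * R.C k j = 2) (hp : p.Prime) {M : Subgroup Γ}
    (h0 : M ≤ B.Tv (B.a 1) k)
    (h1 : ∀ g ∈ M, ∀ h ∈ M, ∀ x y, B.δ (B.a 1) x ∈ R.WJ {k} → B.δ x y ∈ R.WJ {j} →
      g • h • y = h • g • y ∧ g ^ p • y = y)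
    (h2 : ∀ x x' u, B.δ (B.a 1) x ∈ R.WJ {k} → B.δ x x' = R.s k → B.δ x u = R.s j →
      B.TrOn (M ⊓ B.Tv u k) x' j) :
    ∃ S ≤ M, IsPGroup p S ∧
      (∀ g ∈ S, g • B.a (R.s j) = B.a (R.s j) ∧ g • B.a (R.s k * R.s j) = B.a (R.s k * R.s j)) ∧
      B.TrOn S (B.a (R.s j)) k := by
  have hjk := (C_of_mul_eq_two h).1
  have hj : R.s j ∈ R.WJ {j, k} := R.s_mem_WJ (by simp)
  have hk : R.s k ∈ R.WJ {j, k} := R.s_mem_WJ (by simp)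
  let _ : MulAction (B.St {j, k} (B.a 1)) (B.Pan {j, k} k) := MulAction.compHom _ (B.res _)
  let _ : MulAction (B.St {j, k} (B.a 1)) (B.Ln {j, k} k j) := MulAction.compHom _ (B.res _)
  have sp : ∀ (g : B.St {j, k} (B.a 1)) (c : B.Res {j, k}),
      g • B.pt _ k c = B.pt _ k ((B.res _ g).1 c) := fun g c => B.smul_pt _ k _ c
  have sl : ∀ (g : B.St {j, k} (B.a 1)) (c : B.Res {j, k}),
      g • B.ln _ k j c = B.ln _ k j ((B.res _ g).1 c) := fun g c => B.smul_ln _ k j _ c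
  have fx : ∀ (g : B.St {j, k} (B.a 1)) (c : B.Res {j, k}), g.1 ∈ B.Tv c.1 k →
      ∀ l : B.Ln {j, k} k j, B.pt _ k c ∈ l → g • l = l := fun g c hg =>
    ((fix_lns_iff hjk _ c).2 ((mem_Tv_iff_res (by simp) g c).1 hg)).2
  let C := ap B {j, k} 1 (one_mem _)
  let D₁ := ap B {j, k} _ hj
  let D₂ := ap B {j, k} _ hk
  let D₃ := ap B {j, k} _ (mul_mem hk hj)
  have e1 : B.ln _ k j C = B.ln _ k j D₁ := ln_eq_iff.2 (by
    simp only [C, D₁, ap, δ_a_one]; exact R.s_mem_WJ rfl)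
  have e2 : B.pt _ k C = B.pt _ k D₂ := pt_eq_iff.2 (by
    simp only [C, D₂, ap, δ_a_one]; exact R.s_mem_WJ rfl)
  have d3 : B.δ D₂.1 D₃.1 = R.s j := by simp [D₂, D₃, ap, B.δ_a]
  have e3 : B.ln _ k j D₂ = B.ln _ k j D₃ := ln_eq_iff.2 (d3 ▸ R.s_mem_WJ rfl)
  have m2 : B.pt _ k C ∈ B.ln _ k j D₂ := e2 ▸ pt_mem_ln k j D₂
  obtain ⟨S, hM, hS, hf, ht⟩ := (gq h (B.St {j, k} (B.a 1)) fun g => smul_mem_iff (B.res _ g)).half hp
    (M := M.subgroupOf _) (c := B.pt _ k C) (fun g hg => fx g C (h0 hg)) (by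
      intro g hg g' hg' x m a1 a2
      obtain ⟨c, p1, l1⟩ := exists_flag a1
      obtain ⟨d, rfl, l2⟩ := exists_flag a2
      obtain ⟨b1, b2⟩ := h1 g hg g' hg' c.1 d.1 (pt_eq_iff.1 p1) (ln_eq_iff.1 (l1.symm.trans l2))
      simp only [sp]
      exact ⟨congrArg _ (Subtype.ext b1), congrArg _ (Subtype.ext b2)⟩) (by
      intro m m' u x y a1 a2 a3 a4 a5 a6 a7 a8 a9
      obtain ⟨c, p1, l1⟩ := exists_flag a1
      obtain ⟨c', p2, l2⟩ := exists_flag a2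
      obtain ⟨f, rfl, l3⟩ := exists_flag a4
      obtain ⟨b, rfl, l4⟩ := exists_flag a6
      obtain ⟨b', rfl, l5⟩ := exists_flag a8
      obtain ⟨g, hg, e⟩ := h2 c.1 c'.1 f.1 (pt_eq_iff.1 p1)
        (adj_pt (p1.symm.trans p2) (l1 ▸ l2 ▸ a3)) (adj_ln (l1.symm.trans l3) (p1 ▸ a5.symm)) b.1 b'.1
        (adj_ln (l2.symm.trans l4) (p2 ▸ a7.symm)) (adj_ln (l2.symm.trans l5) (p2 ▸ a9.symm))
      exact ⟨⟨g, Tv_le_St _ k (h0 hg.1)⟩, hg.1, fx _ f hg.2, (sp _ _).trans (congrArg _ (Subtype.ext e))⟩)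
    (m₁ := B.ln _ k j C) (m₂ := B.ln _ k j D₂) (u₁ := B.pt _ k D₁) (u₂ := B.pt _ k D₃)
    (pt_mem_ln k j C) m2
    (fun e => not_mem hjk.symm (by simpa only [C, D₂, ap, δ_a_one] using ln_eq_iff.1 e))
    (e1 ▸ pt_mem_ln k j D₁)
    (fun e => not_mem hjk (by simpa only [C, D₁, ap, δ_a_one] using pt_eq_iff.1 e.symm))
    (e3 ▸ pt_mem_ln k j D₃) (fun e => not_mem hjk (d3 ▸ pt_eq_iff.1 (e.trans e2).symm))
  refine ⟨S.map (Subgroup.subtype _), ?_, hS.map _, ?_, fun y z hy hz => ?_⟩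
  · rintro _ ⟨g, hg, rfl⟩
    exact hM hg
  · rintro _ ⟨g, hg, rfl⟩
    exact ⟨congrArg Subtype.val ((fix_iff (x := D₁) hjk (B.res _ g)).2
        ⟨(hf g hg).1, e1 ▸ fx g C (h0 (hM hg)) _ (pt_mem_ln k j C)⟩),
      congrArg Subtype.val ((fix_iff (x := D₃) hjk (B.res _ g)).2
        ⟨(hf g hg).2, e3 ▸ fx g C (h0 (hM hg)) _ m2⟩)⟩
  · let y' : B.Res {j, k} := ⟨y, B.δ_mem_trans D₁.2 (hy ▸ hk)⟩
    let z' : B.Res {j, k} := ⟨z, B.δ_mem_trans D₁.2 (hz ▸ hk)⟩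
    have py : B.pt _ k D₁ = B.pt _ k y' := pt_eq_iff.2 (hy ▸ R.s_mem_WJ rfl)
    have pz : B.pt _ k D₁ = B.pt _ k z' := pt_eq_iff.2 (hz ▸ R.s_mem_WJ rfl)
    obtain ⟨g, hg, e⟩ := ht (B.ln _ k j y') (B.ln _ k j z') (py ▸ pt_mem_ln k j y')
      (fun e => not_mem hjk.symm (hy ▸ ln_eq_iff.1 (e.trans e1).symm)) (pz ▸ pt_mem_ln k j z')
      (fun e => not_mem hjk.symm (hz ▸ ln_eq_iff.1 (e.trans e1).symm))
    refine ⟨g, ⟨g, hg, rfl⟩, congrArg Subtype.val (flag_ext (x := (B.res _ g).1 y') (y := z') hjk ?_ ?_)⟩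
    · rw [← sp, ← py, (hf g hg).1, pz]
    · rw [← sl, e]

end Fin

end Bld

end Cfsg.Lib.BLD
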