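import Cfsg.Agent.BLD.PlB2
import Cfsg.Agent.BLD.GqB
import Cfsg.Agent.BLD.Bas2

/-! # Long root elements which are trivial on a `B₃` neighbourhood -/

set_option autoImplicit false
set_option linter.unusedSectionVars false

namespace Cfsg.Lib.BLD

open Cfsg.Lib.Chev

variable {ι A : Type} [Fintype ι] [DecidableEq ι] [DecidableEq A] {R : WeylData ι A}

namespace B3a

/-- A Sylow subgroup covers a quotient of prime power order. -/
theorem exists_sylow {Γ : Type*} [Group Γ] [Finite Γ] {p e : ℕ} (hp : p.Prime) {K Y : Subgroup Γ}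
    (hK : ∀ y ∈ Y, ∀ g ∈ K, y * g * y⁻¹ ∈ K) (h : K.relIndex Y = p ^ e) :
    ∃ S ≤ Y, IsPGroup p S ∧ K.relIndex S = p ^ e := by
  have : Fact p.Prime := ⟨hp⟩
  obtain ⟨S⟩ : Nonempty (Sylow p Y) := inferInstance
  have hN : (K.subgroupOf Y).Normal := ⟨fun g hg y => hK y y.2 g hg⟩
  have htop : (S : Subgroup Y) ⊔ K.subgroupOf Y = ⊤ := by
    rw [← Subgroup.index_eq_one]
    have h1 : ((S : Subgroup Y) ⊔ K.subgroupOf Y).index ∣ p ^ e :=
      h ▸ Subgroup.index_dvd_of_le le_sup_right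
    have h2 : ¬ p ∣ ((S : Subgroup Y) ⊔ K.subgroupOf Y).index := fun h' =>
      S.not_dvd_index (h'.trans (Subgroup.index_dvd_of_le le_sup_left))
    exact Nat.Coprime.eq_one_of_dvd (((Nat.Prime.coprime_iff_not_dvd hp).2 h2).symm.pow_right e) h1
  refine ⟨(S : Subgroup Y).map Y.subtype, Subgroup.map_subtype_le _, S.isPGroup'.map _, ?_⟩
  rw [← Subgroup.relIndex_comap, Subgroup.comap_subtype, ← Subgroup.relIndex_sup_right, htop,
    Subgroup.relIndex_top_right]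
  exact h

end B3a

namespace Bld

variable {Γ Ch : Type*} [Group Γ] [MulAction Γ Ch] {B : Bld R Γ Ch}

section Fin
variable [Finite Γ] [Finite Ch] {i j k : ι} {p : ℕ}

theorem b3a (h : B3 R i j k) (hp : p.Prime) (hq : p ∣ B.q j) :
    ∃ S : Subgroup Γ, IsPGroup p S ∧ S ≤ B.Br (R.s j • R.simple i) ∧ S ≤ B.Tv (B.a 1) i ∧
      S ≤ B.Tv (B.a 1) j ∧ S ≤ B.Tv (B.a 1) k ∧ B.TrOn S (B.a (R.s j)) i := by
  have hA : R.C i j * R.C j i = 1 := by rw [h.ij, h.ji]; rfl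
  have hB : R.C j k * R.C k j = 2 := by rw [h.jk, h.kj]; rfl
  have hB' : R.C k j * R.C j k = 2 := by rw [mul_comm, hB]
  have hij : i ≠ j := (C_of_mul_eq_one hA).1
  have hik : i ≠ k := by
    rintro rfl
    simpa [R.C_diag] using h.ik
  obtain ⟨hqq, p', e, hp', he, hqe⟩ := B.q_pow hA
  obtain rfl : p = p' := (Nat.prime_dvd_prime_iff_eq hp hp').1 (hp.dvd_of_dvd_pow (hqe ▸ hqq ▸ hq))
  obtain ⟨Y, hY, hYi, hYm⟩ := B.exists_Y hA
  have sj : R.s j ∈ R.WJ {j} := R.s_mem_WJ rfl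
  have sj' : R.s j ∈ R.WJ {j, k} := R.s_mem_WJ (by simp)
  have sk' : R.s k ∈ R.WJ {j, k} := R.s_mem_WJ (by simp)
  have hn : ∀ g ∈ B.Lev {i, j}, B.δ (B.a 1) (g • B.a 1) ∈ R.WJ {j} →
      ∀ m ∈ Y ⊓ B.Kr {j, k} (B.a 1), g * m * g⁻¹ ∈ Y ⊓ B.Kr {j, k} (B.a 1) := fun g hg hg' m hm => by
    obtain ⟨h1, h2, x, hx, h3⟩ := (hY m).1 hm.1
    refine ⟨(hY _).2 ⟨mul_mem (mul_mem hg h1) (inv_mem hg), Tv_panel (Tv_conj h2 g) (B.δ_mem_symm hg'),
      g • x, B.δ_mem_trans hg' (by rwa [B.δ_smul]), Tv_conj h3 g⟩, ?_⟩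
    have := Kr_conj (J := {j, k}) hm.2 g
    rwa [← Kr_eq (R.WJ_mono (by simp) hg')] at this
  rcases hYm (Y ⊓ B.Kr {j, k} (B.a 1)) inf_le_left hn with hM | hM
  · exfalso
    obtain ⟨S, hSY, hS, hSi⟩ := B3a.exists_sylow hp (K := B.Kr {i, j} (B.a 1)) (Y := Y) (e := e * 2)
      (fun y hy g hg => by
        have := Kr_conj hg y
        rwa [((hY y).1 hy).2.1.1] at this) (by rw [hYi, hqe, pow_mul])
    have hv : (R.s k * R.s j * R.s k) • R.simple j = R.simple j := by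
      rw [mul_smul, mul_smul, s_s_B2 hB, Rt2.s_s_smul]
    have hT : ∀ g ∈ S, g ∈ B.Tv (B.a (R.s k * R.s j * R.s k)) j := fun g hg => by
      obtain ⟨h1, h2, -⟩ := (hY g).1 (hSY hg)
      refine triv_par hv (δ_a_one _) h2 (lev_fix h1 h2.1 fun r hr hr' => ?_)
      refine R.pos_smul_of_inJ ?_ (hf_one.1 hr') hr
      have e : (R.s k * R.s j * R.s k)⁻¹ = R.s k * R.s j * R.s k := by simp [mul_assoc]
      rw [e]
      rintro l (rfl | rfl)
      · exact R.pos_smul_of_not_inJ (mul_mem (mul_mem sk' sj') sk') (R.pos_simple _)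
          (by simp [R.inJ_simple_iff, hij, hik])
      · rw [hv]; exact R.pos_simple _
    have lt := B.gq_fix hB hp hq hS (fun g hg => ((hY g).1 (hSY hg)).2.1)
      (fun g hg => Tv_panel (hT g hg) (by rw [w0_B2 hB, braid_B2 hB, B.δ_a]; simpa [mul_assoc] using sj))
      (fun g hg => ?_)
    · have d : (B.Kr {i, j} (B.a 1)).relIndex S ∣ (B.Kr {j, k} (B.a 1)).relIndex S := by
        rw [← Subgroup.inf_relIndex_right (B.Kr {j, k} (B.a 1))]
        exact Subgroup.relIndex_dvd_of_le_left _ fun g hg => hM ⟨hSY hg.2, hg.1⟩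
      have := Nat.le_of_dvd (Nat.pos_of_ne_zero Subgroup.FiniteIndex.index_ne_zero) d
      rw [hSi, pow_mul, ← hqe, hqq] at this
      exact absurd lt (not_lt.2 this)
    · obtain ⟨-, -, x, hx, hgx⟩ := (hY g).1 (hSY hg)
      obtain ⟨y, hy, hgy⟩ : ∃ y, B.δ x y = R.s k * R.s j * R.s k ∧ g • y = y := by
        rcases δ_mem_single.1 hx with rfl | hx'
        · exact ⟨_, δ_a_one _, (hT g hg).1⟩
        · obtain ⟨y, h1, h2⟩ := par_exists hv (δ_a_one _) hx'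
          exact ⟨y, h2, (hT g hg).2 y h1⟩
      have l1 : R.len (R.s k * (R.s j * R.s k)) = R.len (R.s k) + R.len (R.s j * R.s k) := by
        rw [← mul_assoc, (len_B2 hB').2.1, (len_B2 hB).1, R.len_s]
      have l2 : R.len (R.s j * R.s k) = R.len (R.s j) + R.len (R.s k) := by
        rw [(len_B2 hB).1, R.len_s, R.len_s]
      obtain ⟨x', a1, a2⟩ := exists_mid (by rw [hy, mul_assoc]) l1
      obtain ⟨x'', b1, b2⟩ := exists_mid a2 l2
      have f1 : g • x' = x' := fix_mid (by rw [a1, a2, l1]) hgx.1 hgy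
      have f2 : g • x'' = x'' := fix_mid (by rw [b1, b2, l2]) f1 hgy
      obtain ⟨n, hn⟩ := hS ⟨g, hg⟩
      exact ⟨x, x', hx, a1, la hA hp (hqq ▸ hq) (n := n) (congrArg Subtype.val hn)
        (triv_comm h.ik hgx a1 f1) b1 f2⟩
  · have ht : B.TrOn (B.Lev {i, j} ⊓ B.Tv (B.a 1) i ⊓ B.Tv (B.a 1) j ⊓ B.Kr {j, k} (B.a 1))
        (B.a (R.s j)) i := fun y z hy hz => by
      obtain ⟨g, hg, rfl⟩ := B.trOn_E hA y z hy hz
      obtain ⟨m, hm, hk⟩ := hM g ((hY g).2 ⟨hg.1.1, hg.2, _, by rw [B.δ_self]; exact one_mem _, hg.1.2⟩)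
      have hm' := (hY m).1 hm.1
      refine ⟨m, ⟨⟨⟨hm'.1, ?_⟩, hm'.2.1⟩, hm.2⟩, ?_⟩
      · have := (B.Tv (B.a 1) i).mul_mem hg.1.2 (inv_mem (Kr_le_Tv (j := i) (by simp) hk))
        rwa [mul_inv_rev, inv_inv, mul_inv_cancel_left] at this
      · have := hk y (B.δ_mem_trans (y := B.a (R.s j)) (by rw [δ_a_one]; exact R.s_mem_WJ (by simp))
          (by rw [hy]; exact R.s_mem_WJ (by simp)))
        rw [mul_smul, inv_smul_eq_iff] at this
        exact this.symm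
    obtain ⟨S, h1, h2, h3⟩ := TrOn.sylow hp ht (fun g hg => hg.1.2.2 _ (δ_a_one _)) hqe
    exact ⟨S, h2, fun g hg => B.E_le_Br hA (h1 hg).1, fun g hg => (h1 hg).1.1.2,
      fun g hg => (h1 hg).1.2, fun g hg => Kr_le_Tv (by simp) (h1 hg).2, h3⟩

end Fin

end Bld

end Cfsg.Lib.BLD
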