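import Cfsg.Agent.BLD.PlB1
import Cfsg.Agent.BLD.GqB
import Cfsg.Agent.BLD.Bas2
import Cfsg.Agent.BLD.Bas1
import Cfsg.Agent.BLD.Rt2

/-!
# Short root elements of a `B₃` residue
-/

set_option autoImplicit false
set_option linter.unusedSectionVars false
set_option linter.unusedVariables false

namespace Cfsg.Lib.BLD

open Cfsg.Lib.Chev Cfsg.Lib.Perm.Plane Configuration

variable {ι A : Type} [Fintype ι] [DecidableEq ι] [DecidableEq A] {R : WeylData ι A}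

namespace B3cAux

variable {i j k : ι}

theorem ne_ij (h : B3 R i j k) : i ≠ j := by
  rintro rfl
  have := h.ij
  rw [R.C_diag] at this
  omega

theorem ne_ik (h : B3 R i j k) : i ≠ k := by
  rintro rfl
  have := h.ik
  rw [R.C_diag] at this
  omega

theorem ne_jk (h : B3 R i j k) : j ≠ k := by
  rintro rfl
  have := h.jk
  rw [R.C_diag] at this
  omega

theorem cA (h : B3 R i j k) : R.C i j * R.C j i = 1 := by rw [h.ij, h.ji]; norm_num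

theorem cB (h : B3 R i j k) : R.C j k * R.C k j = 2 := by rw [h.jk, h.kj]; norm_num

theorem fix_i (h : B3 R i j k) {v : R.W} (hv : v ∈ R.WJ {k}) : v • R.simple i = R.simple i := by
  rcases mem_WJ_single.1 hv with rfl | rfl
  · exact one_smul _ _
  · rw [R.s_smul k (R.simple_mem i), WeylData.σ_simple_of_eq_zero h.ki]

theorem fix_k (h : B3 R i j k) : R.s i • R.simple k = R.simple k := by
  rw [R.s_smul i (R.simple_mem k), WeylData.σ_simple_of_eq_zero h.ik]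

theorem pos_s {l : ι} (h : i ≠ l) : R.Pos (R.s i • R.simple l) :=
  R.pos_s_smul (R.pos_simple l) fun e => h (R.simple_injective e).symm

theorem hf_base (h : B3 R i j k) {u : R.W} (hu : u ∈ R.WJ {j, k}) :
    Hf R (R.simple j) (R.s i * u) := by
  unfold Hf
  rw [mul_inv_rev, mul_smul, R.s_inv]
  refine R.pos_smul_of_not_inJ (inv_mem hu) (pos_s (ne_ij h)) fun hc => ?_
  have h1 := hc.2 i (by
    simp only [Set.mem_insert_iff, Set.mem_singleton_iff, not_or]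
    exact ⟨ne_ij h, ne_ik h⟩)
  rw [R.rc_smul _ (R.simple_mem j), R.lin_s, R.rc_simple, R.sl_apply, R.a_single, h.ij] at h1
  simp [ne_ij h] at h1

theorem sub_k : R.WJ {k} ≤ R.WJ {j, k} := R.WJ_mono (by simp)

theorem sub_j : R.WJ {j} ≤ R.WJ {j, k} := R.WJ_mono (by simp)

end B3cAux

open B3cAux

namespace Bld

variable {Γ Ch : Type*} [Group Γ] [MulAction Γ Ch] {B : Bld R Γ Ch}
  {Γ' Ch' : Type*} [Group Γ'] [MulAction Γ' Ch'] {B' : Bld R Γ' Ch'}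

section Fin
variable [Finite Γ] [Finite Ch] {i j k : ι} {p : ℕ}

namespace B3cAux

theorem δ_x1 (B : Bld R Γ Ch) (i : ι) : B.δ (B.a (R.s i)) (B.a 1) = R.s i := by
  rw [B.δ_a, R.s_inv, mul_one]

theorem le_Tv (h : B3 R i j k) :
    B.Lev {j, k} ⊓ B.Kr {j, k} (B.a (R.s i)) ⊓ B.Tv (B.a 1) i ≤ B.Tv (B.a 1) k := fun _ hg =>
  triv_comm h.ki (Kr_le_Tv (by simp) hg.1.2) (δ_x1 B i) hg.2.1

theorem comm (h : B3 R i j k) (hp : p.Prime) (hq : p ∣ B.q j) :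
    ∀ g ∈ B.Lev {j, k} ⊓ B.Kr {j, k} (B.a (R.s i)) ⊓ B.Tv (B.a 1) i,
    ∀ g' ∈ B.Lev {j, k} ⊓ B.Kr {j, k} (B.a (R.s i)) ⊓ B.Tv (B.a 1) i,
    ∀ x y, B.δ (B.a 1) x ∈ R.WJ {k} → B.δ x y ∈ R.WJ {j} →
      g • g' • y = g' • g • y ∧ g ^ p • y = y := by
  intro g hg g' hg' x y hx hy
  obtain ⟨x', h1, h2⟩ := par_exists (fix_i h hx) rfl (δ_a_one (B := B) (R.s i))
  have key : ∀ g ∈ B.Lev {j, k} ⊓ B.Kr {j, k} (B.a (R.s i)) ⊓ B.Tv (B.a 1) i,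
      g ∈ B.Tv x' i ⊓ B.Tv x' j := by
    intro g hg
    refine ⟨Tv_panel (triv_par (fix_i h hx) rfl hg.2 (mem_Tv_iff.1 (le_Tv h hg) x hx))
      (h1 ▸ R.s_mem_WJ rfl), Kr_le_Tv (J := {j, k}) (by simp) ?_⟩
    rw [← Kr_eq (x := B.a (R.s i)) (by rw [h2]; exact sub_k hx)]
    exact hg.1.2
  refine ela (cA h) hp hq (key g hg) (key g' hg')
    (B.δ_mem_trans (y := x) (B.δ_mem_symm ?_) (R.WJ_mono (by simp) hy))
  rw [h1]
  exact R.s_mem_WJ (by simp)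

theorem norm (h : B3 R i j k) {n : Γ} (hn : n ∈ B.Lev {j, k})
    (hn' : B.δ (B.a 1) (n • B.a 1) ∈ R.WJ {k}) :
    ∀ g ∈ B.Lev {j, k} ⊓ B.Kr {j, k} (B.a (R.s i)) ⊓ B.Tv (B.a 1) i,
      n * g * n⁻¹ ∈ B.Lev {j, k} ⊓ B.Kr {j, k} (B.a (R.s i)) ⊓ B.Tv (B.a 1) i := by
  intro g hg
  have h1 : n * g * n⁻¹ ∈ B.Lev {j, k} := mul_mem (mul_mem hn hg.1.1) (inv_mem hn)
  have h2 : B.δ (B.a (R.s i)) (n • B.a (R.s i)) ∈ R.WJ {k} := by
    refine lev_panel hn (by simp) hn' (fun l hl => ?_) (fix_k h)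
    unfold Hf
    rw [R.s_inv]
    rcases hl with rfl | rfl
    exacts [pos_s (ne_ij h), pos_s (ne_ik h)]
  have h3 : n * g * n⁻¹ ∈ B.Kr {j, k} (B.a (R.s i)) := by
    rw [Kr_eq (sub_k h2)]
    exact Kr_conj hg.1.2 n
  have h4 : (n * g * n⁻¹) • B.a 1 = B.a 1 := by
    have a1 : B.δ (B.a 1) ((n * g * n⁻¹) • B.a 1) ∈ R.WJ {j, k} := h1.1
    have a2 : B.δ (B.a 1) ((n * g * n⁻¹) • B.a 1) ∈ R.WJ {i} := by
      refine B.δ_mem_trans (y := B.a (R.s i)) (by rw [δ_a_one]; exact R.s_mem_WJ rfl) ?_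
      rw [← h3 (B.a (R.s i)) (by rw [B.δ_self]; exact one_mem _), B.δ_smul, δ_x1]
      exact R.s_mem_WJ rfl
    rcases δ_mem_single.1 a2 with e | e
    · exact e.symm
    · rw [e, R.s_mem_WJ_iff] at a1
      rcases a1 with e | e
      exacts [absurd e (ne_ij h), absurd e (ne_ik h)]
  exact ⟨⟨h1, h3⟩, triv_par (fix_i h (B.δ_mem_symm hn')) rfl (Tv_conj hg.2 n) h4⟩

theorem base (h : B3 R i j k) : B.UJ {i, j, k} (R.simple j) ≤
    B.Lev {j, k} ⊓ B.Kr {j, k} (B.a (R.s i)) ⊓ B.Tv (B.a 1) i ⊓ B.Tv (B.a (R.s k * R.s j)) k := by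
  intro g hg
  have a0 : Hf R (R.simple j) (R.s i) := by simpa using hf_base h (one_mem _)
  refine ⟨⟨⟨Br_le_Lev (R.inJ_simple_iff.2 (by simp)) hg.1, ?_⟩, ?_⟩, ?_⟩
  · refine mem_Kr_of (y := B.a (R.s i * R.w0 {j, k})) (by rw [B.δ_a, inv_mul_cancel_left])
      (hg.1 _ a0) (fun l hl => ?_) (hg.1 _ (hf_base h (R.w0_mem _)))
    exact hg.2 _ (R.s_mem_WJ (by simp)) l (Or.inr hl) a0 (hf_base h (R.s_mem_WJ hl))
  · exact hg.2 1 (one_mem _) i (by simp) (hf_one.2 (R.pos_simple j)) (by rwa [one_mul])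
  · refine hg.2 _ (mul_mem (R.s_mem_WJ (by simp)) (R.s_mem_WJ (by simp))) k (by simp) ?_ ?_
    · unfold Hf
      rw [mul_inv_rev, mul_smul, R.s_inv, R.s_inv, s_s_B2 (cB h)]
      exact pos_s (ne_jk h).symm
    · unfold Hf
      rw [mul_inv_rev, mul_inv_rev, mul_smul, mul_smul, R.s_inv, R.s_inv, s_s_B2 (cB h), ← mul_smul,
        R.s_mul_self, one_smul]
      exact R.pos_simple j

theorem trans' (h : B3 R i j k) (hM : B.MoufJ {i, j, k} j) :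
    ∀ x x' u, B.δ (B.a 1) x ∈ R.WJ {k} → B.δ x x' = R.s k → B.δ x u = R.s j →
      B.TrOn (B.Lev {j, k} ⊓ B.Kr {j, k} (B.a (R.s i)) ⊓ B.Tv (B.a 1) i ⊓ B.Tv u k) x' j := by
  intro x x' u hx hx' hu
  have h1 : B.δ u x' = R.s j * R.s k :=
    δ_mul (by rw [B.δ_symm, hu, R.s_inv]) hx' (by rw [(len_B2 (cB h)).1, R.len_s, R.len_s])
  have h2 : B.δ (B.a 1) x' ∈ R.WJ {k} := B.δ_mem_trans hx (hx' ▸ R.s_mem_WJ rfl)
  obtain ⟨n, hn, e1, e2⟩ := lev_trans (B := B) (J := {j, k}) (x := B.a (R.s k * R.s j)) (y := B.a 1)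
    (x' := u) (y' := x')
    (by rw [δ_a_one]; exact mul_mem (R.s_mem_WJ (by simp)) (R.s_mem_WJ (by simp)))
    (by rw [B.δ_self]; exact one_mem _)
    (B.δ_mem_trans (sub_k hx) (hu ▸ R.s_mem_WJ (by simp))) (sub_k h2)
    (by rw [h1, B.δ_a, mul_one, mul_inv_rev, R.s_inv, R.s_inv])
  rw [← e1, ← e2]
  exact (TrOn.mono hM (base h)).conj n fun g hg =>
    ⟨norm h hn (by rwa [e2]) g hg.1, Tv_conj hg.2 n⟩

end B3cAux

theorem b3c (h : B3 R i j k) (hp : p.Prime) (hq : p ∣ B.q j) (hM : B.MoufJ {i, j, k} j) :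
    ∃ S : Subgroup Γ, IsPGroup p S ∧ S ≤ B.Br (R.s j • R.simple k) ∧ S ≤ B.Tv (B.a (R.s i)) i ∧
      S ≤ B.Tv (B.a (R.s i)) j ∧ S ≤ B.Tv (B.a (R.s i)) k ∧ B.TrOn S (B.a (R.s j)) k := by
  obtain ⟨S, hS, h1, h2, h3⟩ := gq_half (cB h) hp (B3cAux.le_Tv h) (B3cAux.comm h hp hq)
    (B3cAux.trans' h hM)
  refine ⟨S, h1, fun g hg => ?_, fun g hg => ?_, fun g hg => Kr_le_Tv (by simp) (hS hg).1.2,
    fun g hg => Kr_le_Tv (by simp) (hS hg).1.2, h3⟩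
  · have e : R.s j * R.s k * R.w0 {j, k} = R.s k * R.s j := by
      rw [w0_B2 (cB h), braid_B2 (cB h)]
      simp only [← mul_assoc]
      rw [mul_assoc (R.s j) (R.s k) (R.s k), R.s_mul_self, mul_one, R.s_mul_self, one_mul]
    exact mem_Br_of_lev (hS hg).1.1 (R.s_mem_WJ (by simp)) (by simp) (h2 g hg).1
      (by rw [e]; exact (h2 g hg).2)
  · exact Tv_panel (hS hg).2 (by rw [δ_a_one]; exact R.s_mem_WJ rfl)

end Fin

end Bld

end Cfsg.Lib.BLD
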