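import Cfsg.Agent.BLD.Defs
import Cfsg.Agent.Chev.PreCoxMatsumoto

/-! # The form of a finite Coxeter group is positive definite -/

set_option autoImplicit false
set_option linter.unusedSectionVars false

namespace Cfsg.Lib.BLD

open Cfsg.Lib.Chev

namespace Cox1

open Module Polynomial.Chebyshev

/-- `2 cos (π / m)`, with the value `-2` for `m = 1`. -/
noncomputable def bb (m : ℕ) : ℝ :=
  if m = 1 then -2 else if m = 2 then 0 else if m = 3 then 1 else if m = 4 then √2
  else if m = 6 then √3 else √(2 + √2)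

theorem bb_eq_1' : type_of% @bb.eq_1 := @bb.eq_1

theorem cw_le {m : ℕ} (h : m ∈ ({2, 3, 4, 6, 8} : Set ℕ)) : cw m ≤ bb m := by
  rcases h with rfl | rfl | rfl | rfl | rfl <;> simp [cw, bb]
  refine Real.sqrt_le_sqrt ?_
  have : (1 : ℝ) ≤ √2 := Real.one_le_sqrt.2 (by norm_num)
  linarith

theorem braid {V : Type*} [AddCommGroup V] [Module ℝ V] {x y : V} {f g : Dual ℝ V} (hf : f x = 2)
    (hg : g y = 2) {m : ℕ} (h : m ∈ ({2, 3, 4, 6, 8} : Set ℕ)) (h1 : f y = -bb m) (h2 : g x = -bb m) :
    (reflection hf * reflection hg) ^ m = 1 := by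
  ext z
  have S3 : S ℝ 3 = Polynomial.X * S ℝ 2 - S ℝ 1 := S_add_two ℝ 1
  rcases h with rfl | rfl | rfl | rfl | rfl
  · rw [reflection_mul_reflection_pow_apply hf hg 2 z (-2) (by rw [h1, h2]; simp [bb]), h1, h2]
    norm_num [bb]
    abel
  · rw [reflection_mul_reflection_pow_apply hf hg 3 z (-1) (by rw [h1, h2]; norm_num [bb])]
    norm_num
  · rw [reflection_mul_reflection_pow_apply hf hg 4 z 0 (by rw [h1, h2]; norm_num [bb])]
    norm_num
  · rw [reflection_mul_reflection_pow_apply hf hg 6 z 1 (by rw [h1, h2]; norm_num [bb])]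
    norm_num [S_two]
  · rw [reflection_mul_reflection_pow_apply hf hg 8 z √2 (by
      rw [h1, h2]
      have : √(2 + √2) * √(2 + √2) = (2 + √2 : ℝ) := Real.mul_self_sqrt (by positivity)
      norm_num [bb, this])]
    norm_num [S3, S_two]

variable {I W : Type*} [Fintype I] [DecidableEq I] [Group W] [Fintype W]

/-- The average of the standard form. -/
noncomputable def avg (φ : W →* ((I → ℝ) ≃ₗ[ℝ] (I → ℝ))) : (I → ℝ) →ₗ[ℝ] (I → ℝ) →ₗ[ℝ] ℝ :=
  ∑ w, (dotProductBilin ℝ ℝ).compl₁₂ (φ w).toLinearMap (φ w).toLinearMap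

theorem avg_eq_1' : type_of% @avg.eq_1 := @avg.eq_1

variable (φ : W →* ((I → ℝ) ≃ₗ[ℝ] (I → ℝ)))

theorem avg_apply (u v : I → ℝ) : avg φ u v = ∑ w, φ w u ⬝ᵥ φ w v := by
  simp [avg, LinearMap.sum_apply]

theorem avg_symm (u v : I → ℝ) : avg φ u v = avg φ v u := by
  simp only [avg_apply, dotProduct_comm]

theorem avg_inv (g : W) (u v : I → ℝ) : avg φ (φ g u) (φ g v) = avg φ u v := by
  simp only [avg_apply]
  exact Fintype.sum_equiv (Equiv.mulRight g) _ _ fun w => by simp

theorem avg_pos {v : I → ℝ} (hv : v ≠ 0) : 0 < avg φ v v := by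
  rw [avg_apply]
  refine Finset.sum_pos (fun w _ => ?_) ⟨1, Finset.mem_univ _⟩
  have := (Matrix.dotProduct_self_star_pos_iff (v := φ w v)).2 (by simpa using hv)
  simpa using this

theorem pos (c : I → I → ℝ) (hc : ∀ i j, c i j = c j i)
    (h2 : ∀ i, dotProductBilin ℝ ℝ (c i) (Pi.single i 1) = 2)
    (s : I → W) (hs : ∀ i, φ (s i) = reflection (h2 i)) {K : Type} [Fintype K] {f : K → I}
    {x : K → ℝ} (hf : Function.Injective f) (hx : x ≠ 0) :
    0 < ∑ a, ∑ b, c (f a) (f b) * x a * x b := by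
  classical
  set e : I → I → ℝ := fun i => Pi.single i 1 with he
  have hα : ∀ i, 0 < avg φ (e i) (e i) := fun i => avg_pos φ (by simp [he])
  have key : ∀ i j, 2 * avg φ (e i) (e j) = c i j * avg φ (e i) (e i) := fun i j => by
    have := avg_inv φ (s i) (e i) (e j)
    rw [hs, reflection_apply_self, reflection_apply] at this
    simp only [map_neg, map_sub, map_smul, LinearMap.neg_apply, smul_eq_mul] at this
    have h3 : dotProductBilin ℝ ℝ (c i) (e j) = c i j := by simp [he]
    rw [h3] at this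
    linarith
  set y : K → ℝ := fun a => x a / √(avg φ (e (f a)) (e (f a))) with hy
  have hv : (∑ a, y a • e (f a)) ≠ 0 := fun h0 => hx (funext fun a => by
    have := congrFun h0 (f a)
    simp only [he, Finset.sum_apply, Pi.smul_apply, Pi.single_apply, hf.eq_iff, smul_eq_mul, mul_ite,
      mul_one, mul_zero, Finset.sum_ite_eq, Finset.mem_univ, if_true, Pi.zero_apply] at this
    exact (div_eq_zero_iff.1 this).resolve_right (Real.sqrt_pos.2 (hα _)).ne')
  have h := avg_pos φ hv
  simp only [map_sum, map_smul, LinearMap.sum_apply, LinearMap.smul_apply, smul_eq_mul,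
    Finset.mul_sum] at h
  have h' : ∀ a b, y a * (y b * avg φ (e (f b)) (e (f a))) = c (f a) (f b) * x a * x b / 2 := fun a b => by
    have k1 := key (f a) (f b)
    have k2 := key (f b) (f a)
    rw [avg_symm φ (e (f b)), hc (f b)] at k2
    rw [avg_symm φ (e (f b))]
    by_cases h0 : c (f a) (f b) = 0
    · rw [h0] at k1 ⊢
      rw [show avg φ (e (f a)) (e (f b)) = 0 by linarith]
      simp
    · have k3 : avg φ (e (f b)) (e (f b)) = avg φ (e (f a)) (e (f a)) :=
        mul_left_cancel₀ h0 (by linarith)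
      have k4 := Real.mul_self_sqrt (hα (f a)).le
      have k5 := (Real.sqrt_pos.2 (hα (f a))).ne'
      simp only [hy, k3]
      field_simp
      rw [pow_two, k4]
      linear_combination x a * x b * k1
  simp only [h', ← Finset.sum_div] at h
  linarith

end Cox1

theorem pd_of_preCox {I W : Type*} [Group W] [Finite W] [Finite I] (C : PreCox I W)
    (h : ∀ i j, i ≠ j → orderOf (C.s i * C.s j) ∈ ({2, 3, 4, 6, 8} : Set ℕ)) :
    PD fun i j => orderOf (C.s i * C.s j) := by
  classical
  have := Fintype.ofFinite I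
  have := Fintype.ofFinite W
  intro K _ f x hf hx hx0
  set c : I → I → ℝ := fun i j => -Cox1.bb (orderOf (C.s i * C.s j)) with hc
  have hsym : ∀ i j, orderOf (C.s i * C.s j) = orderOf (C.s j * C.s i) := fun i j => by
    rw [← orderOf_inv, mul_inv_rev, C.inv_s, C.inv_s]
  have h2 : ∀ i, dotProductBilin ℝ ℝ (c i) (Pi.single i 1) = 2 := fun i => by simp [hc, Cox1.bb]
  obtain ⟨φ, hφ⟩ := C.exists_monoidHom (fun i => Module.reflection (h2 i)) fun i j => by
    by_cases e : i = j
    · subst e
      rw [C.sq, orderOf_one, pow_one]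
      exact LinearEquiv.ext (Module.involutive_reflection (h2 i))
    · exact Cox1.braid _ _ (h i j e) (by simp [hc]) (by simp [hc, hsym j i])
  have key := Cox1.pos φ c (fun i j => by simp only [hc, hsym i j]) h2 C.s hφ hf hx0
  have h3 : ∀ a b, cw (orderOf (C.s (f a) * C.s (f b))) * x a * x b ≤
      (if a = b then 2 * x a ^ 2 else 0) - c (f a) (f b) * x a * x b := fun a b => by
    split_ifs with e
    · subst e
      simp [hc, cw, Cox1.bb, pow_two, mul_assoc]
    · have := mul_le_mul_of_nonneg_right (Cox1.cw_le (h _ _ (hf.ne e))) (mul_nonneg (hx a) (hx b))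
      simp only [hc]
      linarith
  have h4 := Finset.sum_le_sum fun a (_ : a ∈ Finset.univ) =>
    Finset.sum_le_sum fun b (_ : b ∈ Finset.univ) => h3 a b
  simp only [Finset.sum_sub_distrib, Finset.sum_ite_eq, Finset.mem_univ, if_true,
    ← Finset.mul_sum] at h4
  linarith

end Cfsg.Lib.BLD
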