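import Cfsg.Agent.BLD.Defs

/-!
# Excluded subdiagrams of a positive definite Coxeter matrix
-/

set_option autoImplicit false
set_option linter.unusedSectionVars false
set_option linter.unusedVariables false

namespace Cfsg.Lib.BLD

namespace Cox2a

open Finset

theorem cw_nonneg (m : ℕ) : 0 ≤ cw m := by
  unfold cw
  split_ifs <;> positivity

theorem cw6 {m : ℕ} (h : 6 ≤ m) : √3 ≤ cw m := by
  rw [cw, if_neg (by omega), if_neg (by omega), if_neg (by omega)]

theorem cw4 {m : ℕ} (h : 4 ≤ m) : √2 ≤ cw m := by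
  rw [cw, if_neg (by omega), if_neg (by omega)]
  split_ifs
  · exact le_rfl
  · exact Real.sqrt_le_sqrt (by norm_num)

theorem cw3 {m : ℕ} (h : 3 ≤ m) : 1 ≤ cw m := by
  rcases h.eq_or_lt with rfl | h
  · simp [cw]
  · exact (Real.one_le_sqrt.2 (by norm_num)).trans (cw4 h)

variable {I : Type*} {M : I → I → ℕ} {N k : ℕ} {f c : ℕ → I} {x : ℕ → ℝ} {v v' : I} {a b b' b'' b''' : ℕ}
  {w w' w'' w''' : ℝ}

/-- The node `a` is dominated by its neighbours. -/
def Ok (M : I → I → ℕ) (N : ℕ) (f : ℕ → I) (x : ℕ → ℝ) (a : ℕ) : Prop :=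
  2 * x a ≤ ∑ b ∈ range N, cw (M (f a) (f b)) * x b

theorem Ok_eq_1' : type_of% @Ok.eq_1 := @Ok.eq_1

theorem harm (h : CoxM M) (hf : ∀ a b, a < N → b < N → f a = f b → a = b) (hx : ∀ a, 0 ≤ x a)
    (h0 : 0 < N) (h1 : x 0 ≠ 0) (H : ∀ a < N, Ok M N f x a) : False := by
  refine (h.pd (Fin N) (fun a => f a) (fun a => x a) (fun a b e => Fin.ext (hf _ _ a.2 b.2 e))
    (fun a => hx a) fun e => h1 (congrFun e ⟨0, h0⟩)).not_ge ?_
  rw [mul_sum]
  refine sum_le_sum fun a _ => ?_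
  have := mul_le_mul_of_nonneg_left (H a a.2) (hx a)
  rw [← Fin.sum_univ_eq_sum_range (fun b => cw (M (f a) (f b)) * x b), mul_sum] at this
  exact (by ring : _ = _).trans_le (this.trans_eq (sum_congr rfl fun _ _ => by ring))

theorem ok (hx : ∀ a, 0 ≤ x a) (S : Finset ℕ) (hS : ∀ b ∈ S, b < N)
    (h : 2 * x a ≤ ∑ b ∈ S, cw (M (f a) (f b)) * x b) : Ok M N f x a :=
  h.trans (sum_le_sum_of_subset_of_nonneg (fun b hb => mem_range.2 (hS b hb))
    fun b _ _ => mul_nonneg (cw_nonneg _) (hx b))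

theorem ok1 (hx : ∀ a, 0 ≤ x a) (hb : b < N) (e : w ≤ cw (M (f a) (f b))) (h : 2 * x a ≤ w * x b) :
    Ok M N f x a :=
  ok hx {b} (by simpa using hb) (by
    rw [sum_singleton]
    linarith [mul_le_mul_of_nonneg_right e (hx b)])

theorem ok2 (hx : ∀ a, 0 ≤ x a) (hb : b < N ∧ b' < N ∧ b ≠ b') (e : w ≤ cw (M (f a) (f b)))
    (e' : w' ≤ cw (M (f a) (f b'))) (h : 2 * x a ≤ w * x b + w' * x b') : Ok M N f x a :=
  ok hx {b, b'} (by simp; omega) (by
    rw [sum_pair hb.2.2]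
    linarith [mul_le_mul_of_nonneg_right e (hx b), mul_le_mul_of_nonneg_right e' (hx b')])

theorem ok3 (hx : ∀ a, 0 ≤ x a) (hb : b < N ∧ b' < N ∧ b'' < N ∧ b ≠ b' ∧ b ≠ b'' ∧ b' ≠ b'')
    (e : w ≤ cw (M (f a) (f b))) (e' : w' ≤ cw (M (f a) (f b'))) (e'' : w'' ≤ cw (M (f a) (f b'')))
    (h : 2 * x a ≤ w * x b + w' * x b' + w'' * x b'') : Ok M N f x a :=
  ok hx {b, b', b''} (by simp; omega) (by
    rw [sum_insert (by simp; omega), sum_pair hb.2.2.2.2.2]
    linarith [mul_le_mul_of_nonneg_right e (hx b), mul_le_mul_of_nonneg_right e' (hx b'),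
      mul_le_mul_of_nonneg_right e'' (hx b'')])

theorem harm_nat (h : CoxM M) (hf : ∀ a b, a < N → b < N → f a = f b → a = b) (E : List (ℕ × ℕ))
    (hE : ∀ p ∈ E, 3 ≤ M (f p.1) (f p.2)) (y : ℕ → ℕ) (h0 : 0 < N) (h1 : y 0 ≠ 0)
    (H : ∀ a < N, 2 * y a ≤ ∑ b ∈ range N, if (a, b) ∈ E ∨ (b, a) ∈ E then y b else 0) : False := by
  refine harm h hf (x := fun a => y a) (fun a => Nat.cast_nonneg _) h0 (Nat.cast_ne_zero.2 h1)
    fun a ha => ?_
  have h2 : ((2 * y a : ℕ) : ℝ) ≤ _ := Nat.cast_le.2 (H a ha)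
  push_cast at h2
  refine h2.trans (sum_le_sum fun b _ => ?_)
  split_ifs with e
  · refine le_mul_of_one_le_left (Nat.cast_nonneg _) (cw3 ?_)
    rcases e with e | e
    · exact hE _ e
    · exact h.symm _ _ ▸ hE _ e
  · exact mul_nonneg (cw_nonneg _) (Nat.cast_nonneg _)

/-- A chain with two further nodes. -/
def ext (k : ℕ) (c : ℕ → I) (v v' : I) (a : ℕ) : I := if a < k then c a else if a = k then v else v'

theorem ext_eq_1' : type_of% @ext.eq_1 := @ext.eq_1

theorem ext_lt (h : a < k) : ext k c v v' a = c a := if_pos h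

theorem ext_k : ext k c v v' k = v := by simp [ext]

theorem ext_k1 : ext k c v v' (k + 1) = v' := by simp [ext]

theorem ext_inj1 (hc : Chain M k c) (hv : ∀ a < k, v ≠ c a) (a b : ℕ) (ha : a < k + 1)
    (hb : b < k + 1) (e : ext k c v v' a = ext k c v v' b) : a = b := by
  rcases (Nat.lt_succ_iff.1 ha).eq_or_lt with rfl | ha <;>
    rcases (Nat.lt_succ_iff.1 hb).eq_or_lt with rfl | hb
  · rfl
  · exact absurd (by rwa [ext_k, ext_lt hb] at e) (hv b hb)
  · exact absurd (by rw [ext_k, ext_lt ha] at e; exact e.symm) (hv a ha)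
  · exact hc.inj a b ha hb (by rwa [ext_lt ha, ext_lt hb] at e)

theorem ext_inj2 (hc : Chain M k c) (hv : ∀ a < k, v ≠ c a) (hv' : ∀ a < k, v' ≠ c a) (hvv : v ≠ v')
    (a b : ℕ) (ha : a < k + 2) (hb : b < k + 2) (e : ext k c v v' a = ext k c v v' b) : a = b := by
  have h1 : ∀ b < k + 1, v' ≠ ext k c v v' b := fun b hb => by
    rcases (Nat.lt_succ_iff.1 hb).eq_or_lt with rfl | hb
    · rw [ext_k]; exact hvv.symm
    · rw [ext_lt hb]; exact hv' b hb
  rcases (Nat.lt_succ_iff.1 ha).eq_or_lt with rfl | ha <;>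
    rcases (Nat.lt_succ_iff.1 hb).eq_or_lt with rfl | hb
  · rfl
  · exact absurd (by rwa [ext_k1] at e) (h1 b hb)
  · exact absurd (by rw [ext_k1] at e; exact e.symm) (h1 a ha)
  · exact ext_inj1 hc hv a b ha hb e

theorem up (hc : Chain M k c) (e : b = a + 1 ∧ b < k) : 1 ≤ cw (M (c a) (c b)) :=
  cw3 (e.1 ▸ hc.adj a (e.1 ▸ e.2))

theorem dn (h : CoxM M) (hc : Chain M k c) (e : a = b + 1 ∧ a < k) : 1 ≤ cw (M (c a) (c b)) :=
  h.symm _ _ ▸ up hc e

theorem up' (hc : Chain M k c) (e : b = a + 1 ∧ b < k) :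
    1 ≤ cw (M (ext k c v v' a) (ext k c v v' b)) := by
  rw [ext_lt (by omega), ext_lt e.2]
  exact up hc e

theorem dn' (h : CoxM M) (hc : Chain M k c) (e : a = b + 1 ∧ a < k) :
    1 ≤ cw (M (ext k c v v' a) (ext k c v v' b)) :=
  h.symm _ _ ▸ up' hc e

theorem s2 : √2 * √2 = 2 := Real.mul_self_sqrt (by norm_num)

theorem s3 : √3 * √3 = 3 := Real.mul_self_sqrt (by norm_num)

end Cox2a

namespace CoxM

open Cox2a

variable {I : Type*} {M : I → I → ℕ} (h : CoxM M) {k : ℕ} {c : ℕ → I} {v v' : I}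
include h

theorem no_cyc (hc : Chain M k c) (hk : 3 ≤ k) : ¬ 3 ≤ M (c (k - 1)) (c 0) := fun e => by
  have hx : ∀ a : ℕ, (0 : ℝ) ≤ (fun _ => 1) a := fun _ => zero_le_one
  refine harm h hc.inj hx (by omega) one_ne_zero fun a ha => ?_
  by_cases h0 : a = 0
  · subst h0
    exact ok2 hx (b := 1) (b' := k - 1) (by omega) (up hc (by omega)) (cw3 (h.symm _ _ ▸ e))
      (by norm_num)
  by_cases h1 : a = k - 1
  · subst h1
    exact ok2 hx (b := k - 2) (b' := 0) (by omega) (dn h hc (by omega)) (cw3 e) (by norm_num)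
  exact ok2 hx (b := a - 1) (b' := a + 1) (by omega) (dn h hc (by omega)) (up hc (by omega))
    (by norm_num)

theorem no_G {a b d : I} (had : a ≠ d) (h1 : 3 ≤ M a b) : ¬ 6 ≤ M b d := fun e => by
  have hab : a ≠ b := by
    rintro rfl
    rw [h.diag] at h1
    omega
  have hbd : b ≠ d := by
    rintro rfl
    rw [h.diag] at e
    omega
  let x : ℕ → ℝ := fun n => if n = 0 then 1 else if n = 1 then 2 else √3
  have hx : ∀ n, 0 ≤ x n := fun n => by
    simp only [x]
    split_ifs <;> positivity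
  refine harm h (N := 3) (f := fun n => if n = 0 then a else if n = 1 then b else d)
    (fun n m hn hm => ?_) hx (by omega) one_ne_zero fun n hn => ?_
  · interval_cases n <;> interval_cases m <;> simp [hab, hbd, had, hab.symm, hbd.symm, had.symm]
  interval_cases n
  · exact ok1 hx (b := 1) (by omega) (cw3 h1) (by simp [x])
  · exact ok2 hx (b := 0) (b' := 2) (by omega) (cw3 (h.symm a b ▸ h1)) (cw6 e)
      (by simp only [x]; norm_num)
  · exact ok1 hx (b := 1) (by omega) (cw6 (h.symm b d ▸ e)) (by simp [x, mul_comm])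

theorem no_C (hc : Chain M k c) (hk : 3 ≤ k) (h1 : 4 ≤ M (c 0) (c 1)) :
    ¬ 4 ≤ M (c (k - 2)) (c (k - 1)) := fun e => by
  let x : ℕ → ℝ := fun n => if n = 0 ∨ n = k - 1 then 1 else √2
  have hx : ∀ n, 0 ≤ x n := fun n => by
    simp only [x]
    split_ifs <;> positivity
  have x1 : ∀ n, n = 0 ∨ n = k - 1 → x n = 1 := fun n e => if_pos e
  have x2 : ∀ n, ¬ (n = 0 ∨ n = k - 1) → x n = √2 := fun n e => if_neg e
  refine harm h hc.inj hx (by omega) (by simp [x]) fun a ha => ?_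
  by_cases h0 : a = 0
  · subst h0
    exact ok1 hx (b := 1) (by omega) (cw4 h1) (by rw [x1 _ (by omega), x2 _ (by omega), s2, mul_one])
  by_cases h2 : a = k - 1
  · subst h2
    exact ok1 hx (b := k - 2) (by omega) (cw4 (h.symm _ _ ▸ e))
      (by rw [x1 _ (by omega), x2 _ (by omega), s2, mul_one])
  obtain ⟨w, a1, a2⟩ : ∃ w, w ≤ cw (M (c a) (c (a - 1))) ∧ w * x (a - 1) = √2 := by
    by_cases h3 : a = 1
    · subst h3
      exact ⟨_, cw4 (h.symm _ _ ▸ h1), by rw [x1 _ (by omega), mul_one]⟩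
    · exact ⟨_, dn h hc (by omega), by rw [x2 _ (by omega), one_mul]⟩
  obtain ⟨w', a3, a4⟩ : ∃ w, w ≤ cw (M (c a) (c (a + 1))) ∧ w * x (a + 1) = √2 := by
    by_cases h3 : a = k - 2
    · refine ⟨_, cw4 ?_, by rw [x1 _ (by omega), mul_one]⟩
      rwa [show a + 1 = k - 1 by omega, h3]
    · exact ⟨_, up hc (by omega), by rw [x2 _ (by omega), one_mul]⟩
  exact ok2 hx (by omega) a1 a3 (by rw [a2, a4, x2 _ (by omega), two_mul])

theorem no_B (hc : Chain M k c) (hk : 3 ≤ k) (hv : ∀ a < k, v ≠ c a) (h1 : 3 ≤ M v (c 1)) :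
    ¬ 4 ≤ M (c (k - 2)) (c (k - 1)) := fun e => by
  let x : ℕ → ℝ := fun n => if n = 0 ∨ n = k then 1 else if n = k - 1 then √2 else 2
  have hx : ∀ n, 0 ≤ x n := fun n => by
    simp only [x]
    split_ifs <;> positivity
  have x1 : ∀ n, n = 0 ∨ n = k → x n = 1 := fun n e => if_pos e
  have x2 : x (k - 1) = √2 := (if_neg (by omega)).trans (if_pos rfl)
  have x3 : ∀ n, 0 < n ∧ n + 1 < k → x n = 2 := fun n hn =>
    (if_neg (by omega)).trans (if_neg (by omega))
  have e1 : 1 ≤ cw (M (ext k c v v k) (ext k c v v 1)) := by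
    rw [ext_k, ext_lt (by omega)]
    exact cw3 h1
  have e2 : √2 ≤ cw (M (ext k c v v (k - 2)) (ext k c v v (k - 1))) := by
    rw [ext_lt (by omega), ext_lt (by omega)]
    exact cw4 e
  refine harm h (ext_inj1 (v' := v) hc hv) hx (by omega) (by simp [x]) fun a ha => ?_
  by_cases h0 : a = 0
  · subst h0
    exact ok1 hx (b := 1) (by omega) (up' hc (by omega))
      (by rw [x1 _ (by omega), x3 _ (by omega)]; norm_num)
  by_cases h2 : a = k
  · subst h2
    exact ok1 hx (b := 1) (by omega) e1 (by rw [x1 _ (by omega), x3 _ (by omega)]; norm_num)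
  by_cases h3 : a = k - 1
  · subst h3
    exact ok1 hx (b := k - 2) (by omega) (h.symm _ _ ▸ e2) (by rw [x2, x3 _ (by omega), mul_comm])
  obtain ⟨w', a3, a4⟩ : ∃ w, w ≤ cw (M (ext k c v v a) (ext k c v v (a + 1))) ∧
      w * x (a + 1) = 2 := by
    by_cases h3 : a = k - 2
    · rw [show a + 1 = k - 1 by omega, h3]
      exact ⟨_, e2, by rw [x2, s2]⟩
    · exact ⟨_, up' hc (by omega), by rw [x3 _ (by omega), one_mul]⟩
  by_cases h4 : a = 1
  · subst h4
    exact ok3 hx (b := 0) (b' := k) (by omega) (dn' h hc (by omega)) (h.symm _ _ ▸ e1) a3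
      (by rw [a4, x3 _ (by omega), x1 _ (by omega), x1 _ (by omega)]; norm_num)
  · exact ok2 hx (b := a - 1) (by omega) (dn' h hc (by omega)) a3
      (by rw [a4, x3 _ (by omega), x3 _ (by omega)]; norm_num)

theorem no_D (hc : Chain M k c) (hk : 3 ≤ k) (hv : ∀ a < k, v ≠ c a) (hv' : ∀ a < k, v' ≠ c a)
    (hvv : v ≠ v') (h1 : 3 ≤ M v (c 1)) : ¬ 3 ≤ M v' (c (k - 2)) := fun e => by
  rcases hk.eq_or_lt with rfl | hk
  · refine harm_nat h (ext_inj2 hc hv hv' hvv) [(0, 1), (1, 2), (3, 1), (4, 1)] ?_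
      (fun a => [1, 2, 1, 1, 1].getD a 0) (by omega) (by decide) (by decide)
    simp only [List.forall_mem_cons]
    exact ⟨hc.adj 0 (by omega), hc.adj 1 (by omega), h1, e, by simp⟩
  let x : ℕ → ℝ := fun n => if 0 < n ∧ n + 1 < k then 2 else 1
  have hx : ∀ n, 0 ≤ x n := fun n => by
    simp only [x]
    split_ifs <;> positivity
  have x1 : ∀ n, ¬ (0 < n ∧ n + 1 < k) → x n = 1 := fun n e => if_neg e
  have x3 : ∀ n, 0 < n ∧ n + 1 < k → x n = 2 := fun n e => if_pos e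
  have e1 : 1 ≤ cw (M (ext k c v v' k) (ext k c v v' 1)) := by
    rw [ext_k, ext_lt (by omega)]
    exact cw3 h1
  have e2 : 1 ≤ cw (M (ext k c v v' (k + 1)) (ext k c v v' (k - 2))) := by
    rw [ext_k1, ext_lt (by omega)]
    exact cw3 e
  refine harm h (ext_inj2 hc hv hv' hvv) hx (by omega) (by simp [x]) fun a ha => ?_
  by_cases h0 : a = 0
  · subst h0
    exact ok1 hx (b := 1) (by omega) (up' hc (by omega))
      (by rw [x1 _ (by omega), x3 _ (by omega)]; norm_num)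
  by_cases h2 : a = k
  · subst h2
    exact ok1 hx (b := 1) (by omega) e1 (by rw [x1 _ (by omega), x3 _ (by omega)]; norm_num)
  by_cases h3 : a = k + 1
  · subst h3
    exact ok1 hx (b := k - 2) (by omega) e2 (by rw [x1 _ (by omega), x3 _ (by omega)]; norm_num)
  by_cases h4 : a = k - 1
  · subst h4
    exact ok1 hx (b := k - 2) (by omega) (dn' h hc (by omega))
      (by rw [x1 _ (by omega), x3 _ (by omega)]; norm_num)
  by_cases h5 : a = 1
  · subst h5
    exact ok3 hx (b := 0) (b' := k) (b'' := 2) (by omega) (dn' h hc (by omega)) (h.symm _ _ ▸ e1)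
      (up' hc (by omega))
      (by rw [x3 _ (by omega), x1 _ (by omega), x1 _ (by omega), x3 _ (by omega)]; norm_num)
  by_cases h6 : a = k - 2
  · subst h6
    exact ok3 hx (b := k - 1) (b' := k + 1) (b'' := k - 3) (by omega) (up' hc (by omega))
      (h.symm _ _ ▸ e2) (dn' h hc (by omega))
      (by rw [x3 _ (by omega), x1 _ (by omega), x1 _ (by omega), x3 _ (by omega)]; norm_num)
  exact ok2 hx (b := a - 1) (b' := a + 1) (by omega) (dn' h hc (by omega)) (up' hc (by omega))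
    (by rw [x3 _ (by omega), x3 _ (by omega), x3 _ (by omega)]; norm_num)

theorem no_E6 (hc : Chain M 5 c) (hv : ∀ a < 5, v ≠ c a) (hv' : ∀ a < 5, v' ≠ c a)
    (h1 : 3 ≤ M v (c 2)) : ¬ 3 ≤ M v' v := fun e => by
  have hvv : v ≠ v' := by
    rintro rfl
    rw [h.diag] at e
    omega
  refine harm_nat h (ext_inj2 hc hv hv' hvv) [(0, 1), (1, 2), (2, 3), (3, 4), (5, 2), (6, 5)] ?_
    (fun a => [1, 2, 3, 2, 1, 2, 1].getD a 0) (by omega) (by decide) (by decide)
  simp only [List.forall_mem_cons]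
  exact ⟨hc.adj 0 (by omega), hc.adj 1 (by omega), hc.adj 2 (by omega), hc.adj 3 (by omega), h1, e,
    by simp⟩

theorem no_E7 (hc : Chain M 7 c) (hv : ∀ a < 7, v ≠ c a) : ¬ 3 ≤ M v (c 3) := fun e => by
  refine harm_nat h (ext_inj1 (v' := v) hc hv)
    [(0, 1), (1, 2), (2, 3), (3, 4), (4, 5), (5, 6), (7, 3)] ?_
    (fun a => [1, 2, 3, 4, 3, 2, 1, 2].getD a 0) (by omega) (by decide) (by decide)
  simp only [List.forall_mem_cons]
  exact ⟨hc.adj 0 (by omega), hc.adj 1 (by omega), hc.adj 2 (by omega), hc.adj 3 (by omega),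
    hc.adj 4 (by omega), hc.adj 5 (by omega), e, by simp⟩

theorem no_E8 (hc : Chain M 8 c) (hv : ∀ a < 8, v ≠ c a) : ¬ 3 ≤ M v (c 2) := fun e => by
  refine harm_nat h (ext_inj1 (v' := v) hc hv)
    [(0, 1), (1, 2), (2, 3), (3, 4), (4, 5), (5, 6), (6, 7), (8, 2)] ?_
    (fun a => [2, 4, 6, 5, 4, 3, 2, 1, 3].getD a 0) (by omega) (by decide) (by decide)
  simp only [List.forall_mem_cons]
  exact ⟨hc.adj 0 (by omega), hc.adj 1 (by omega), hc.adj 2 (by omega), hc.adj 3 (by omega),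
    hc.adj 4 (by omega), hc.adj 5 (by omega), hc.adj 6 (by omega), e, by simp⟩

theorem no_F (hc : Chain M 5 c) : ¬ 4 ≤ M (c 2) (c 3) := fun e => by
  let x : ℕ → ℝ := fun n => if n < 3 then n + 1 else if n = 3 then 2 * √2 else √2
  have hx : ∀ n, 0 ≤ x n := fun n => by
    simp only [x]
    split_ifs <;> positivity
  have := s2
  refine harm h hc.inj hx (by omega) (by simp [x]) fun n hn => ?_
  interval_cases n
  · exact ok1 hx (b := 1) (by omega) (up hc (by omega)) (by simp only [x]; norm_num)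
  · exact ok2 hx (b := 0) (b' := 2) (by omega) (dn h hc (by omega)) (up hc (by omega))
      (by simp only [x]; norm_num)
  · exact ok2 hx (b := 1) (b' := 3) (by omega) (dn h hc (by omega)) (cw4 e)
      (by simp only [x]; norm_num; linarith)
  · exact ok2 hx (b := 2) (b' := 4) (by omega) (cw4 (h.symm _ _ ▸ e)) (up hc (by omega))
      (by simp only [x]; norm_num; linarith)
  · exact ok1 hx (b := 3) (by omega) (dn h hc (by omega)) (by simp only [x]; norm_num)

end CoxM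

end Cfsg.Lib.BLD
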