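import Cfsg.Agent.BLD.Cox2a

/-!
# The shape of a connected positive definite Coxeter diagram
-/

set_option autoImplicit false
set_option linter.unusedSectionVars false

namespace Cfsg.Lib.BLD

namespace Cox2b

variable {I : Type*} {M : I → I → ℕ} {k : ℕ} {c : ℕ → I} {v v' : I} {p a : ℕ}

theorem sub (hc : Chain M k c) (s l : ℕ) (h : s + l ≤ k) : Chain M l fun a => c (s + a) :=
  ⟨fun a b ha hb e => by have := hc.inj _ _ (by omega) (by omega) e; omega,
    fun a ha => hc.adj (s + a) (by omega)⟩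

theorem rev (h : CoxM M) (hc : Chain M k c) (s l : ℕ) (h1 : s < k) (h2 : l ≤ s + 1) :
    Chain M l fun a => c (s - a) :=
  ⟨fun a b ha hb e => by have := hc.inj _ _ (by omega) (by omega) e; omega, fun a ha => by
    have := hc.adj (s - (a + 1)) (by omega)
    rwa [h.symm, show s - (a + 1) + 1 = s - a by omega] at this⟩

/-- Prepend a node. -/
def cons (v : I) (c : ℕ → I) : ℕ → I
  | 0 => v
  | a + 1 => c a

theorem cons_eq_1' : type_of% @cons.eq_1 := @cons.eq_1
theorem cons_eq_2' : type_of% @cons.eq_2 := @cons.eq_2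
theorem cons_eq_def' : type_of% @cons.eq_def := @cons.eq_def

theorem chain_cons (hc : Chain M k c) (hv : ∀ a < k, v ≠ c a) (h : 3 ≤ M v (c 0)) :
    Chain M (k + 1) (cons v c) := by
  refine ⟨fun a b ha hb e => ?_, fun a ha => ?_⟩
  · rcases a with _ | a <;> rcases b with _ | b
    · rfl
    · exact absurd e (hv b (by omega))
    · exact absurd e.symm (hv a (by omega))
    · rw [hc.inj a b (by omega) (by omega) e]
  · rcases a with _ | a
    · exact h
    · exact hc.adj a (by omega)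

theorem ne_cons (hv : ∀ a < k, v' ≠ c a) (h : v' ≠ v) : ∀ a < k + 1, v' ≠ cons v c a
  | 0, _ => h
  | a + 1, ha => hv a (by omega)

theorem inner (h : CoxM M) (hc : Chain M k c) (hm : ∀ l d, Chain M l d → l ≤ k)
    (hv : ∀ a < k, v ≠ c a) (hp : p < k) (h1 : 3 ≤ M v (c p)) : 1 ≤ p ∧ p + 1 < k := by
  refine ⟨Nat.pos_of_ne_zero fun e => ?_, lt_of_le_of_ne hp fun e => ?_⟩
  · exact absurd (hm _ _ (chain_cons hc hv (e ▸ h1))) (by omega)
  · exact absurd (hm _ _ (chain_cons (rev h hc p k hp e.ge) (fun a _ => hv _ (by omega)) h1))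
      (by omega)

theorem uniq (h : CoxM M) (hc : Chain M k c) (hv : ∀ a < k, v ≠ c a) (hp : p < a) (ha : a < k)
    (h1 : 3 ≤ M v (c p)) : ¬ 3 ≤ M v (c a) := fun h2 => by
  refine h.no_cyc (chain_cons (sub hc p (a - p + 1) (by omega)) (fun b _ => hv _ (by omega)) h1)
    (by omega) ?_
  change 3 ≤ M (c (p + (a - p))) v
  rwa [h.symm, show p + (a - p) = a by omega]

theorem noD (h : CoxM M) (hc : Chain M k c) (hv : ∀ a < k, v ≠ c a) (hv' : ∀ a < k, v' ≠ c a)
    (hvv : v ≠ v') (hp : 1 ≤ p) (hpa : p ≤ a) (ha : a + 1 < k) (h1 : 3 ≤ M v (c p)) :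
    ¬ 3 ≤ M v' (c a) := by
  have := h.no_D (sub hc (p - 1) (a - p + 3) (by omega)) (by omega) (fun b _ => hv _ (by omega))
    (fun b _ => hv' _ (by omega)) hvv (by rwa [show p - 1 + 1 = p by omega])
  rwa [show p - 1 + (a - p + 3 - 2) = a by omega] at this

theorem edge (h : CoxM M) (hc : Chain M k c) (hv : ∀ a < k, v ≠ c a) (hp : 1 ≤ p)
    (hp' : p + 1 < k) (h1 : 3 ≤ M v (c p)) (ha : a + 1 < k) : ¬ 4 ≤ M (c a) (c (a + 1)) := by
  rcases le_or_gt p a with e | e
  · have := h.no_B (sub hc (p - 1) (a - p + 3) (by omega)) (by omega)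
      (fun b _ => hv _ (by omega)) (by rwa [show p - 1 + 1 = p by omega])
    rwa [show p - 1 + (a - p + 3 - 2) = a by omega,
      show p - 1 + (a - p + 3 - 1) = a + 1 by omega] at this
  · have := h.no_B (rev h hc (p + 1) (p - a + 2) hp' (by omega)) (by omega)
      (fun b _ => hv _ (by omega)) h1
    rwa [show p + 1 - (p - a + 2 - 2) = a + 1 by omega,
      show p + 1 - (p - a + 2 - 1) = a by omega, h.symm] at this

theorem foot (h : CoxM M) (hc : Chain M k c) (hv : ∀ a < k, v ≠ c a) (hp : 1 ≤ p)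
    (hp' : p + 1 < k) : ¬ 4 ≤ M v (c p) := fun h1 => by
  have d := chain_cons (rev h hc p 2 (by omega) (by omega)) (fun b _ => hv _ (by omega))
    (le_trans (by omega) h1)
  refine h.no_B (v := c (p + 1)) (rev h d 2 3 (by omega) (by omega)) le_rfl (fun b _ => ?_)
    (h.symm _ _ ▸ hc.adj p hp') (h.symm _ _ ▸ h1)
  exact ne_cons (k := 2) (fun b _ e => by have := hc.inj _ _ hp' (by omega) e; omega)
    (hv _ hp').symm _ (by omega)

theorem eq_two (h : CoxM M) {i j : I} (hij : i ≠ j) (h1 : ¬ 3 ≤ M i j) : M i j = 2 := by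
  have := h.mem i j hij
  omega

end Cox2b

namespace CoxM

open Cox2b

variable {I : Type*} {M : I → I → ℕ} (h : CoxM M) {k : ℕ} {c : ℕ → I} {v v' : I}
include h

theorem shape [Finite I] (h3 : 3 ≤ Nat.card I)
    (conn : ∀ J : Set I, J.Nonempty → Jᶜ.Nonempty → ∃ i ∈ J, ∃ j ∉ J, 3 ≤ M i j) :
    ∃ k c, 3 ≤ k ∧ Chain M k c ∧ (∀ a b, a + 1 < b → b < k → M (c a) (c b) = 2) ∧
      (∀ i j, M i j ≤ 4) ∧ ((∀ v, ∃ a < k, v = c a) ∨
        ∃ v p, (∀ a < k, v ≠ c a) ∧ (∀ x, x = v ∨ ∃ a < k, x = c a) ∧ 1 ≤ p ∧ p + 1 < k ∧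
          M v (c p) = 3 ∧ (∀ a < k, a ≠ p → M v (c a) = 2) ∧
          ∀ a, a + 1 < k → M (c a) (c (a + 1)) = 3) := by
  obtain ⟨x⟩ : Nonempty I := (Nat.card_pos_iff.1 (by omega)).1
  have b : BddAbove {l | ∃ c, Chain M l c} := ⟨Nat.card I, fun l ⟨c, hc⟩ => by
    simpa using Nat.card_le_card_of_injective (fun i : Fin l => c i)
      fun i j e => Fin.ext (hc.inj _ _ i.2 j.2 e)⟩
  have o : Chain M 1 fun _ => x := ⟨fun _ _ _ _ _ => by omega, fun _ _ => by omega⟩
  obtain ⟨c, hc⟩ := Nat.sSup_mem (s := {l | ∃ c, Chain M l c}) ⟨1, _, o⟩ b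
  have hm : ∀ l d, Chain M l d → l ≤ sSup {l | ∃ c, Chain M l c} := fun l d hd =>
    le_csSup b ⟨d, hd⟩
  generalize sSup {l | ∃ c, Chain M l c} = k at hc hm
  have k1 := hm _ _ o
  have le4 : ∀ i j, M i j ≤ 4 := fun i j => by
    by_contra hn
    have ij : i ≠ j := fun e => by rw [e, h.diag] at hn; omega
    have h6 : 6 ≤ M i j := by have := h.mem i j ij; omega
    obtain ⟨u, hu, a, ha, e⟩ := conn {i, j} ⟨i, .inl rfl⟩ (Set.nonempty_compl.2 fun e => by
      have := Set.ncard_insert_le i {j}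
      rw [e, Set.ncard_univ, Set.ncard_singleton] at this
      omega)
    rcases hu with rfl | rfl
    · exact h.no_G (fun d => ha (.inr d)) (h.symm _ _ ▸ e) h6
    · exact h.no_G (fun d => ha (.inl d)) (h.symm _ _ ▸ e) (h.symm _ _ ▸ h6)
  have ch : ∀ a b, a + 1 < b → b < k → M (c a) (c b) = 2 := fun a b h1 h2 => by
    refine eq_two h (fun e => by have := hc.inj _ _ (by omega) h2 e; omega) ?_
    have := h.no_cyc (sub hc a (b - a + 1) (by omega)) (by omega)
    rwa [show a + (b - a + 1 - 1) = b by omega, h.symm] at this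
  by_cases ha : ∀ v, ∃ a < k, v = c a
  · refine ⟨k, c, h3.trans ?_, hc, ch, le4, .inl ha⟩
    simpa using Nat.card_le_card_of_surjective (fun i : Fin k => c i) fun v => by
      obtain ⟨a, h1, h2⟩ := ha v
      exact ⟨⟨a, h1⟩, h2.symm⟩
  obtain ⟨_, ⟨p, p0, rfl⟩, v, hv, e⟩ := conn {v | ∃ a < k, v = c a} ⟨_, 0, k1, rfl⟩
    (not_forall.1 ha)
  have hv : ∀ a < k, v ≠ c a := fun a h1 h2 => hv ⟨a, h1, h2⟩
  rw [h.symm] at e
  obtain ⟨p1, p2⟩ := inner h hc hm hv p0 e
  refine ⟨k, c, by omega, hc, ch, le4, .inr ⟨v, p, hv, ?_, p1, p2, ?_, fun a a1 a2 => ?_,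
    fun a a1 => ?_⟩⟩
  · by_contra hn
    obtain ⟨u, hu, w, hw, e'⟩ := conn {x | x = v ∨ ∃ a < k, x = c a} ⟨v, .inl rfl⟩
      (not_forall.1 hn)
    have w1 : w ≠ v := fun d => hw (.inl d)
    have w2 : ∀ a < k, w ≠ c a := fun a h1 h2 => hw (.inr ⟨a, h1, h2⟩)
    rw [h.symm] at e'
    rcases hu with rfl | ⟨a, a0, rfl⟩
    · have b1 := hm _ _ (chain_cons (chain_cons (sub hc p (k - p) (by omega))
        (fun b _ => hv _ (by omega)) e) (ne_cons (fun b _ => w2 _ (by omega)) w1) e')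
      have b2 := hm _ _ (chain_cons (chain_cons (rev h hc p (p + 1) p0 le_rfl)
        (fun b _ => hv _ (by omega)) e) (ne_cons (fun b _ => w2 _ (by omega)) w1) e')
      exact h.no_E6 (sub hc (p - 2) 5 (by omega)) (fun b _ => hv _ (by omega))
        (fun b _ => w2 _ (by omega)) (by rwa [show p - 2 + 2 = p by omega]) e'
    · obtain ⟨a1, a2⟩ := inner h hc hm w2 a0 e'
      rcases le_total p a with d | d
      · exact noD h hc hv w2 w1.symm p1 d a2 e e'
      · exact noD h hc w2 hv w1 a1 d p2 e' e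
  · have := foot h hc hv p1 p2
    omega
  · refine eq_two h (hv a a1) fun d => ?_
    rcases lt_or_gt_of_ne a2 with f | f
    · exact uniq h hc hv f p0 d e
    · exact uniq h hc hv f a1 e d
  · have := edge h hc hv p1 p2 e a1
    have := hc.adj a a1
    omega

end CoxM

end Cfsg.Lib.BLD
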