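import Cfsg.Agent.BLD.Cox2a

/-!
# The patterns `A`, `B`, `D`, `E`, `F`
-/

set_option autoImplicit false
set_option linter.unusedSectionVars false

namespace Cfsg.Lib.BLD

namespace Cox2c

variable {I : Type*} {M : I → I → ℕ} {k n : ℕ} {c d : ℕ → I} {v : I} {p a : ℕ} {m : ℕ → ℕ → ℕ}

theorem sub (hc : Chain M k c) (s l : ℕ) (h : s + l ≤ k) : Chain M l fun a => c (s + a) :=
  ⟨fun a b ha hb e => by have := hc.inj _ _ (by omega) (by omega) e; omega,
    fun a ha => hc.adj (s + a) (by omega)⟩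

theorem rev (h : CoxM M) (hc : Chain M k c) (s l : ℕ) (h1 : s < k) (h2 : l ≤ s + 1) :
    Chain M l fun a => c (s - a) :=
  ⟨fun a b ha hb e => by have := hc.inj _ _ (by omega) (by omega) e; omega, fun a ha => by
    have := hc.adj (s - (a + 1)) (by omega)
    rwa [h.symm, show s - (a + 1) + 1 = s - a by omega] at this⟩

theorem hasPat (h : CoxM M) (inj : ∀ a b, a < n → b < n → d a = d b → a = b)
    (surj : ∀ x, ∃ a < n, x = d a) (diag : ∀ a, m a a = 1) (sym : ∀ a b, m a b = m b a)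
    (hm : ∀ a b, a < b → b < n → M (d a) (d b) = m a b) : HasPat M n m := by
  refine ⟨Equiv.ofBijective (fun i => d i) ⟨fun i j e => Fin.ext (inj _ _ i.2 j.2 e), fun x => ?_⟩,
    fun i j => ?_⟩
  · obtain ⟨a, h1, h2⟩ := surj x
    exact ⟨⟨a, h1⟩, h2.symm⟩
  · change M (d i) (d j) = _
    rcases lt_trichotomy (i : ℕ) j with e | e | e
    · exact hm _ _ e j.2
    · rw [e, h.diag, diag]
    · rw [h.symm, sym, hm _ _ e i.2]

/-- A chordless chain. -/
structure Ch (M : I → I → ℕ) (k : ℕ) (c : ℕ → I) : Prop where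
  hc : Chain M k c
  h1 : ∀ a b, a + 1 < b → b < k → M (c a) (c b) = 2

theorem Ch.rev (h : CoxM M) (H : Ch M k c) (hk : 0 < k) : Ch M k fun a => c (k - 1 - a) :=
  ⟨Cox2c.rev h H.hc (k - 1) k (by omega) (by omega), fun a b h1 h2 => by
    rw [h.symm]; exact H.h1 _ _ (by omega) (by omega)⟩

theorem surj_rev (h3 : ∃ a < k, v = c a) : ∃ a < k, v = c (k - 1 - a) := by
  obtain ⟨a, h1, h2⟩ := h3
  exact ⟨k - 1 - a, by omega, by rw [h2]; congr 1; omega⟩

theorem Ch.hasPat (h : CoxM M) (H : Ch M k c) (h3 : ∀ v, ∃ a < k, v = c a) (diag : ∀ a, m a a = 1)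
    (sym : ∀ a b, m a b = m b a) (e : ∀ a, a + 1 < k → M (c a) (c (a + 1)) = m a (a + 1))
    (ne : ∀ a b, a + 1 < b → m a b = 2) : HasPat M k m :=
  Cox2c.hasPat h H.hc.inj h3 diag sym fun a b h1 h2 => by
    rcases (Nat.succ_le_of_lt h1).eq_or_lt with rfl | f
    · exact e a h2
    · rw [H.h1 a b f h2, ne a b f]

theorem Ch.patB (h : CoxM M) (H : Ch M k c) (hk : 3 ≤ k) (h3 : ∀ v, ∃ a < k, v = c a)
    (e : ∀ a, a + 1 < k → M (c a) (c (a + 1)) = if a + 2 = k then 4 else 3) : Pat M :=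
  .inr (.inl ⟨k, hk, H.hasPat h h3 (by simp [mB]) (by grind [mB])
    (fun a ha => by rw [e a ha]; grind [mB]) (by grind [mB])⟩)

/-- A chain with one further node. -/
structure Fk (M : I → I → ℕ) (k : ℕ) (c : ℕ → I) (v : I) (p : ℕ) : Prop where
  ch : Ch M k c
  hv : ∀ a < k, v ≠ c a
  h3 : ∀ x, x = v ∨ ∃ a < k, x = c a
  hp : 1 ≤ p
  hp' : p + 1 < k
  h4 : M v (c p) = 3
  h5 : ∀ a < k, a ≠ p → M v (c a) = 2
  h6 : ∀ a, a + 1 < k → M (c a) (c (a + 1)) = 3

theorem Fk.rev (h : CoxM M) (H : Fk M k c v p) :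
    Fk M k (fun a => c (k - 1 - a)) v (k - 1 - p) := by
  have := H.hp
  have := H.hp'
  refine ⟨H.ch.rev h (by omega), fun a _ => H.hv _ (by omega),
    fun x => (H.h3 x).imp_right surj_rev, by omega, by omega, ?_,
    fun a _ _ => H.h5 _ (by omega) (by omega), fun a ha => ?_⟩
  · rw [show k - 1 - (k - 1 - p) = p by omega, H.h4]
  · have := H.h6 (k - 1 - (a + 1)) (by omega)
    rwa [h.symm, show k - 1 - (a + 1) + 1 = k - 1 - a by omega] at this

theorem Fk.val (H : Fk M k c v p) {a b : ℕ} (h1 : a < b) (h2 : b < k) :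
    M (c a) (c b) = if a + 1 = b then 3 else 2 := by
  split_ifs with e
  · subst e; exact H.h6 a h2
  · exact H.ch.h1 a b (by omega) h2

theorem Fk.val' (H : Fk M k c v p) (h2 : a < k) : M v (c a) = if a = p then 3 else 2 := by
  split_ifs with e
  · rw [e, H.h4]
  · exact H.h5 a h2 e

theorem Fk.patD (h : CoxM M) (H : Fk M k c v p) (e : p + 2 = k) : Pat M := by
  have := H.hp
  refine .inr (.inr (.inl ⟨k + 1, by omega, hasPat (d := fun a => if a < k then c a else v) h
    (fun a b ha hb f => ?_) (fun x => ?_) (by simp [mD]) (by grind [mD]) fun a b h1 h2 => ?_⟩))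
  · split_ifs at f with f1 f2 f2
    · exact H.ch.hc.inj a b f1 f2 f
    · exact absurd f.symm (H.hv a f1)
    · exact absurd f (H.hv b f2)
    · omega
  · rcases H.h3 x with rfl | ⟨a, a1, rfl⟩
    · exact ⟨k, by omega, by simp⟩
    · exact ⟨a, by omega, by simp [a1]⟩
  · rw [if_pos (by omega : a < k)]
    split_ifs with f
    · rw [H.val h1 f]; grind [mD]
    · rw [h.symm, H.val' (by omega)]; grind [mD]

theorem Fk.patE (h : CoxM M) (H : Fk M k c v 2) (hk : 5 ≤ k) : Pat M := by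
  have k7 : k < 8 := lt_of_not_ge fun e =>
    h.no_E8 (sub H.ch.hc 0 8 (by omega)) (fun a _ => H.hv _ (by omega)) H.h4.ge
  have : HasPat M (k + 1) mE := by
    refine hasPat (d := fun a => if a = 1 then v else c (a - 1)) h (fun a b ha hb f => ?_)
      (fun x => ?_) (by simp [mE]) (by grind [mE]) fun a b h1 h2 => ?_
    · split_ifs at f with f1 f2 f2
      · omega
      · exact absurd f (H.hv _ (by omega))
      · exact absurd f.symm (H.hv _ (by omega))
      · have := H.ch.hc.inj _ _ (by omega) (by omega) f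
        omega
    · rcases H.h3 x with rfl | ⟨_ | a, a1, rfl⟩
      · exact ⟨1, by omega, by simp⟩
      · exact ⟨0, by omega, by simp⟩
      · exact ⟨a + 2, by omega, by simp⟩
    · split_ifs with f1 f2 f2
      · omega
      · rw [H.val' (by omega)]; grind [mE]
      · rw [h.symm, H.val' (by omega)]; grind [mE]
      · rw [H.val (by omega) (by omega)]; grind [mE]
  obtain rfl | rfl | rfl : k = 5 ∨ k = 6 ∨ k = 7 := by omega
  · exact .inr (.inr (.inr (.inl this)))
  · exact .inr (.inr (.inr (.inr (.inl this))))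
  · exact .inr (.inr (.inr (.inr (.inr (.inl this)))))

end Cox2c

namespace CoxM

open Cox2c

variable {I : Type*} {M : I → I → ℕ} (h : CoxM M) {k : ℕ} {c : ℕ → I} {v v' : I}
include h

theorem pat_chain (hc : Chain M k c) (hk : 3 ≤ k) (h1 : ∀ a b, a + 1 < b → b < k → M (c a) (c b) = 2)
    (h2 : ∀ i j, M i j ≤ 4) (h3 : ∀ v, ∃ a < k, v = c a) : Pat M := by
  have H : Ch M k c := ⟨hc, h1⟩
  have e3 : ∀ a, a + 1 < k → ¬ 4 ≤ M (c a) (c (a + 1)) → M (c a) (c (a + 1)) = 3 :=
    fun a ha e => by have := hc.adj a ha; omega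
  by_cases h4 : ∀ a, a + 1 < k → ¬ 4 ≤ M (c a) (c (a + 1))
  · exact .inl ⟨k, hk, H.hasPat h h3 (by simp [mA]) (by grind [mA])
      (fun a ha => by rw [e3 a ha (h4 a ha)]; simp [mA]) (by grind [mA])⟩
  push Not at h4
  obtain ⟨p, p1, p2⟩ := h4
  have two : ∀ a b, a < b → b + 1 < k → 4 ≤ M (c a) (c (a + 1)) → ¬ 4 ≤ M (c b) (c (b + 1)) :=
    fun a b ab hb e => by
      have := h.no_C (sub hc a (b - a + 2) (by omega)) (by omega) e
      rwa [show a + (b - a + 2 - 2) = b by omega, show a + (b - a + 2 - 1) = b + 1 by omega] at this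
  have val : ∀ a, a + 1 < k → M (c a) (c (a + 1)) = if a = p then 4 else 3 := fun a ha => by
    split_ifs with e
    · exact le_antisymm (h2 _ _) (e ▸ p2)
    · refine e3 a ha fun f => ?_
      rcases lt_or_gt_of_ne e with g | g
      · exact two a p g p1 f p2
      · exact two p a g ha p2 f
  by_cases q1 : p + 2 = k
  · exact H.patB h hk h3 fun a ha => by rw [val a ha]; grind
  by_cases q2 : p = 0
  · refine (H.rev h (by omega)).patB h hk (fun v => surj_rev (h3 v)) fun a ha => ?_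
    have := val (k - 1 - (a + 1)) (by omega)
    rw [h.symm, show k - 1 - (a + 1) + 1 = k - 1 - a by omega] at this
    rw [this]; grind
  by_cases q3 : 2 ≤ p
  · have := h.no_F (sub hc (p - 2) 5 (by omega))
    rw [show p - 2 + 2 = p by omega, show p - 2 + 3 = p + 1 by omega] at this
    exact absurd p2 this
  obtain rfl : p = 1 := by omega
  by_cases q4 : k = 4
  · subst q4
    exact .inr (.inr (.inr (.inr (.inr (.inr (H.hasPat h h3 (by simp [mF]) (by grind [mF])
      (fun a ha => by rw [val a ha]; grind [mF]) (by grind [mF])))))))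
  · exact absurd (h.symm _ _ ▸ p2) (h.no_F (rev h hc 4 5 (by omega) le_rfl))

theorem pat_fork (hc : Chain M k c) (h1 : ∀ a b, a + 1 < b → b < k → M (c a) (c b) = 2) {p : ℕ}
    (hv : ∀ a < k, v ≠ c a) (h3 : ∀ x, x = v ∨ ∃ a < k, x = c a) (hp : 1 ≤ p) (hp' : p + 1 < k)
    (h4 : M v (c p) = 3) (h5 : ∀ a < k, a ≠ p → M v (c a) = 2)
    (h6 : ∀ a, a + 1 < k → M (c a) (c (a + 1)) = 3) : Pat M := by
  have H : Fk M k c v p := ⟨⟨hc, h1⟩, hv, h3, hp, hp', h4, h5, h6⟩
  by_cases q1 : p + 2 = k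
  · exact H.patD h q1
  by_cases q2 : p = 1
  · exact (H.rev h).patD h (by omega)
  by_cases q3 : p = 2
  · exact (q3 ▸ H).patE h (by omega)
  by_cases q4 : k - 1 - p = 2
  · exact (q4 ▸ H.rev h).patE h (by omega)
  · exact absurd (by rw [show p - 3 + 3 = p by omega, h4])
      (h.no_E7 (sub hc (p - 3) 7 (by omega)) fun a _ => hv _ (by omega))

end CoxM

end Cfsg.Lib.BLD
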