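import Cfsg.Agent.BLD.Rt1
import Cfsg.Agent.Chev.CurtisTits

/-! # The Curtis–Tits theorem for local generalised root data -/

set_option autoImplicit false
set_option linter.unusedSectionVars false

namespace Cfsg.Lib.BLD

open Cfsg.Lib.Chev

variable {ι A : Type} [Fintype ι] [DecidableEq ι] [DecidableEq A] {R : WeylData ι A}

namespace LocG

variable {G : Type*} [Group G] (L : LocG R G)

/-- `g` represents `w`. -/
def Lifts (g : G) (w : R.W) : Prop := ∃ ω : List ι, wprod R.s ω = w ∧ g * (wprod L.n ω)⁻¹ ∈ L.H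

theorem Lifts_eq_1' : type_of% @Lifts.eq_1 := @Lifts.eq_1

theorem n_mem_normalizer_H (i : ι) : L.n i ∈ Subgroup.normalizer (L.H : Set G) := by
  rw [Subgroup.mem_normalizer_iff]
  refine fun h => ⟨L.n_H i h, fun hh => ?_⟩
  have h1 := L.n_H i _ hh
  have h2 := mul_mem (mul_mem (inv_mem (L.n_sq i)) h1) (L.n_sq i)
  convert h2 using 1
  group

theorem wprod_mem_normalizer_H (ω : List ι) :
    wprod L.n ω ∈ Subgroup.normalizer (L.H : Set G) := by
  induction ω with
  | nil => exact one_mem _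
  | cons i ω ih => rw [wprod_cons]; exact mul_mem (L.n_mem_normalizer_H i) ih

theorem wprod_mem_H (ω : List ι) (h : wprod R.s ω = 1) : wprod L.n ω ∈ L.H := by
  let K := Subgroup.normalizer (L.H : Set G)
  have : (L.H.subgroupOf K).Normal := Subgroup.normal_in_normalizer
  let n' : ι → K := fun i => ⟨L.n i, L.n_mem_normalizer_H i⟩
  let π : K →* K ⧸ L.H.subgroupOf K := QuotientGroup.mk' _
  have hπ : ∀ g : K, π g = 1 ↔ (g : G) ∈ L.H := fun g => by
    simp [π, QuotientGroup.eq_one_iff, Subgroup.mem_subgroupOf]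
  obtain ⟨φ, hφ⟩ := R.descent.exists_hom (fun i => π (n' i))
    (fun i => by rw [← map_mul, hπ]; exact L.n_sq i)
    (fun i j => by rw [← map_mul, ← map_pow, hπ]; exact L.braid i j)
  have h1 := map_wprod φ R.s ω
  rw [h, map_one] at h1
  simp only [hφ] at h1
  rw [← map_wprod π n' ω, eq_comm, hπ] at h1
  have h2 := map_wprod K.subtype n' ω
  exact (show wprod L.n ω = _ from h2.symm) ▸ h1

variable {L}

theorem Lifts.mem_normalizer_H {g : G} {w : R.W} (h : L.Lifts g w) :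
    g ∈ Subgroup.normalizer (L.H : Set G) := by
  obtain ⟨ω, -, h2⟩ := h
  simpa using mul_mem (Subgroup.le_normalizer h2) (L.wprod_mem_normalizer_H ω)

theorem Lifts.mul {g g' : G} {w w' : R.W} (h : L.Lifts g w) (h' : L.Lifts g' w') :
    L.Lifts (g * g') (w * w') := by
  obtain ⟨ω, rfl, h2⟩ := h
  obtain ⟨ω', rfl, h2'⟩ := h'
  refine ⟨ω ++ ω', by simp, ?_⟩
  have := mul_mem h2 (conj_mem_of_mem_normalizer (L.wprod_mem_normalizer_H ω) h2')
  rw [wprod_append]
  convert this using 1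
  group

theorem lifts_one_iff {g : G} : L.Lifts g 1 ↔ g ∈ L.H := by
  constructor
  · rintro ⟨ω, h1, h2⟩
    simpa using mul_mem h2 (L.wprod_mem_H ω h1)
  · intro h
    exact ⟨[], rfl, by simpa using h⟩

variable (L) in
theorem lifts_wprod (ω : List ι) : L.Lifts (wprod L.n ω) (wprod R.s ω) := ⟨ω, rfl, by simp⟩

variable (L) in
theorem lifts_n (i : ι) : L.Lifts (L.n i) (R.s i) := by simpa using L.lifts_wprod [i]

variable (L) in
theorem exists_lifts (w : R.W) : ∃ g, L.Lifts g w := by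
  obtain ⟨ω, rfl⟩ := R.exists_word w
  exact ⟨_, L.lifts_wprod ω⟩

theorem Lifts.H_mul {g h : G} {w : R.W} (hg : L.Lifts g w) (hh : h ∈ L.H) :
    L.Lifts (h * g) w := by
  simpa using (lifts_one_iff.2 hh).mul hg

theorem Lifts.inv {g : G} {w : R.W} (h : L.Lifts g w) : L.Lifts g⁻¹ w⁻¹ := by
  obtain ⟨g', hg'⟩ := L.exists_lifts w⁻¹
  have h1 := hg'.mul h
  rw [inv_mul_cancel, lifts_one_iff] at h1
  simpa using hg'.H_mul (inv_mem h1)

theorem Lifts.mul_inv_mem_H {g g' : G} {w : R.W} (h : L.Lifts g w) (h' : L.Lifts g' w) :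
    g * g'⁻¹ ∈ L.H := by
  have := h.mul h'.inv
  rwa [mul_inv_cancel, lifts_one_iff] at this

theorem Lifts.inv_mul_mem_H {g g' : G} {w : R.W} (h : L.Lifts g w) (h' : L.Lifts g' w) :
    g⁻¹ * g' ∈ L.H := by
  have := h.inv.mul h'
  rwa [inv_mul_cancel, lifts_one_iff] at this

variable (L) in
theorem wprod_conj_X {i j : ι} (ω : List ι) (hω : ∀ k ∈ ω, k ∈ ({i, j} : Set ι)) {r : A}
    (hr : R.InJ {i, j} r) (a : G) :
    a ∈ L.X r ↔ wprod L.n ω * a * (wprod L.n ω)⁻¹ ∈ L.X (wprod R.s ω • r) := by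
  induction ω with
  | nil => simp
  | cons k ω ih =>
    have hω' : ∀ k ∈ ω, k ∈ ({i, j} : Set ι) := fun k hk => hω k (List.mem_cons_of_mem _ hk)
    have h1 := R.inJ_smul (R.wprod_mem_WJ hω') hr
    have h2 : ∃ l, R.InJ {k, l} (wprod R.s ω • r) := by
      rcases hω k (by simp) with rfl | rfl
      · exact ⟨_, h1⟩
      · exact ⟨i, by rwa [Set.pair_comm]⟩
    obtain ⟨l, h2⟩ := h2
    rw [ih hω', L.n_conj k l _ h2, wprod_cons, wprod_cons, mul_smul]
    simp [mul_assoc]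

variable (L) in
theorem H_conj_iff (i : ι) {h : G} (hh : h ∈ L.H) (a : G) :
    a ∈ L.X (R.simple i) ↔ h * a * h⁻¹ ∈ L.X (R.simple i) :=
  ⟨L.H_conj i h hh a, fun ha => by simpa [mul_assoc] using L.H_conj i h⁻¹ (inv_mem hh) _ ha⟩

theorem Lifts.conj_simple_inJ {i j k : ι} {g : G} {w : R.W} (h : L.Lifts g w)
    (hw : w ∈ R.WJ {i, j}) (hk : k ∈ ({i, j} : Set ι)) (a : G) :
    a ∈ L.X (R.simple k) ↔ g * a * g⁻¹ ∈ L.X (w • R.simple k) := by
  obtain ⟨ω, hω, rfl⟩ := R.exists_word_of_mem_WJ hw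
  have h1 := (L.lifts_wprod ω).inv_mul_mem_H h
  rw [L.H_conj_iff k h1, L.wprod_conj_X ω hω (R.inJ_simple_iff.2 hk)]
  simp [mul_assoc]

theorem Lifts.conj_simple {a b : ι} {g : G} {w : R.W} (h : L.Lifts g w)
    (hw : w • R.simple a = R.simple b) (x : G) :
    x ∈ L.X (R.simple a) ↔ g * x * g⁻¹ ∈ L.X (R.simple b) := by
  refine R.simple_induction (p := fun w a b => ∀ g x, L.Lifts g w →
    (x ∈ L.X (R.simple a) ↔ g * x * g⁻¹ ∈ L.X (R.simple b))) ?_ ?_ w hw g x h
  · intro i g x hg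
    exact L.H_conj_iff i (lifts_one_iff.1 hg) x
  · intro u v a k b c hv _ e _ ih g x hg
    obtain ⟨m, hm⟩ := L.exists_lifts v
    have h1 : L.Lifts (g * m⁻¹) u := by simpa using hg.mul hm.inv
    rw [hm.conj_simple_inJ hv (by simp) x, e, ih _ _ h1]
    simp [mul_assoc]

variable (L)

/-- The root subgroups of the extended datum. -/
def XX (r : A) : Subgroup G where
  carrier := {x | ∀ g w i, L.Lifts g w → w • R.simple i = r → g⁻¹ * x * g ∈ L.X (R.simple i)}
  one_mem' := fun g w i _ _ => by simp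
  mul_mem' := fun {x y} hx hy g w i h e => by
    have := mul_mem (hx g w i h e) (hy g w i h e)
    convert this using 1
    group
  inv_mem' := fun {x} hx g w i h e => by
    have := inv_mem (hx g w i h e)
    convert this using 1
    group

theorem XX_eq_1' : type_of% @XX.eq_1 := @XX.eq_1

variable {L}

theorem Lifts.mem_XX_iff {g : G} {w : R.W} (h : L.Lifts g w) (i : ι) {x : G} :
    x ∈ L.XX (w • R.simple i) ↔ g⁻¹ * x * g ∈ L.X (R.simple i) := by
  refine ⟨fun hx => hx g w i h rfl, fun hx g' w' i' h' e => ?_⟩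
  have := ((h'.inv.mul h).conj_simple (a := i) (b := i')
    (by rw [mul_smul, ← e, inv_smul_smul]) _).1 hx
  convert this using 1
  group

theorem Lifts.conj_XX {g : G} {w : R.W} (h : L.Lifts g w) {r : A} (hr : r ∈ R.Φ) (x : G) :
    x ∈ L.XX r ↔ g * x * g⁻¹ ∈ L.XX (w • r) := by
  obtain ⟨v, i, rfl⟩ := RGD.exists_smul_simple R hr
  obtain ⟨m, hm⟩ := L.exists_lifts v
  rw [hm.mem_XX_iff, ← mul_smul, (h.mul hm).mem_XX_iff]
  simp [mul_assoc]

variable (L)

theorem XX_eq {i j : ι} {r : A} (hr : R.InJ {i, j} r) : L.XX r = L.X r := by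
  obtain ⟨w, hw, k, hk, rfl⟩ := R.exists_smul_simple_inJ hr
  obtain ⟨m, hm⟩ := L.exists_lifts w
  ext x
  rw [hm.mem_XX_iff, hm.conj_simple_inJ hw hk]
  simp [mul_assoc]

theorem XX_simple (i : ι) : L.XX (R.simple i) = L.X (R.simple i) :=
  L.XX_eq (i := i) (j := i) (R.inJ_simple_iff.2 (by simp))

theorem XX_neg_simple (i : ι) : L.XX (R.neg (R.simple i)) = L.X (R.neg (R.simple i)) :=
  L.XX_eq (i := i) (j := i) (R.inJ_neg (R.inJ_simple_iff.2 (by simp)))

end LocG

open LocG in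
theorem LocG.exists_grd {G : Type*} [Group G] (L : LocG R G) : ∃ Y : GRD (cox R) G,
    (∀ i j r, R.InJ {i, j} r → Y.X r = L.X r) ∧
    ∀ g w, Y.Lifts g w ↔ ∃ ω : List ι, wprod R.s ω = w ∧ g * (wprod L.n ω)⁻¹ ∈ L.H := by
  refine ⟨⟨L.XX, L.Lifts, fun r _ s e => (congrArg L.XX e).le, fun r hr s hs h1 h2 a ha b hb => ?_,
    lifts_one_iff.2 (one_mem _), Lifts.mul, Lifts.inv, fun h hr ha => (h.conj_XX hr _).1 ha,
    fun i => ?_, fun i a ha h1 => ?_⟩, fun _ _ _ => L.XX_eq, fun _ _ => Iff.rfl⟩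
  · obtain ⟨w, i, j, hr', hs'⟩ := R.exists_smul_inJ_pair hr hs
    obtain ⟨m, hm⟩ := L.exists_lifts w
    have ha' := (hm.conj_XX hr a).1 ha
    have hb' := (hm.conj_XX hs b).1 hb
    rw [L.XX_eq hr'] at ha'
    rw [L.XX_eq hs'] at hb'
    have h0 : w • s ≠ R.neg (w • r) := fun e =>
      h2 ((opp_iff hr hs).2 (MulAction.injective w (e.trans (R.smul_neg w hr).symm)))
    have h3 := L.comm i j _ _ hr' hs' (fun e => h1 (MulAction.injective w e)) h0 _ ha' _ hb'
    have h4 := conj_mem_of_spanX (g := m⁻¹) (K := spanX L.XX ((cox R).cone r s))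
      (fun k hk x hx => ?_) h3
    · convert h4 using 1
      group
    · have hk' := cone_inJ hr' hs' h0 hk
      rw [← L.XX_eq hk'] at hx
      exact mem_spanX L.XX (r := w⁻¹ • k) ((cone_smul w).1 (by rwa [smul_inv_smul]))
        ((hm.inv.conj_XX hk'.1 x).1 hx)
  · show ∃ a ∈ L.XX (R.s i • R.simple i), a ≠ 1
    rw [R.s_smul_simple, XX_neg_simple]
    exact L.nontriv i
  · replace ha : a ∈ L.XX (R.s i • R.simple i) := ha
    rw [R.s_smul_simple, XX_neg_simple] at ha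
    obtain ⟨u, hu, h, hh, u', hu', e⟩ := L.rank_one i a ha h1
    rw [← XX_simple] at hu hu'
    exact ⟨u, hu, _, (L.lifts_n i).H_mul hh, u', hu', by rw [e, mul_assoc u]⟩

end Cfsg.Lib.BLD
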