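import Cfsg.Agent.Chev.GRDLift
import Cfsg.Agent.Chev.LaceSt
import Cfsg.Agent.Chev.BNHecke
import Cfsg.Agent.Perm.PlaneCoord
import Cfsg.Agent.Perm.PlaneOW

/-!
# Finite spherical buildings of rank at least three: definitions

`Bld R Γ Ch`: a thick building with Weyl group `R.W`, a base apartment `a` and a Weyl-transitive
action of `Γ`.  Root groups `U r`, Levi subgroups `Lev J`, residues of the base chamber, and the data
used to identify the group.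
-/

set_option autoImplicit false
set_option linter.unusedSectionVars false

namespace Cfsg.Lib.BLD

open Cfsg.Lib.Chev

section Weyl

variable {ι A : Type} [Fintype ι] [DecidableEq ι] [DecidableEq A] (R : WeylData ι A)

/-- The chamber `w` of the Coxeter complex lies in the half-apartment of the root `r`. -/
def Hf (r : A) (w : R.W) : Prop := R.Pos (w⁻¹ • r)

/-- The type opposite to `J`. -/
def opp (J : Set ι) : Set ι := {i | R.w0 Set.univ * R.s i * (R.w0 Set.univ)⁻¹ ∈ R.WJ J}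

/-- The Weyl group acting on the roots. -/
def cox : CoxSys R.W A ι where
  t := R.s
  Φ := R.Φ
  Pos := R.Pos
  eqv := Eq
  simple := R.simple
  fin := R.Φ.finite_toSet
  smul_mem w _ h := R.smul_mem w h
  simple_mem := R.simple_mem
  gen := R.exists_word
  t_sq := R.s_mul_self
  equiv := eq_equivalence
  eqv_smul _ _ _ h := h ▸ rfl
  eqv_pos h h' := h ▸ h'
  pos_simple := R.pos_simple
  opp w i := by
    rw [R.s_smul_simple, R.smul_neg _ (R.simple_mem i), R.pos_neg_iff (R.smul_mem w (R.simple_mem i))]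
  eqv_simple _ _ _ h h' := R.eq_simple_of_not_pos_s_smul h h'
  eq_one _ h := R.eq_one_of_pos h
  neg_all _ h _ hr := R.pos_smul_iff_of_inJ' (J := Set.univ) (fun j _ => h j) ⟨hr, fun _ hi => absurd trivial hi⟩
  conj_t _ _ _ h := R.mul_s_of_smul_simple h

/-- The nodes `i - j => k` span a diagram of type `B₃` with `k` short. -/
structure B3 (i j k : ι) : Prop where
  ij : R.C i j = -1
  ji : R.C j i = -1
  ik : R.C i k = 0
  ki : R.C k i = 0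
  jk : R.C j k = -1
  kj : R.C k j = -2

/-- The diagram is a tree grown from the edge `j₀ k₀` along simple bonds. -/
structure Tree where
  j₀ : ι
  k₀ : ι
  i₀ : ι
  par : ι → ι
  ρ : ι → ℕ
  ρ_inj : Function.Injective ρ
  ρ_j : ρ j₀ = 0
  ρ_k : ρ k₀ = 1
  C_jk : R.C j₀ k₀ = -1
  C_kj : R.C k₀ j₀ = -1 ∨ R.C k₀ j₀ = -2
  par_lt : ∀ l, l ≠ j₀ → l ≠ k₀ → ρ (par l) < ρ l
  C_par : ∀ l, l ≠ j₀ → l ≠ k₀ → R.C l (par l) = -1 ∧ R.C (par l) l = -1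
  nadj : ∀ l l', ρ l' < ρ l → l ≠ k₀ → l' ≠ par l → R.C l l' = 0 ∧ R.C l' l = 0
  i_ne_j : i₀ ≠ j₀
  i_ne_k : i₀ ≠ k₀
  par_i : par i₀ = j₀

theorem Hf_eq_1' : type_of% @Hf.eq_1 := @Hf.eq_1
theorem opp_eq_1' : type_of% @opp.eq_1 := @opp.eq_1
theorem cox_eq_1' : type_of% @cox.eq_1 := @cox.eq_1

/-- The relations of a generalised root datum inside the standard subsystems of rank at most two. -/
structure LocG (G : Type*) [Group G] where
  X : A → Subgroup G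
  H : Subgroup G
  n : ι → G
  comm : ∀ i j r s, R.InJ {i, j} r → R.InJ {i, j} s → r ≠ s → s ≠ R.neg r → ∀ a ∈ X r, ∀ b ∈ X s,
    a⁻¹ * b⁻¹ * a * b ∈ spanX X ((cox R).cone r s)
  H_conj : ∀ i, ∀ h ∈ H, ∀ a ∈ X (R.simple i), h * a * h⁻¹ ∈ X (R.simple i)
  n_conj : ∀ i j r, R.InJ {i, j} r → ∀ a, a ∈ X r ↔ n i * a * (n i)⁻¹ ∈ X (R.s i • r)
  n_H : ∀ i, ∀ h ∈ H, n i * h * (n i)⁻¹ ∈ H
  n_sq : ∀ i, n i * n i ∈ H
  braid : ∀ i j, (n i * n j) ^ orderOf (R.s i * R.s j) ∈ H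
  nontriv : ∀ i, ∃ a ∈ X (R.neg (R.simple i)), a ≠ 1
  rank_one : ∀ i, ∀ a ∈ X (R.neg (R.simple i)), a ≠ 1 →
    ∃ u ∈ X (R.simple i), ∃ h ∈ H, ∃ u' ∈ X (R.simple i), a = u * h * n i * u'

end Weyl

/-! ### Coxeter matrices -/

/-- Type `A`. -/
def mA (i j : ℕ) : ℕ := if i = j then 1 else if i + 1 = j ∨ j + 1 = i then 3 else 2

/-- Type `B_n`. -/
def mB (n i j : ℕ) : ℕ :=
  if i = j then 1 else if i + 1 = j ∨ j + 1 = i then (if i + 1 = n ∨ j + 1 = n then 4 else 3) else 2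

/-- Type `D_n`. -/
def mD (n i j : ℕ) : ℕ :=
  if i = j then 1 else if ((i + 1 = j ∨ j + 1 = i) ∧ i + 1 < n ∧ j + 1 < n) ∨ (i + 3 = n ∧ j + 1 = n) ∨
    (j + 3 = n ∧ i + 1 = n) then 3 else 2

/-- Type `E` (Bourbaki numbering from `0`). -/
def mE (i j : ℕ) : ℕ :=
  if i = j then 1 else if (i = 0 ∧ j = 2) ∨ (i = 2 ∧ j = 0) ∨ (i = 1 ∧ j = 3) ∨ (i = 3 ∧ j = 1) ∨
    ((i + 1 = j ∨ j + 1 = i) ∧ 2 ≤ i ∧ 2 ≤ j) then 3 else 2

/-- Type `F₄`. -/
def mF (i j : ℕ) : ℕ :=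
  if i = j then 1 else if i + 1 = j ∨ j + 1 = i then (if i + j = 3 then 4 else 3) else 2

/-- The matrix `M` has the pattern `m` on `n` nodes. -/
def HasPat {I : Type*} (M : I → I → ℕ) (n : ℕ) (m : ℕ → ℕ → ℕ) : Prop :=
  ∃ e : Fin n ≃ I, ∀ i j, M (e i) (e j) = m i j

/-- The irreducible crystallographic Coxeter matrices of rank at least three. -/
def Pat {I : Type*} (M : I → I → ℕ) : Prop :=
  (∃ n, 3 ≤ n ∧ HasPat M n mA) ∨ (∃ n, 3 ≤ n ∧ HasPat M n (mB n)) ∨ (∃ n, 4 ≤ n ∧ HasPat M n (mD n)) ∨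
    HasPat M 6 mE ∨ HasPat M 7 mE ∨ HasPat M 8 mE ∨ HasPat M 4 mF

/-- A lower bound for `2 cos (π / m)`, `m ∈ {2, 3, 4, 6, 8}`. -/
noncomputable def cw (m : ℕ) : ℝ :=
  if m ≤ 2 then 0 else if m = 3 then 1 else if m = 4 then √2 else √3

/-- Positive definiteness on non-negative vectors. -/
def PD {I : Type*} (M : I → I → ℕ) : Prop :=
  ∀ (K : Type) [Fintype K] (f : K → I) (x : K → ℝ), Function.Injective f → (∀ a, 0 ≤ x a) → x ≠ 0 →
    ∑ a, ∑ b, cw (M (f a) (f b)) * x a * x b < 2 * ∑ a, x a ^ 2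

/-- A Coxeter matrix with entries in `{2, 3, 4, 6, 8}` and positive definite form. -/
structure CoxM {I : Type*} (M : I → I → ℕ) : Prop where
  diag : ∀ i, M i i = 1
  symm : ∀ i j, M i j = M j i
  mem : ∀ i j, i ≠ j → M i j = 2 ∨ M i j = 3 ∨ M i j = 4 ∨ M i j = 6 ∨ M i j = 8
  pd : PD M

/-- A chain `c 0, …, c (k - 1)` of distinct nodes, consecutive ones being joined. -/
structure Chain {I : Type*} (M : I → I → ℕ) (k : ℕ) (c : ℕ → I) : Prop where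
  inj : ∀ a b, a < k → b < k → c a = c b → a = b
  adj : ∀ a, a + 1 < k → 3 ≤ M (c a) (c (a + 1))

/-- The Coxeter matrix of a BN-pair. -/
noncomputable def bnM {G : Type*} [Group G] (P : Cfsg.BNPair G) (i j : P.S) : ℕ :=
  orderOf (BN.sg P i * BN.sg P j)

/-- `G` is a finite simple group with a BN-pair with Coxeter matrix `m` and parameters `q`. -/
def Model (n : ℕ) (m : ℕ → ℕ → ℕ) (q : ℕ → ℕ) (G : Type*) [Group G] : Prop :=
  ∃ (K : Type) (_ : Group K) (_ : Finite K) (_ : IsSimpleGroup K) (P : Cfsg.BNPair K) (e : Fin n ≃ P.S),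
    Nonempty (K ≃* G) ∧ (∀ i j, bnM P (e i) (e j) = m i j) ∧ ∀ i, BN.param P (e i) = q i

theorem mA_eq_1' : type_of% @mA.eq_1 := @mA.eq_1
theorem mB_eq_1' : type_of% @mB.eq_1 := @mB.eq_1
theorem mD_eq_1' : type_of% @mD.eq_1 := @mD.eq_1
theorem mE_eq_1' : type_of% @mE.eq_1 := @mE.eq_1
theorem mF_eq_1' : type_of% @mF.eq_1 := @mF.eq_1
theorem HasPat_eq_1' : type_of% @HasPat.eq_1 := @HasPat.eq_1
theorem Pat_eq_1' : type_of% @Pat.eq_1 := @Pat.eq_1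
theorem cw_eq_1' : type_of% @cw.eq_1 := @cw.eq_1
theorem PD_eq_1' : type_of% @PD.eq_1 := @PD.eq_1
theorem bnM_eq_1' : type_of% @bnM.eq_1 := @bnM.eq_1
theorem Model_eq_1' : type_of% @Model.eq_1 := @Model.eq_1

/-! ### Buildings -/

variable {ι A : Type} [Fintype ι] [DecidableEq ι] [DecidableEq A]

/-- A thick building of type `R` with an apartment and a Weyl-transitive action of `Γ`. -/
structure Bld (R : WeylData ι A) (Γ Ch : Type*) [Group Γ] [MulAction Γ Ch] where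
  δ : Ch → Ch → R.W
  a : R.W → Ch
  δ_eq_one : ∀ {x y}, δ x y = 1 ↔ x = y
  δ_symm : ∀ x y, δ y x = (δ x y)⁻¹
  δ_step : ∀ x {y z i}, δ y z = R.s i → δ x z = δ x y * R.s i ∨ δ x z = δ x y
  δ_up : ∀ {x y z i}, δ y z = R.s i → R.Pos (δ x y • R.simple i) → δ x z = δ x y * R.s i
  δ_ex : ∀ x y i, ∃ z, δ y z = R.s i ∧ δ x z = δ x y * R.s i
  thick : ∀ x i, ∃ y z, y ≠ z ∧ δ x y = R.s i ∧ δ x z = R.s i
  δ_smul : ∀ (g : Γ) x y, δ (g • x) (g • y) = δ x y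
  trans : ∀ {x y x' y'}, δ x y = δ x' y' → ∃ g : Γ, g • x = x' ∧ g • y = y'
  δ_a : ∀ v w, δ (a v) (a w) = v⁻¹ * w

namespace Bld

variable {R : WeylData ι A} {Γ Ch : Type*} [Group Γ] [MulAction Γ Ch] (B : Bld R Γ Ch)

theorem δ_self (x : Ch) : B.δ x x = 1 := B.δ_eq_one.2 rfl

theorem δ_coset {J : Set ι} (x : Ch) {y z : Ch} (h : B.δ y z ∈ R.WJ J) :
    (B.δ x y)⁻¹ * B.δ x z ∈ R.WJ J := by
  suffices ∀ w ∈ R.WJ J, ∀ z, B.δ y z = w → (B.δ x y)⁻¹ * B.δ x z ∈ R.WJ J from this _ h z rfl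
  intro w hw
  refine R.WJ_induction_pos_right (p := fun w => ∀ z, B.δ y z = w → (B.δ x y)⁻¹ * B.δ x z ∈ R.WJ J)
    hw (fun z e => ?_) fun i hi w _ _ ih z e => ?_
  · rw [B.δ_eq_one.1 e, inv_mul_cancel]
    exact one_mem _
  · obtain ⟨z', h1, h2⟩ := B.δ_ex y z i
    rw [e, mul_assoc, R.s_mul_self, mul_one] at h2
    have h3 : B.δ z' z = R.s i := by rw [B.δ_symm, h1, R.s_inv]
    rcases B.δ_step x h3 with h4 | h4 <;> rw [h4]
    · rw [← mul_assoc]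
      exact mul_mem (ih z' h2) (R.s_mem_WJ hi)
    · exact ih z' h2

theorem δ_mem_trans {J : Set ι} {x y z : Ch} (h : B.δ x y ∈ R.WJ J) (h' : B.δ y z ∈ R.WJ J) :
    B.δ x z ∈ R.WJ J := by simpa using mul_mem h (B.δ_coset x h')

theorem δ_mem_symm {J : Set ι} {x y : Ch} (h : B.δ x y ∈ R.WJ J) : B.δ y x ∈ R.WJ J := by
  rw [B.δ_symm]; exact inv_mem h

/-- The stabiliser of the `J`-residue of `x`. -/
def St (J : Set ι) (x : Ch) : Subgroup Γ where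
  carrier := {g | B.δ x (g • x) ∈ R.WJ J}
  one_mem' := by simp only [Set.mem_ofPred_eq, one_smul, B.δ_self]; exact one_mem _
  mul_mem' {g h} hg hh := by
    simp only [Set.mem_ofPred_eq, mul_smul] at *
    exact B.δ_mem_trans hg (by rwa [B.δ_smul])
  inv_mem' {g} hg := by
    simp only [Set.mem_ofPred_eq] at *
    rw [← B.δ_smul g, smul_inv_smul]
    exact B.δ_mem_symm hg

/-- The pointwise stabiliser of the `J`-residue of `x`. -/
def Kr (J : Set ι) (x : Ch) : Subgroup Γ where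
  carrier := {g | ∀ y, B.δ x y ∈ R.WJ J → g • y = y}
  one_mem' y _ := one_smul _ y
  mul_mem' hg hh y hy := by rw [mul_smul, hh y hy, hg y hy]
  inv_mem' hg y hy := by rw [inv_smul_eq_iff, hg y hy]

/-- The pointwise stabiliser of the `i`-panel of `x`. -/
def Tv (x : Ch) (i : ι) : Subgroup Γ where
  carrier := {g | g • x = x ∧ ∀ y, B.δ x y = R.s i → g • y = y}
  one_mem' := ⟨one_smul _ x, fun y _ => one_smul _ y⟩
  mul_mem' hg hh := ⟨by rw [mul_smul, hh.1, hg.1], fun y hy => by rw [mul_smul, hh.2 y hy, hg.2 y hy]⟩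
  inv_mem' hg := ⟨by rw [inv_smul_eq_iff, hg.1], fun y hy => by rw [inv_smul_eq_iff, hg.2 y hy]⟩

/-- The pointwise stabiliser of a half-apartment. -/
def Br (r : A) : Subgroup Γ where
  carrier := {g | ∀ w, Hf R r w → g • B.a w = B.a w}
  one_mem' _ _ := one_smul _ _
  mul_mem' hg hh y hy := by rw [mul_smul, hh y hy, hg y hy]
  inv_mem' hg y hy := by rw [inv_smul_eq_iff, hg y hy]

/-- The pointwise stabiliser of the apartment. -/
def H : Subgroup Γ where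
  carrier := {g | ∀ w, g • B.a w = B.a w}
  one_mem' _ := one_smul _ _
  mul_mem' hg hh y := by rw [mul_smul, hh y, hg y]
  inv_mem' hg y := by rw [inv_smul_eq_iff, hg y]

/-- The root group relative to the `J`-residue of the base chamber. -/
def UJ (J : Set ι) (r : A) : Subgroup Γ where
  carrier := {g | g ∈ B.Br r ∧
    ∀ w ∈ R.WJ J, ∀ j ∈ J, Hf R r w → Hf R r (w * R.s j) → g ∈ B.Tv (B.a w) j}
  one_mem' := ⟨one_mem _, fun _ _ _ _ _ _ => one_mem _⟩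
  mul_mem' hg hh := ⟨mul_mem hg.1 hh.1, fun w hw j hj h1 h2 =>
    mul_mem (hg.2 w hw j hj h1 h2) (hh.2 w hw j hj h1 h2)⟩
  inv_mem' hg := ⟨inv_mem hg.1, fun w hw j hj h1 h2 => inv_mem (hg.2 w hw j hj h1 h2)⟩

/-- The root group. -/
def U (r : A) : Subgroup Γ := B.UJ Set.univ r

/-- `g` induces `w` on the apartment. -/
def Lifts (g : Γ) (w : R.W) : Prop := ∀ v, g • B.a v = B.a (w * v)

/-- The Levi subgroup: the stabiliser of two opposite residues. -/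
noncomputable def Lev (J : Set ι) : Subgroup Γ := B.St J (B.a 1) ⊓ B.St (opp R J) (B.a (R.w0 Set.univ))

/-- The parameters. -/
noncomputable def q (i : ι) : ℕ := Nat.card {y : Ch // B.δ (B.a 1) y = R.s i}

/-- `S` is transitive on the chambers `i`-adjacent to `x`. -/
def TrOn (S : Subgroup Γ) (x : Ch) (i : ι) : Prop :=
  ∀ y z, B.δ x y = R.s i → B.δ x z = R.s i → ∃ g ∈ S, g • y = z

/-- The Moufang property for the simple root `i` relative to `J`. -/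
def MoufJ (J : Set ι) (i : ι) : Prop := B.TrOn (B.UJ J (R.simple i)) (B.a 1) i

/-- The root groups of `α_j` and `s_k α_j` commute. -/
def flag (j k : ι) : Prop :=
  ∀ x ∈ B.U (R.simple j), ∀ y ∈ B.U (R.s k • R.simple j), Commute x y

/-- A faithful Moufang action without isolated nodes. -/
structure RG : Prop where
  mouf : ∀ i, B.MoufJ Set.univ i
  faith : ∀ g : Γ, (∀ x : Ch, g • x = x) → g = 1
  deep : ∀ i, ∃ j, j ≠ i ∧ R.C j i ≠ 0

theorem St_eq_1' : type_of% @St.eq_1 := @St.eq_1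
theorem Kr_eq_1' : type_of% @Kr.eq_1 := @Kr.eq_1
theorem Tv_eq_1' : type_of% @Tv.eq_1 := @Tv.eq_1
theorem Br_eq_1' : type_of% @Br.eq_1 := @Br.eq_1
theorem H_eq_1' : type_of% @H.eq_1 := @H.eq_1
theorem UJ_eq_1' : type_of% @UJ.eq_1 := @UJ.eq_1
theorem U_eq_1' : type_of% @U.eq_1 := @U.eq_1
theorem Lifts_eq_1' : type_of% @Lifts.eq_1 := @Lifts.eq_1
theorem Lev_eq_1' : type_of% @Lev.eq_1 := @Lev.eq_1
theorem q_eq_1' : type_of% @q.eq_1 := @q.eq_1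
theorem TrOn_eq_1' : type_of% @TrOn.eq_1 := @TrOn.eq_1
theorem MoufJ_eq_1' : type_of% @MoufJ.eq_1 := @MoufJ.eq_1
theorem flag_eq_1' : type_of% @flag.eq_1 := @flag.eq_1

variable {B} {J : Set ι} {g : Γ} {x : Ch} {i : ι} {r : A}

theorem mem_St : g ∈ B.St J x ↔ B.δ x (g • x) ∈ R.WJ J := Iff.rfl
theorem mem_Kr : g ∈ B.Kr J x ↔ ∀ y, B.δ x y ∈ R.WJ J → g • y = y := Iff.rfl
theorem mem_Tv : g ∈ B.Tv x i ↔ g • x = x ∧ ∀ y, B.δ x y = R.s i → g • y = y := Iff.rfl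
theorem mem_Br : g ∈ B.Br r ↔ ∀ w, Hf R r w → g • B.a w = B.a w := Iff.rfl
theorem mem_H : g ∈ B.H ↔ ∀ w, g • B.a w = B.a w := Iff.rfl
theorem mem_UJ : g ∈ B.UJ J r ↔ g ∈ B.Br r ∧
    ∀ w ∈ R.WJ J, ∀ j ∈ J, Hf R r w → Hf R r (w * R.s j) → g ∈ B.Tv (B.a w) j := Iff.rfl
theorem mem_U : g ∈ B.U r ↔ g ∈ B.Br r ∧
    ∀ w j, Hf R r w → Hf R r (w * R.s j) → g ∈ B.Tv (B.a w) j :=
  ⟨fun h => ⟨h.1, fun w j => h.2 w (by simp) j trivial⟩, fun h => ⟨h.1, fun w _ j _ => h.2 w j⟩⟩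
theorem mem_Lev : g ∈ B.Lev J ↔ B.δ (B.a 1) (g • B.a 1) ∈ R.WJ J ∧
    B.δ (B.a (R.w0 Set.univ)) (g • B.a (R.w0 Set.univ)) ∈ R.WJ (opp R J) := Iff.rfl

theorem St.smul_mem {y : Ch} (hg : g ∈ B.St J x) (hy : B.δ x y ∈ R.WJ J) : B.δ x (g • y) ∈ R.WJ J :=
  B.δ_mem_trans hg (by rwa [B.δ_smul])

theorem δ_a_one (w : R.W) : B.δ (B.a 1) (B.a w) = w := by simp [B.δ_a]

variable (B)

/-! ### Residues of the base chamber -/

/-- The `J`-residue of the base chamber. -/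
def Res (J : Set ι) : Type _ := {x : Ch // B.δ (B.a 1) x ∈ R.WJ J}

/-- The isometries of the residue. -/
def Iso (J : Set ι) : Subgroup (Equiv.Perm (B.Res J)) where
  carrier := {σ | ∀ x y, B.δ (σ x).1 (σ y).1 = B.δ x.1 y.1}
  one_mem' _ _ := rfl
  mul_mem' hσ hτ x y := (hσ _ _).trans (hτ x y)
  inv_mem' {σ} hσ x y := by simpa using (hσ (σ⁻¹ x) (σ⁻¹ y)).symm

/-- Restriction to the residue. -/
def res (J : Set ι) : B.St J (B.a 1) →* B.Iso J where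
  toFun g := ⟨⟨fun x => ⟨g.1 • x.1, St.smul_mem g.2 x.2⟩, fun x => ⟨g.1⁻¹ • x.1, St.smul_mem (inv_mem g.2) x.2⟩,
    fun _ => Subtype.ext (inv_smul_smul _ _), fun _ => Subtype.ext (smul_inv_smul _ _)⟩,
    fun _ _ => B.δ_smul _ _ _⟩
  map_one' := Subtype.ext (Equiv.ext fun _ => Subtype.ext (one_smul _ _))
  map_mul' _ _ := Subtype.ext (Equiv.ext fun _ => Subtype.ext (mul_smul _ _ _))

/-- The group induced on the residue by (the part stabilising it of) `K`. -/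
def Aut (J : Set ι) (K : Subgroup Γ) : Subgroup (B.Iso J) :=
  (K.subgroupOf (B.St J (B.a 1))).map (B.res J)

/-- The `j`-panel of a chamber of the residue. -/
def pan (J : Set ι) (j : ι) (x : B.Res J) : Set (B.Res J) := {y | B.δ x.1 y.1 ∈ R.WJ {j}}

/-- The `j`-panels of the residue. -/
def Pan (J : Set ι) (j : ι) : Type _ := {S : Set (B.Res J) // ∃ x, S = B.pan J j x}

/-- The `j`-panel of a chamber as an element of `Pan`. -/
def pt (J : Set ι) (j : ι) (x : B.Res J) : B.Pan J j := ⟨B.pan J j x, x, rfl⟩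

/-- The `i`-panels as lines on the set of `j`-panels. -/
def Ln (J : Set ι) (_j i : ι) : Type _ := B.Pan J i

/-- The `i`-panel of a chamber as a line. -/
def ln (J : Set ι) (j i : ι) (x : B.Res J) : B.Ln J j i := B.pt J i x

instance panMem (J : Set ι) (j i : ι) : Membership (B.Pan J j) (B.Ln J j i) :=
  ⟨fun l p => ∃ x, x ∈ p.1 ∧ x ∈ l.1⟩

theorem image_pan (J : Set ι) (j : ι) (σ : B.Iso J) (x : B.Res J) :
    σ.1 '' B.pan J j x = B.pan J j (σ.1 x) := by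
  ext y
  constructor
  · rintro ⟨z, hz, rfl⟩
    exact (show _ ∈ R.WJ {j} by rw [σ.2 x z]; exact hz)
  · intro hy
    obtain ⟨z, rfl⟩ := σ.1.surjective y
    exact ⟨z, (show _ ∈ R.WJ {j} by rw [← σ.2 x z]; exact hy), rfl⟩

instance panAction (J : Set ι) (j : ι) : MulAction (B.Iso J) (B.Pan J j) where
  smul σ S := ⟨σ.1 '' S.1, by
    obtain ⟨x, hx⟩ := S.2
    exact ⟨σ.1 x, by rw [hx, B.image_pan]⟩⟩
  one_smul S := Subtype.ext (Set.image_id _)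
  mul_smul σ τ S := Subtype.ext (Set.image_comp σ.1 τ.1 S.1)

instance lnAction (J : Set ι) (j i : ι) : MulAction (B.Iso J) (B.Ln J j i) := B.panAction J i

instance finiteRes [Finite Ch] (J : Set ι) : Finite (B.Res J) := Subtype.finite

instance finitePan [Finite Ch] (J : Set ι) (j : ι) : Finite (B.Pan J j) := Subtype.finite

instance finiteLn [Finite Ch] (J : Set ι) (j i : ι) : Finite (B.Ln J j i) := B.finitePan J i

theorem Res_eq_1' : type_of% @Res.eq_1 := @Res.eq_1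
theorem Iso_eq_1' : type_of% @Iso.eq_1 := @Iso.eq_1
theorem res_eq_1' : type_of% @res.eq_1 := @res.eq_1
theorem Aut_eq_1' : type_of% @Aut.eq_1 := @Aut.eq_1
theorem pan_eq_1' : type_of% @pan.eq_1 := @pan.eq_1
theorem Pan_eq_1' : type_of% @Pan.eq_1 := @Pan.eq_1
theorem pt_eq_1' : type_of% @pt.eq_1 := @pt.eq_1
theorem Ln_eq_1' : type_of% @Ln.eq_1 := @Ln.eq_1
theorem ln_eq_1' : type_of% @ln.eq_1 := @ln.eq_1

theorem res_apply (J : Set ι) (g : B.St J (B.a 1)) (x : B.Res J) :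
    ((B.res J g).1 x).1 = g.1 • x.1 := rfl

theorem smul_pt (J : Set ι) (j : ι) (σ : B.Iso J) (x : B.Res J) :
    σ • B.pt J j x = B.pt J j (σ.1 x) := Subtype.ext (B.image_pan J j σ x)

theorem smul_ln (J : Set ι) (j i : ι) (σ : B.Iso J) (x : B.Res J) :
    σ • B.ln J j i x = B.ln J j i (σ.1 x) := B.smul_pt J i σ x

theorem ln_surjective (J : Set ι) (j i : ι) : Function.Surjective (B.ln J j i) :=
  fun ⟨_, x, h⟩ => ⟨x, Subtype.ext h.symm⟩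

theorem mem_pan_iff {J : Set ι} {j i : ι} {p : B.Pan J j} {l : B.Ln J j i} :
    p ∈ l ↔ ∃ x, x ∈ p.1 ∧ x ∈ l.1 := Iff.rfl

theorem pt_surjective (J : Set ι) (j : ι) : Function.Surjective (B.pt J j) :=
  fun ⟨_, x, h⟩ => ⟨x, Subtype.ext h.symm⟩

/-- Coordinates for the root groups of an `A₂`-residue. -/
structure A2C (i j : ι) (F : Type) [Field F] (e : Fin 3 → Fin 3 → F → Γ) : Prop where
  st : StA e
  mem : ∀ a b, a ≠ b → ∀ t, e a b t ∈ B.U (R.rho i j a b)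
  inj : ∀ a b, a ≠ b → ∀ t, e a b t = 1 → t = 0
  surj : ∀ a b, a ≠ b → ∀ g ∈ B.U (R.rho i j a b), ∃ t, e a b t = g
  lift_i : ∀ t, t ≠ 0 → B.Lifts (stW e 0 1 t) (R.s i)
  lift_j : ∀ t, t ≠ 0 → B.Lifts (stW e 1 2 t) (R.s j)

/-! ### Comparing two buildings -/

variable {Γ' Ch' : Type*} [Group Γ'] [MulAction Γ' Ch'] (B' : Bld R Γ' Ch')

/-- `f` is isometric on the `J`-residue of `x`. -/
def Isom (J : Set ι) (x : Ch) (f : Ch → Ch') : Prop :=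
  ∀ u v, B.δ x u ∈ R.WJ J → B.δ x v ∈ R.WJ J → B'.δ (f u) (f v) = B.δ u v

/-- `φ` induces an isomorphism of the base `J`-residues matching the apartments. -/
structure RIso (J : Set ι) (φ : Ch → Ch') : Prop where
  isom : B.Isom B' J (B.a 1) φ
  apt : ∀ w ∈ R.WJ J, φ (B.a w) = B'.a w
  surj : ∀ y, B'.δ (B'.a 1) y ∈ R.WJ J → ∃ x, B.δ (B.a 1) x ∈ R.WJ J ∧ φ x = y

/-- `g` and `g'` correspond under `φ` on the base `J`-residue. -/
def Cmp (J : Set ι) (φ : Ch → Ch') (g : Γ) (g' : Γ') : Prop :=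
  ∀ x, B.δ (B.a 1) x ∈ R.WJ J → φ (g • x) = g' • φ x

/-- `D` is the graph of an isomorphism matching the positive root groups of type `J`. -/
structure Graph (J : Set ι) (D : Subgroup (Γ × Γ')) : Prop where
  left : ∀ r, R.Pos r → R.InJ J r → ∀ g ∈ B.U r, ∃ g' ∈ B'.U r, (g, g') ∈ D
  right : ∀ r, R.Pos r → R.InJ J r → ∀ g' ∈ B'.U r, ∃ g ∈ B.U r, (g, g') ∈ D
  inj : ∀ d ∈ D, (d.1 = 1 ↔ d.2 = 1)

/-- A local datum in the product which covers both groups. -/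
structure Pair (L : LocG R (Γ × Γ')) : Prop where
  mem : ∀ i, ∀ d ∈ L.X (R.simple i), d.1 ∈ B.U (R.simple i) ∧ d.2 ∈ B'.U (R.simple i) ∧ (d.1 = 1 ↔ d.2 = 1)
  left : ∀ i, ∀ g ∈ B.U (R.simple i), ∃ g', (g, g') ∈ L.X (R.simple i)
  right : ∀ i, ∀ g' ∈ B'.U (R.simple i), ∃ g, (g, g') ∈ L.X (R.simple i)
  lifts : ∀ i, B.Lifts (L.n i).1 (R.s i) ∧ B'.Lifts (L.n i).2 (R.s i)
  torus : ∀ d ∈ L.H, d.1 ∈ B.H ∧ d.2 ∈ B'.H ∧ (d.1 = 1 ↔ d.2 = 1)

theorem Isom_eq_1' : type_of% @Isom.eq_1 := @Isom.eq_1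
theorem Cmp_eq_1' : type_of% @Cmp.eq_1 := @Cmp.eq_1

end Bld

/-! ### Generalised quadrangles -/

/-- A finite thick generalised quadrangle with an action of `G`. -/
structure GQ (G P L : Type*) [Group G] [MulAction G P] [MulAction G L] where
  I : P → L → Prop
  s : ℕ
  t : ℕ
  uniq : ∀ {x y l m}, I x l → I y l → I x m → I y m → x = y ∨ l = m
  ex : ∀ x l, ¬ I x l → ∃ y m, I y l ∧ I x m ∧ I y m
  un : ∀ {x l y m y' m'}, ¬ I x l → I y l → I x m → I y m → I y' l → I x m' → I y' m' → y = y'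
  card_pts : ∀ l, {x | I x l}.ncard = s + 1
  card_lns : ∀ x, {l | I x l}.ncard = t + 1
  two_le_s : 2 ≤ s
  two_le_t : 2 ≤ t
  smul : ∀ (g : G) x l, I (g • x) (g • l) ↔ I x l

/-! ### The algebra of a `B₃` configuration -/

/-- Root groups of a `B₃` configuration: `e` on the long roots `±(e_a - e_b)`, `S` for `e₃`, `Ar` for
`e₂`, `Y` for `e₂ + e₃`, and a representative `m` of the reflection in `e₃`. -/
structure T3 (F G : Type*) [Field F] [Group G] where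
  e : Fin 3 → Fin 3 → F → G
  S : Subgroup G
  Ar : Subgroup G
  Y : Subgroup G
  m : G
  st : StA e
  ne_bot : S ≠ ⊥
  n_S : ∀ s, s ∈ S ↔ stW e 1 2 1 * s * (stW e 1 2 1)⁻¹ ∈ Ar
  n_A : ∀ a, a ∈ Ar ↔ stW e 1 2 1 * a * (stW e 1 2 1)⁻¹ ∈ S
  n_Y : ∀ y, y ∈ Y ↔ stW e 1 2 1 * y * (stW e 1 2 1)⁻¹ ∈ Y
  mem_Y : ∀ y, y ∈ Y ↔ ∃ u, y = m * e 1 2 u * m⁻¹
  d_A : ∀ ν, ν ≠ 0 → ∀ a ∈ Ar,
    stW e 1 0 ν * (stW e 1 0 1)⁻¹ * a * (stW e 1 0 ν * (stW e 1 0 1)⁻¹)⁻¹ ∈ Ar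
  c_S : ∀ s ∈ S, ∀ t, Commute s (e 0 1 t) ∧ Commute s (e 1 0 t)
  c_m : ∀ t, Commute m (e 0 1 t) ∧ Commute m (e 1 0 t)
  c_xA : ∀ t, ∀ a ∈ Ar, Commute (e 1 2 t) a
  c_AY : ∀ a ∈ Ar, ∀ y ∈ Y, Commute a y
  c_YS : ∀ y ∈ Y, ∀ s ∈ S, Commute y s
  r_xS : ∀ t, ∀ s ∈ S, ∃ a ∈ Ar, ∃ y ∈ Y, e 1 2 t * s * (e 1 2 t)⁻¹ = a * y * s
  r_xY : ∀ t, ∀ y ∈ Y, ∃ a ∈ Ar, e 1 2 t * y * (e 1 2 t)⁻¹ = a * y
  r_SA : ∀ s ∈ S, ∀ a ∈ Ar, ∃ y ∈ Y, s * a * s⁻¹ = a * y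
  uniq : ∀ t, ∀ a ∈ Ar, ∀ y ∈ Y, ∀ s ∈ S, e 1 2 t * a * y * s = 1 → t = 0 ∧ a = 1 ∧ y = 1 ∧ s = 1
  nondeg : ∀ s ∈ S, e 1 2 1 * s * (e 1 2 1)⁻¹ * s⁻¹ ∈ Ar → s = 1

/-- An anisotropic pseudo-quadratic space. -/
structure PQ (F S : Type*) [Field F] [Group S] where
  sm : F → S → S
  c : S → F
  f : S → S → F
  z : F → S
  σ : F ≃+* F
  τ : F →+ F
  τ_mul : ∀ t u, τ (t * u) = σ t * τ u
  τ_τ : ∀ u, τ (τ u) = u
  σ_σ : ∀ u, σ (σ u) = u
  sm_one : ∀ s, sm 1 s = s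
  sm_zero : ∀ s, sm 0 s = 1
  sm_mul : ∀ t t' s, sm (t * t') s = sm t (sm t' s)
  sm_hom : ∀ t s s', sm t (s * s') = sm t s * sm t s'
  sm_add : ∀ t t' s, sm (t + t') s = sm t' s * z (σ t * (t' * c s)) * sm t s
  sm_z : ∀ t u, sm t (z u) = z (t * σ t * u)
  c_mul : ∀ s s', c (s * s') = c s + c s' + f s s'
  c_sm : ∀ t s, c (sm t s) = t * σ t * c s
  c_z : ∀ u, c (z u) = u - τ u
  c_eq_zero : ∀ s, c s = 0 → s = 1
  f_mul_left : ∀ s s' s'', f (s * s') s'' = f s s'' + f s' s''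
  f_mul_right : ∀ s s' s'', f s (s' * s'') = f s s' + f s s''
  f_sm : ∀ t s s', f s (sm t s') = t * f s s'
  f_symm : ∀ s s', f s' s = τ (f s s')
  f_self : ∀ s, f s s = c s + τ (c s)
  f_z : ∀ s u, f s (z u) = 0
  z_add : ∀ u v, z (u + v) = z u * z v
  z_comm : ∀ u s, z u * s = s * z u

namespace PQ

variable {F S F' S' : Type*} [Field F] [Group S] [Field F'] [Group S']

/-- Similar spaces. -/
def Sim (Q : PQ F S) (Q' : PQ F' S') : Prop :=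
  ∃ (φ : F ≃+* F') (ψ : S ≃* S') (l : F'), l ≠ 0 ∧ (∀ t s, ψ (Q.sm t s) = Q'.sm (φ t) (ψ s)) ∧
    (∀ s, Q'.c (ψ s) = l * φ (Q.c s)) ∧ (∀ s s', Q'.f (ψ s) (ψ s') = l * φ (Q.f s s')) ∧
    ∀ t u, ψ (Q.z (Q.σ t * u)) = Q'.z (Q'.σ (φ t) * (l * φ u))

theorem Sim_eq_1' : type_of% @Sim.eq_1 := @Sim.eq_1

end PQ

namespace T3

variable {F G : Type*} [Field F] [Group G] (T : T3 F G)

/-- The parametrisation of `Ar`. -/
def α (s : G) : G := stW T.e 1 2 1 * s * (stW T.e 1 2 1)⁻¹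

/-- The parametrisation of `Y`. -/
def y (u : F) : G := T.m * T.e 1 2 u * T.m⁻¹

/-- The commutator relations in terms of a pseudo-quadratic space. -/
structure Coord (Q : PQ F T.S) : Prop where
  xS : ∀ t (s : T.S), T.e 1 2 t * s * (T.e 1 2 t)⁻¹ = T.α (Q.sm t s) * T.y (t * Q.c s) * s
  xY : ∀ t u, T.e 1 2 t * T.y u * (T.e 1 2 t)⁻¹ = T.α (Q.z (Q.σ t * u)) * T.y u
  SA : ∀ s s' : T.S, s * T.α s' * (s : G)⁻¹ = T.α s' * T.y (Q.f s s')

theorem α_eq_1' : type_of% @α.eq_1 := @α.eq_1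
theorem y_eq_1' : type_of% @y.eq_1 := @y.eq_1

end T3

/-- The `B₃` configuration `T` is formed by the root groups of the building. -/
structure Bld.IsT3 {R : WeylData ι A} {Γ Ch : Type*} [Group Γ] [MulAction Γ Ch] (B : Bld R Γ Ch)
    (i j k : ι) {F : Type} [Field F] (T : T3 F Γ) : Prop where
  a2c : B.A2C i j F T.e
  S_eq : T.S = B.U (R.simple k)
  Ar_eq : T.Ar = B.U (R.s j • R.simple k)
  Y_eq : T.Y = B.U (R.s k • R.simple j)

end Cfsg.Lib.BLD
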