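import Cfsg.Agent.BLD.Defs

/-! # Standard root systems for the Coxeter patterns -/

set_option autoImplicit false

namespace Cfsg.Lib.BLD

open Cfsg.Lib.Chev

/-- The pattern `m` on `n` nodes is realised by a root system whose diagram is a tree with base edge
`j₀ k₀` and Cartan integer `c`. -/
def Std (n : ℕ) (m : ℕ → ℕ → ℕ) (j₀ k₀ : ℕ) (c : ℤ) : Prop :=
  ∃ (A : Type) (_ : DecidableEq A) (R : WeylData (Fin n) A) (T : Tree R),
    (∀ i j, orderOf (R.s i * R.s j) = m i j) ∧ (∀ i j : Fin n, m i j = 3 → R.C i j * R.C j i = 1) ∧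
    T.j₀.val = j₀ ∧ T.k₀.val = k₀ ∧ R.C T.k₀ T.j₀ = c

theorem Std_eq_1' : type_of% @Std.eq_1 := @Std.eq_1

end Cfsg.Lib.BLD
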