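import Cfsg.Agent.BLD.A2c

/-! # Graph subgroups for `A₂`-residues; Hua's identity for finite fields -/

set_option autoImplicit false
set_option linter.unusedSectionVars false
set_option linter.unusedVariables false

namespace Cfsg.Lib.BLD

open Cfsg.Lib.Chev

variable {ι A : Type} [Fintype ι] [DecidableEq ι] [DecidableEq A] {R : WeylData ι A}

namespace Ext1

variable {F F' G : Type*} [Field F] [Field F'] [Group G]

theorem st_comp {κ : Type*} {e : κ → κ → F' → G} (h : StA e) (σ : F →+* F') :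
    StA fun a b t => e a b (σ t) where
  add a b hab t u := by rw [h.add a b hab, map_add]
  comm a b c h1 h2 h3 t u := by rw [h.comm a b c h1 h2 h3, map_mul]
  commute a b c d h1 h2 h3 h4 t u := h.commute a b c d h1 h2 h3 h4 _ _

variable {e : Fin 3 → Fin 3 → F → G}

theorem heis_mul (h : StA e) (x y z x' y' z' : F) :
    e 0 1 x * e 0 2 y * e 1 2 z * (e 0 1 x' * e 0 2 y' * e 1 2 z') =
      e 0 1 (x + x') * e 0 2 (y + -(x' * z) + y') * e 1 2 (z + z') := by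
  have h1 := h.conj_right (a := 0) (b := 1) (c := 2) (by decide) (by decide) (by decide) x' z
  rw [mul_inv_eq_iff_eq_mul] at h1
  have c1 := fun t u => (h.commute 0 2 0 1 (by decide) (by decide) (by decide) (by decide) t u).eq
  have c2 := fun t u => (h.commute 1 2 0 2 (by decide) (by decide) (by decide) (by decide) t u).eq
  rw [← h.add 0 1 (by decide), ← h.add 0 2 (by decide), ← h.add 0 2 (by decide),
    ← h.add 1 2 (by decide)]
  calc _ = e 0 1 x * e 0 2 y * (e 1 2 z * e 0 1 x') * e 0 2 y' * e 1 2 z' := by group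
    _ = e 0 1 x * (e 0 2 y * (e 0 2 (-(x' * z)) * e 0 1 x')) * (e 1 2 z * e 0 2 y') * e 1 2 z' := by
      rw [h1]; group
    _ = e 0 1 x * (e 0 2 y * e 0 1 x') * e 0 2 (-(x' * z)) * (e 0 2 y' * e 1 2 z) * e 1 2 z' := by
      rw [c1, c2]; group
    _ = _ := by rw [c1]; group

theorem exists_heis (h : StA e) :
    ∃ D : Subgroup G, ∀ g, g ∈ D ↔ ∃ x y z, g = e 0 1 x * e 0 2 y * e 1 2 z := by
  have z1 := h.zero (a := 0) (b := 1) (by decide)
  have z2 := h.zero (a := 0) (b := 2) (by decide)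
  have z3 := h.zero (a := 1) (b := 2) (by decide)
  refine ⟨{ carrier := {g | ∃ x y z, g = e 0 1 x * e 0 2 y * e 1 2 z}
            one_mem' := ⟨0, 0, 0, by simp [z1, z2, z3]⟩
            mul_mem' := ?_
            inv_mem' := ?_ }, fun g => Iff.rfl⟩
  · rintro _ _ ⟨x, y, z, rfl⟩ ⟨x', y', z', rfl⟩
    exact ⟨_, _, _, heis_mul h ..⟩
  · rintro _ ⟨x, y, z, rfl⟩
    refine ⟨-x, -y - x * z, -z, inv_eq_of_mul_eq_one_right ?_⟩
    rw [heis_mul h, show y + -(-x * z) + (-y - x * z) = 0 by ring]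
    simp [z1, z2, z3]

theorem heis_eq_one (h : StA e) (hi : ∀ t, e 0 2 t = 1 → t = 0) {x y z : F} :
    e 0 1 x * e 0 2 y * e 1 2 z = 1 ↔ x = 0 ∧ y = 0 ∧ z = 0 := by
  have z1 := h.zero (a := 0) (b := 1) (by decide)
  have z2 := h.zero (a := 0) (b := 2) (by decide)
  have z3 := h.zero (a := 1) (b := 2) (by decide)
  refine ⟨fun h1 => ?_, by rintro ⟨rfl, rfl, rfl⟩; simp [z1, z2, z3]⟩
  have key : ∀ t u, Commute (e 0 1 t) (e 1 2 u) → t * u = 0 := fun t u hc => hi _ (by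
    rw [h.eq_comm (a := 0) (b := 1) (c := 2) (by decide) (by decide) (by decide), hc.eq]; group)
  have hz : z = 0 := by
    have := key 1 z (by
      rw [← inv_eq_of_mul_eq_one_right h1]
      exact ((h.commute 0 1 0 1 (by decide) (by decide) (by decide) (by decide) _ _).mul_right
        (h.commute 0 1 0 2 (by decide) (by decide) (by decide) (by decide) _ _)).inv_right)
    rwa [one_mul] at this
  rw [hz, z3, mul_one] at h1
  have hx : x = 0 := by
    have := key x 1 (by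
      rw [eq_inv_of_mul_eq_one_left h1]
      exact (h.commute 0 2 1 2 (by decide) (by decide) (by decide) (by decide) _ _).inv_left)
    rwa [mul_one] at this
  rw [hx, z1, one_mul] at h1
  exact ⟨hx, hi _ h1, hz⟩

theorem pos_cases {i j : ι} (h : R.C i j * R.C j i = 1) {r : A} (h1 : R.Pos r) (h2 : R.InJ {i, j} r) :
    ∃ a b : Fin 3, a ≠ b ∧ a ≠ 2 ∧ b ≠ 0 ∧ r = R.rho i j a b := by
  obtain ⟨a, b, hab, rfl⟩ :=
    WeylData.exists_rho (C_of_mul_eq_one h).2.1 (C_of_mul_eq_one h).2.2 h2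
  have key : ¬ (b ≠ 2 ∧ a ≠ 0) := fun h3 => by
    rw [← R.neg_rho i j hab.symm, R.pos_neg_iff (R.rho_mem ..)] at h1
    exact h1 (A2c.pos_rho h hab.symm h3.1 h3.2)
  refine ⟨a, b, hab, ?_, ?_, rfl⟩ <;> rintro rfl
  · exact key ⟨hab.symm, by decide⟩
  · exact key ⟨by decide, hab⟩

end Ext1

namespace Bld

variable {Γ Ch : Type*} [Group Γ] [MulAction Γ Ch] {B : Bld R Γ Ch}
  {Γ' Ch' : Type*} [Group Γ'] [MulAction Γ' Ch'] {B' : Bld R Γ' Ch'}

theorem A2C.graph (hB : B.RG) (hB' : B'.RG) {i j : ι} (h : R.C i j * R.C j i = 1) {F F' : Type}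
    [Field F] [Field F'] {e : Fin 3 → Fin 3 → F → Γ} {e' : Fin 3 → Fin 3 → F' → Γ'}
    (he : B.A2C i j F e) (he' : B'.A2C i j F' e') (σ : F ≃+* F') {c : F'} (hc : c ≠ 0) :
    ∃ D, B.Graph B' {i, j} D ∧ ∀ t, (e 1 2 t, e' 1 2 (c * σ t)) ∈ D := by
  let d : Fin 3 → F'ˣ := ![Units.mk0 c hc, Units.mk0 c hc, 1]
  have h2 := Ext1.st_comp (he'.st.scale d) σ.toRingHom
  have h3 := he.st.prod h2
  obtain ⟨D, hD⟩ := Ext1.exists_heis h3
  have hm : ∀ a b : Fin 3, a ≠ b → a ≠ 2 → b ≠ 0 → ∀ t,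
      (e a b t, e' a b (d a * ((d b)⁻¹ : F'ˣ) * σ t)) ∈ D := by
    have z1 := h3.zero (a := 0) (b := 1) (by decide)
    have z2 := h3.zero (a := 0) (b := 2) (by decide)
    have z3 := h3.zero (a := 1) (b := 2) (by decide)
    intro a b k1 k2 k3 t
    rw [hD]
    fin_cases a <;> fin_cases b <;> try simp at k1 k2 k3
    · exact ⟨t, 0, 0, by rw [z2, z3, mul_one, mul_one]; rfl⟩
    · exact ⟨0, t, 0, by rw [z1, z3, mul_one, one_mul]; rfl⟩
    · exact ⟨0, 0, t, by rw [z1, z2, mul_one, one_mul]; rfl⟩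
  refine ⟨D, ⟨fun r k1 k2 g hg => ?_, fun r k1 k2 g hg => ?_, fun g hg => ?_⟩, fun t => ?_⟩
  · obtain ⟨a, b, hab, ha, hb, rfl⟩ := Ext1.pos_cases h k1 k2
    obtain ⟨t, rfl⟩ := he.surj a b hab g hg
    exact ⟨_, he'.mem a b hab _, hm a b hab ha hb t⟩
  · obtain ⟨a, b, hab, ha, hb, rfl⟩ := Ext1.pos_cases h k1 k2
    obtain ⟨t, rfl⟩ := he'.surj a b hab g hg
    have := hm a b hab ha hb (σ.symm (d b * ((d a)⁻¹ : F'ˣ) * t))
    rw [σ.apply_symm_apply, show (d a * ((d b)⁻¹ : F'ˣ) * (d b * ((d a)⁻¹ : F'ˣ) * t) : F') = t by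
      simp only [Units.val_inv_eq_inv_val]; field_simp] at this
    exact ⟨_, he.mem a b hab _, this⟩
  · obtain ⟨x, y, z, rfl⟩ := (hD g).1 hg
    exact (Ext1.heis_eq_one he.st (he.inj 0 2 (by decide))).trans (Ext1.heis_eq_one h2 fun t ht => by
      simpa using he'.inj 0 2 (by decide) _ ht).symm
  · simpa [d] using hm 1 2 (by decide) (by decide) (by decide) t

omit [Fintype ι] [DecidableEq ι] [DecidableEq A] in
theorem _root_.Cfsg.Lib.BLD.hua {F F' : Type*} [Field F] [Field F'] [Finite F] (l : F ≃+ F')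
    (h : ∀ t x, t ≠ 0 → l (t⁻¹ ^ 2 * x) * (l 1)⁻¹ ^ 2 = (l t)⁻¹ ^ 2 * l x) :
    ∃ σ : F ≃+* F', ∀ t, l t = l 1 * σ t := by
  have h1 : l 1 ≠ 0 := by simp
  have hsq : ∀ a x, l (a ^ 2 * x) * l 1 = l (a ^ 2) * l x := by
    intro a x
    by_cases ha : a = 0
    · simp [ha]
    have k1 := h a⁻¹ x (inv_ne_zero ha)
    have k2 := h a⁻¹ 1 (inv_ne_zero ha)
    rw [inv_inv] at k1 k2
    rw [mul_one] at k2
    have k3 : (l 1)⁻¹ ^ 2 ≠ 0 := pow_ne_zero _ (inv_ne_zero h1)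
    refine mul_right_cancel₀ k3 ?_
    linear_combination l 1 * k1 - l x * k2
  have hmul : ∀ y x, l (y * x) * l 1 = l y * l x := by
    intro y x
    by_cases h2 : ringChar F = 2
    · obtain ⟨a, rfl⟩ := FiniteField.isSquare_of_char_two h2 y
      rw [← sq, hsq]
    · have h3 : (2 : F) ≠ 0 := Ring.two_ne_zero h2
      have : y = ((y + 1) / 2) ^ 2 - ((y - 1) / 2) ^ 2 := by field_simp; ring
      rw [this, sub_mul, map_sub, map_sub, sub_mul, sub_mul, hsq, hsq]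
  refine ⟨{ l.trans (AddAut.mulLeft (Units.mk0 _ h1)⁻¹) with map_mul' := fun x y => ?_ }, fun t => ?_⟩
  · change (l 1)⁻¹ * l (x * y) = (l 1)⁻¹ * l x * ((l 1)⁻¹ * l y)
    field_simp
    linear_combination hmul x y
  · change l t = l 1 * ((l 1)⁻¹ * l t)
    field_simp

end Bld

end Cfsg.Lib.BLD
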