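import Cfsg.Agent.BLD.Grd1
import Cfsg.Agent.Chev.CurtisTits

/-! # Isomorphisms of residues intertwine the root groups -/

set_option autoImplicit false
set_option linter.unusedSectionVars false
set_option linter.unusedVariables false

namespace Cfsg.Lib.BLD

open Cfsg.Lib.Chev

variable {ι A : Type} [Fintype ι] [DecidableEq ι] [DecidableEq A] {R : WeylData ι A}

namespace IntAux

variable {J : Set ι} {r : A} {u v w : R.W} {l m : ι}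

theorem hf_w0 (hu : u ∈ R.WJ J) (hr : R.InJ J r) : Hf R r (u * R.w0 J) ↔ ¬ Hf R r u := by
  unfold Hf
  rw [mul_inv_rev, R.w0_inv, mul_smul, R.pos_w0_smul_iff (R.inJ_smul (inv_mem hu) hr)]

theorem len_w0 (hu : u ∈ R.WJ J) (hv : v ∈ R.WJ J) :
    R.len (u⁻¹ * v * (v⁻¹ * (u * R.w0 J))) = R.len (u⁻¹ * v) + R.len (v⁻¹ * (u * R.w0 J)) := by
  rw [← len_add_of_hf fun β h1 h2 => by_contra fun h3 => (hf_w0 hu (inJ_of_sep hu hv h1 h3)).1 h2 h1]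
  simp [mul_assoc]

theorem hf_other (hlm : l ≠ m) (hC : R.C m l ≠ 0) (w : R.W) : Hf R (w • R.simple l) (w * R.s m) ∧
    Hf R (w • R.simple l) (w * R.s m * R.s l) := by
  have h1 : Hf R (w • R.simple l) (w * R.s m) := by_contra fun h => hlm (R.simple_injective
    (MulAction.injective w (eq_of_hf_of_not_hf (hf_smul_simple w l).1 h)))
  refine ⟨h1, by_contra fun h => hC ?_⟩
  have e := eq_of_hf_of_not_hf h1 h
  rw [mul_smul, smul_left_cancel_iff] at e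
  have e' := congrFun (congrArg R.rc e) m
  rw [R.rc_smul _ (R.simple_mem l), R.lin_s, R.rc_simple, R.sl_apply, R.a_single] at e'
  simpa [eq_sub_iff_add_eq] using e'

end IntAux

open IntAux

namespace Bld

variable {Γ Ch : Type*} [Group Γ] [MulAction Γ Ch] {B : Bld R Γ Ch}
  {Γ' Ch' : Type*} [Group Γ'] [MulAction Γ' Ch'] {B' : Bld R Γ' Ch'}

section Int
variable {J K : Set ι} {φ ψ : Ch → Ch'} {g h : Γ} {g' h' : Γ'} {i j : ι} {r : A}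

theorem IntB.a_mem {w : R.W} (hw : w ∈ R.WJ J) : B.δ (B.a 1) (B.a w) ∈ R.WJ J := by rwa [δ_a_one]

theorem IntB.isom_left (hφ : B.RIso B' J φ) (hg : g ∈ B.St J (B.a 1)) :
    B.Isom B' J (B.a 1) fun x => φ (g • x) := fun u v hu hv =>
  (hφ.isom _ _ (St.smul_mem hg hu) (St.smul_mem hg hv)).trans (B.δ_smul g u v)

theorem IntB.isom_right (hφ : B.RIso B' J φ) (g' : Γ') :
    B.Isom B' J (B.a 1) fun x => g' • φ x := fun u v hu hv =>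
  (B'.δ_smul g' _ _).trans (hφ.isom u v hu hv)

theorem IntB.U_le_St (hr : R.InJ J r) (hg : g ∈ B.U r) : g ∈ B.St J (B.a 1) := (Br_le_Lev hr hg.1).1

theorem IntB.inj (hφ : B.RIso B' J φ) {x y : Ch} (hx : B.δ (B.a 1) x ∈ R.WJ J)
    (hy : B.δ (B.a 1) y ∈ R.WJ J) (h : φ x = φ y) : x = y :=
  B.δ_eq_one.1 ((hφ.isom x y hx hy).symm.trans (B'.δ_eq_one.2 h))

open IntB

theorem Cmp.one : B.Cmp J φ 1 (1 : Γ') := fun x _ => by rw [one_smul, one_smul]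

theorem Cmp.mul (h1 : B.Cmp J φ g g') (h2 : B.Cmp J φ h h') (hh : h ∈ B.St J (B.a 1)) :
    B.Cmp J φ (g * h) (g' * h') := fun x hx => by
  rw [mul_smul, mul_smul, h1 _ (St.smul_mem hh hx), h2 x hx]

theorem Cmp.inv (h1 : B.Cmp J φ g g') (hg : g ∈ B.St J (B.a 1)) : B.Cmp J φ g⁻¹ g'⁻¹ :=
  fun x hx => by rw [eq_inv_smul_iff, ← h1 _ (St.smul_mem (inv_mem hg) hx), smul_inv_smul]

theorem Cmp.mono (h1 : B.Cmp K φ g g') (h : J ⊆ K) : B.Cmp J φ g g' :=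
  fun x hx => h1 x (R.WJ_mono h hx)

theorem Cmp.congr (h1 : B.Cmp J φ g g') (hg : g ∈ B.St J (B.a 1))
    (h : ∀ x, B.δ (B.a 1) x ∈ R.WJ J → φ x = ψ x) : B.Cmp J ψ g g' := fun x hx => by
  rw [← h x hx, ← h _ (St.smul_mem hg hx), h1 x hx]

theorem RIso.mono (hφ : B.RIso B' K φ) (h : J ⊆ K) : B.RIso B' J φ where
  isom u v hu hv := hφ.isom u v (R.WJ_mono h hu) (R.WJ_mono h hv)
  apt w hw := hφ.apt w (R.WJ_mono h hw)
  surj y hy := by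
    obtain ⟨x, hx, rfl⟩ := hφ.surj y (R.WJ_mono h hy)
    refine ⟨x, ?_, rfl⟩
    rwa [← hφ.isom _ x (a_mem (one_mem _)) hx, hφ.apt 1 (one_mem _)]

theorem RIso.cmp_of (hB : B.RG) (hB' : B'.RG) (hφ : B.RIso B' {i, j} φ) (hij : i ≠ j)
    (hC : R.C i j ≠ 0) (hr : R.InJ {i, j} r) (hg : g ∈ B.U r) (hg' : g' ∈ B'.U r) {w : R.W} {l : ι}
    (hw : w ∈ R.WJ {i, j}) (h1 : Hf R r w) (h2 : ¬ Hf R r (w * R.s l))
    (h : φ (g • B.a (w * R.s l)) = g' • B'.a (w * R.s l)) : B.Cmp {i, j} φ g g' := by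
  obtain rfl := eq_of_hf_of_not_hf h1 h2
  have hl : l ∈ ({i, j} : Set ι) := R.inJ_simple_iff.1 ((R.inJ_smul_iff hw).1 hr)
  have f1 := isom_left hφ (U_le_St hr hg)
  have f2 := isom_right hφ g'
  have hu := mul_mem hw (R.s_mem_WJ hl)
  have hu0 := mul_mem hu (R.w0_mem {i, j})
  have a0 : φ (g • B.a (w * R.s l * R.w0 {i, j})) = g' • φ (B.a (w * R.s l * R.w0 {i, j})) := by
    rw [hg.1 _ ((hf_w0 hu hr).2 h2), hφ.apt _ hu0, hg'.1 _ ((hf_w0 hu hr).2 h2)]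
  rw [← hφ.apt _ hu] at h
  have a1 : ∀ v ∈ R.WJ {i, j}, φ (g • B.a v) = g' • φ (B.a v) := fun v hv =>
    mid_unique (len_w0 hu hv) ((f1 _ _ (a_mem hu) (a_mem hv)).trans (B.δ_a _ _))
      ((f1 _ _ (a_mem hv) (a_mem hu0)).trans (B.δ_a _ _))
      (by beta_reduce; rw [h]; exact (f2 _ _ (a_mem hu) (a_mem hv)).trans (B.δ_a _ _))
      (by beta_reduce; rw [a0]; exact (f2 _ _ (a_mem hv) (a_mem hu0)).trans (B.δ_a _ _))
  obtain ⟨m, hm, hlm, hml, hJ⟩ : ∃ m ∈ ({i, j} : Set ι), l ≠ m ∧ R.C m l ≠ 0 ∧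
      ∀ n ∈ ({i, j} : Set ι), n = l ∨ n = m := by
    rcases hl with rfl | rfl
    · exact ⟨j, by simp, hij, fun e => hC (C_eq_zero_symm e), fun _ hn => hn⟩
    · exact ⟨i, by simp, hij.symm, hC, fun _ hn => Or.symm hn⟩
  obtain ⟨b1, b2⟩ := hf_other hlm hml w
  have hw1 := mul_mem hw (R.s_mem_WJ hm)
  have b3 : ∀ n ∈ ({i, j} : Set ι), Hf R (w • R.simple l) (w * R.s m * R.s n) := fun n hn => by
    rcases hJ n hn with rfl | rfl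
    · exact b2
    · rwa [R.mul_s_mul_s]
  intro x hx
  refine rigid (x := B.a (w * R.s m)) (y := B.a (w * R.s m * R.w0 {i, j}))
    (Bas2L.isom_of f1 (a_mem hw1)) (Bas2L.isom_of f2 (a_mem hw1)) (by rw [B.δ_a, inv_mul_cancel_left]) (a1 _ hw1)
    (fun n hn z hz => ?_) (a1 _ (mul_mem hw1 (R.w0_mem _))) x
    (B.δ_mem_trans (B.δ_mem_symm (a_mem hw1)) hx)
  have hz' := B.δ_mem_trans (a_mem hw1) (hz ▸ R.s_mem_WJ hn)
  rw [((mem_U.1 hg).2 _ n b1 (b3 n hn)).2 z hz, ((mem_U.1 hg').2 _ n b1 (b3 n hn)).2]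
  rw [← hφ.apt _ hw1, hφ.isom _ _ (a_mem hw1) hz', hz]

theorem RIso.left (hB : B.RG) (hB' : B'.RG) (hφ : B.RIso B' {i, j} φ) (hij : i ≠ j)
    (hC : R.C i j ≠ 0) (hr : R.InJ {i, j} r) (hg : g ∈ B.U r) :
    ∃ g' ∈ B'.U r, B.Cmp {i, j} φ g g' := by
  obtain ⟨w, hw, l, hl, rfl⟩ := R.exists_smul_simple_inJ hr
  obtain ⟨h1, h2⟩ := hf_smul_simple w l
  have hu := mul_mem hw (R.s_mem_WJ hl)
  obtain ⟨g', hg', e⟩ := hB'.trOn h1 h2 _ (φ (g • B.a (w * R.s l))) (Grd1.δ_adj w l) (by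
    rw [← hφ.apt w hw, hφ.isom _ _ (a_mem hw) (St.smul_mem (U_le_St hr hg) (a_mem hu)),
      ← hg.1 w h1, B.δ_smul, Grd1.δ_adj])
  exact ⟨g', hg', hφ.cmp_of hB hB' hij hC hr hg hg' hw h1 h2 e.symm⟩

theorem RIso.right (hB : B.RG) (hB' : B'.RG) (hφ : B.RIso B' {i, j} φ) (hij : i ≠ j)
    (hC : R.C i j ≠ 0) (hr : R.InJ {i, j} r) (hg' : g' ∈ B'.U r) :
    ∃ g ∈ B.U r, B.Cmp {i, j} φ g g' := by
  obtain ⟨w, hw, l, hl, rfl⟩ := R.exists_smul_simple_inJ hr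
  obtain ⟨h1, h2⟩ := hf_smul_simple w l
  have hu := mul_mem hw (R.s_mem_WJ hl)
  obtain ⟨x, hx, ex⟩ := hφ.surj _ (St.smul_mem (U_le_St hr hg') (a_mem hu))
  obtain ⟨g, hg, e⟩ := hB.trOn h1 h2 _ x (Grd1.δ_adj w l) (by
    rw [← hφ.isom _ _ (a_mem hw) hx, ex, hφ.apt w hw, ← hg'.1 w h1, B'.δ_smul, Grd1.δ_adj])
  exact ⟨g, hg, hφ.cmp_of hB hB' hij hC hr hg hg' hw h1 h2 (by rw [e, ex])⟩

theorem RIso.eq_one_iff (hB : B.RG) (hB' : B'.RG) (hφ : B.RIso B' J φ) (hr : R.InJ J r)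
    (hg : g ∈ B.U r) (hg' : g' ∈ B'.U r) (h : B.Cmp J φ g g') : g = 1 ↔ g' = 1 := by
  obtain ⟨w, hw, l, hl, rfl⟩ := R.exists_smul_simple_inJ hr
  obtain ⟨h1, h2⟩ := hf_smul_simple w l
  have hu := mul_mem hw (R.s_mem_WJ hl)
  have e := h _ (a_mem hu)
  refine ⟨fun e' => hB'.semireg hg' h1 h2 (Grd1.δ_adj w l) ?_,
    fun e' => hB.semireg hg h1 h2 (Grd1.δ_adj w l) ?_⟩
  · rw [← hφ.apt _ hu, ← e, e', one_smul]
  · rw [e', one_smul] at e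
    exact inj hφ (St.smul_mem (U_le_St hr hg) (a_mem hu)) (a_mem hu) e

theorem RIso.cmp_of_single (hB : B.RG) (hB' : B'.RG) (hφ : B.RIso B' {i, j} φ) (hij : i ≠ j)
    (hC : R.C i j ≠ 0) (hr : R.InJ {i} r) (hg : g ∈ B.U r) (hg' : g' ∈ B'.U r)
    (h : B.Cmp {i} φ g g') : B.Cmp {i, j} φ g g' := by
  obtain ⟨w, hw, l, hl, rfl⟩ := R.exists_smul_simple_inJ hr
  obtain ⟨h1, h2⟩ := hf_smul_simple w l
  have hs : ({i} : Set ι) ⊆ {i, j} := by simp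
  have hu := mul_mem hw (R.s_mem_WJ hl)
  refine hφ.cmp_of hB hB' hij hC (R.inJ_smul (R.WJ_mono hs hw) (R.inJ_simple_iff.2 (hs hl))) hg hg'
    (R.WJ_mono hs hw) h1 h2 ?_
  rw [h _ (a_mem hu), hφ.apt _ (R.WJ_mono hs hu)]

theorem RIso.cmp_H (hφ : B.RIso B' J φ) (hg : g ∈ B.H) (hg' : g' ∈ B'.H)
    (h : ∀ j ∈ J, B.Cmp {j} φ g g') : B.Cmp J φ g g' :=
  rigid (isom_left hφ (H_le_Lev hg).1) (isom_right hφ g') (δ_a_one (R.w0 J))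
    (by rw [hg, hφ.apt 1 (one_mem _), hg']) (fun j hj z hz => h j hj z (hz ▸ R.s_mem_WJ rfl))
    (by rw [hg, hφ.apt _ (R.w0_mem J), hg'])

theorem RIso.lifts (hφ : B.RIso B' {i} φ) (h : B.Cmp {i} φ g g') (hg : B.Lifts g (R.s i))
    (hg' : g' ∈ B'.Lev {i}) : B'.Lifts g' (R.s i) := by
  have hs : R.s i ∈ R.WJ {i} := R.s_mem_WJ rfl
  refine lifts_of_swap hg' ?_ ?_
  · rw [← hφ.apt 1 (one_mem _), ← h _ (a_mem (one_mem _)), hg, mul_one, hφ.apt _ hs]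
  · rw [← hφ.apt _ hs, ← h _ (a_mem hs), hg, R.s_mul_self, hφ.apt 1 (one_mem _)]

end Int

end Bld

end Cfsg.Lib.BLD
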