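import Cfsg.Agent.BLD.Grd3

/-!
# A graph subgroup gives an isomorphism of residues
-/

set_option autoImplicit false
set_option linter.unusedSectionVars false

namespace Cfsg.Lib.BLD

open Cfsg.Lib.Chev

variable {ι A : Type} [Fintype ι] [DecidableEq ι] [DecidableEq A] {R : WeylData ι A}

namespace Bld

variable {Γ Ch : Type*} [Group Γ] [MulAction Γ Ch] {B : Bld R Γ Ch}
  {Γ' Ch' : Type*} [Group Γ'] [MulAction Γ' Ch'] {B' : Bld R Γ' Ch'}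

namespace Ri

variable {J : Set ι} {D : Subgroup (Γ × Γ')} (hD : B.Graph B' J D)
include hD

theorem swap : B'.Graph B J (D.comap (MulEquiv.prodComm : Γ' × Γ ≃* Γ × Γ').toMonoidHom) :=
  ⟨hD.right, hD.left, fun _ h => (hD.inj _ h).symm⟩

theorem lift {T : Set A} (hT : ∀ β ∈ T, R.Pos β ∧ R.InJ J β) {g : Γ} (hg : g ∈ spanX B.U T) :
    ∃ g' ∈ spanX B'.U T, (g, g') ∈ D := by
  have h : spanX B.U T ≤ (D ⊓ (spanX B'.U T).comap (MonoidHom.snd Γ Γ')).map (MonoidHom.fst Γ Γ') :=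
    spanX_le_iff.2 fun r hr g hg => by
      obtain ⟨g', h1, h2⟩ := hD.left r (hT r hr).1 (hT r hr).2 g hg
      exact ⟨(g, g'), ⟨h2, mem_spanX _ hr h1⟩, rfl⟩
  obtain ⟨d, h, rfl⟩ := h hg
  exact ⟨d.2, h.2, h.1⟩

theorem key (hB : B.RG) {w : R.W} (hw : w ∈ R.WJ J) {g : Γ} {g' : Γ'} (h : (g, g') ∈ D)
    (hg : g ∈ spanX B.U {β | R.Pos β ∧ R.InJ J β}) (e : g • B.a w = B.a w) :
    g' • B'.a w = B'.a w := by
  obtain ⟨k, h1, h2⟩ := lift hD (fun _ h => ⟨h.1, h.2.1⟩) (hB.stab_span hw hg e)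
  obtain rfl : k = g' := inv_mul_eq_one.1 ((hD.inj _ (mul_mem (inv_mem h2) h)).1 (inv_mul_cancel g))
  exact span_fix (fun _ h => h.2.2) h1

end Ri

theorem Graph.exists_rIso (hB : B.RG) (hB' : B'.RG) {J : Set ι} {D : Subgroup (Γ × Γ')}
    (hD : B.Graph B' J D) : ∃ φ, B.RIso B' J φ ∧ ∀ r, R.Pos r → R.InJ J r →
      ∀ g ∈ B.U r, ∀ g' ∈ B'.U r, (g, g') ∈ D → B.Cmp J φ g g' := by
  classical
  let E := D ⊓ (spanX B.U {β | R.Pos β ∧ R.InJ J β}).prod (spanX B'.U {β | R.Pos β ∧ R.InJ J β})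
  have h0 : ∀ d ∈ E, ∀ x, B.δ (B.a 1) (d.1 • x) = B.δ (B.a 1) x := fun d hd x => by
    rw [← B.δ_smul d.1 _ x, span_fix (fun _ h => hf_one.2 h.1) hd.2.1]
  let φ : Ch → Ch' := fun x => if h : ∃ d ∈ E, d.1 • B.a (B.δ (B.a 1) x) = x then
    h.choose.2 • B'.a (B.δ (B.a 1) x) else B'.a 1
  have h1 : ∀ d ∈ E, ∀ w ∈ R.WJ J, φ (d.1 • B.a w) = d.2 • B'.a w := fun d hd w hw => by
    have e : B.δ (B.a 1) (d.1 • B.a w) = w := (h0 d hd _).trans (δ_a_one w)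
    have h : ∃ c ∈ E, c.1 • B.a (B.δ (B.a 1) (d.1 • B.a w)) = d.1 • B.a w := ⟨d, hd, by rw [e]⟩
    obtain ⟨h2, h3⟩ := h.choose_spec
    have h4 := mul_mem (inv_mem hd) h2
    have h5 := Ri.key hD hB hw h4.1 h4.2.1 ((mul_smul _ _ _).trans
      (inv_smul_eq_iff.2 ((congrArg (_ • B.a ·) e).symm.trans h3)))
    refine (dif_pos h).trans ((congrArg (_ • B'.a ·) e).trans ?_)
    exact inv_smul_eq_iff.1 ((mul_smul _ _ _).symm.trans h5)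
  have h2 : ∀ x, B.δ (B.a 1) x ∈ R.WJ J → ∃ d ∈ E, ∃ w ∈ R.WJ J, x = d.1 • B.a w := fun x hx =>
    let ⟨g, a, b⟩ := hB.exists_span_smul hx
    let ⟨g', c, d⟩ := Ri.lift hD (fun _ h => h) a
    ⟨(g, g'), ⟨d, a, c⟩, _, hx, b.symm⟩
  have h3 : ∀ d ∈ E, B.Cmp J φ d.1 d.2 := fun d hd x hx => by
    obtain ⟨c, hc, w, hw, rfl⟩ := h2 x hx
    rw [h1 c hc w hw, smul_smul, smul_smul]
    exact h1 _ (mul_mem hd hc) w hw
  have h4 : ∀ w ∈ R.WJ J, φ (B.a w) = B'.a w := fun w hw => by simpa using h1 1 (one_mem _) w hw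
  have h5 : ∀ w ∈ R.WJ J, ∀ i ∈ J, R.Pos (w • R.simple i) → ∀ x y, B.δ (B.a w) x = R.s i →
      B.δ (B.a w) y = R.s i → ∃ d ∈ E, d.1 • x = y ∧ d.2 • B'.a w = B'.a w := by
    intro w hw i hi hp x y hx hy
    have hj := R.inJ_smul hw (R.inJ_simple_iff.2 hi)
    obtain ⟨g, hg, e⟩ := hB.trOn (hf_smul_simple w i).1 (hf_smul_simple w i).2 x y hx hy
    obtain ⟨g', hg', h⟩ := hD.left _ hp hj g hg
    exact ⟨(g, g'), ⟨h, mem_spanX _ (by exact ⟨hp, hj⟩) hg, mem_spanX _ (by exact ⟨hp, hj⟩) hg'⟩, e,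
      hg'.1 w (hf_smul_simple w i).1⟩
  have h6 : ∀ w ∈ R.WJ J, ∀ i ∈ J, ∀ y, B.δ (B.a w) y = R.s i → B'.δ (B'.a w) (φ y) = R.s i := by
    intro w hw i hi y hy
    have hv := mul_mem hw (R.s_mem_WJ hi)
    by_cases hp : R.Pos (w • R.simple i)
    · obtain ⟨d, hd, rfl, e⟩ := h5 w hw i hi hp _ y (Grd1.δ_adj w i) hy
      rw [h1 d hd _ hv, ← e, B'.δ_smul, Grd1.δ_adj]
    by_cases e : B.a (w * R.s i) = y
    · rw [← e, h4 _ hv, Grd1.δ_adj]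
    have e1 : w * R.s i * R.s i = w := by rw [mul_assoc, R.s_mul_self, mul_one]
    obtain ⟨d, hd, rfl, e2⟩ := h5 _ hv i hi (by
      rwa [mul_smul, R.s_smul_simple, R.smul_neg _ (R.simple_mem i),
        R.pos_neg_iff (R.smul_mem _ (R.simple_mem i))]) (B.a w) y
      (by simpa only [e1] using Grd1.δ_adj (B := B) (w * R.s i) i) (panel (Grd1.δ_adj w i) hy e)
    have e3 : B'.δ (B'.a (w * R.s i)) (B'.a w) = R.s i := by
      simpa only [e1] using Grd1.δ_adj (B := B') (w * R.s i) i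
    rw [h1 d hd w hw]
    refine panel e3 (by rw [← e2, B'.δ_smul, e3]) fun e4 => R.s_ne_one i ?_
    rw [← hy, Ri.key (Ri.swap hD) hB' hw (g' := d.1) hd.1 hd.2.2 e4.symm, δ_self]
  have h7 : ∀ x, B.δ (B.a 1) x ∈ R.WJ J → ∀ i ∈ J, ∀ y, B.δ x y = R.s i →
      B'.δ (φ x) (φ y) = R.s i := by
    intro x hx i hi y hy
    obtain ⟨d, hd, w, hw, rfl⟩ := h2 x hx
    obtain ⟨y, rfl⟩ := MulAction.surjective d.1 y
    rw [B.δ_smul] at hy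
    rw [h1 d hd w hw, h3 d hd y (B.δ_mem_trans (by rwa [δ_a_one]) (hy ▸ R.s_mem_WJ hi)), B'.δ_smul]
    exact h6 w hw i hi y hy
  refine ⟨φ, ⟨fun u v hu hv => ?_, h4, fun y hy => ?_⟩, fun r a b g hg g' hg' h =>
    h3 (g, g') ⟨h, mem_spanX _ (by exact ⟨a, b⟩) hg, mem_spanX _ (by exact ⟨a, b⟩) hg'⟩⟩
  · refine R.WJ_induction_pos_right (p := fun t => ∀ v, B.δ u v = t → B'.δ (φ u) (φ v) = t)
      (B.δ_mem_trans (B.δ_mem_symm hu) hv) (fun v e => ?_) (fun i hi w hw hp ih v e => ?_) v rfl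
    · rw [B.δ_eq_one.1 e, δ_self]
    · obtain ⟨z, a, b⟩ := B.δ_ex u v i
      rw [e, mul_assoc, R.s_mul_self, mul_one] at b
      have := B'.δ_up (x := φ u) (h7 z (B.δ_mem_trans hu (b ▸ hw)) i hi v
        (by rw [B.δ_symm, a, R.s_inv])) (by rwa [ih z b])
      rwa [ih z b] at this
  · obtain ⟨g', a, b⟩ := hB'.exists_span_smul hy
    obtain ⟨g, c, d⟩ := Ri.lift (Ri.swap hD) (fun _ h => h) a
    exact ⟨g • B.a _, by rwa [h0 (g, g') ⟨d, c, a⟩, δ_a_one], (h1 (g, g') ⟨d, c, a⟩ _ hy).trans b⟩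

end Bld

end Cfsg.Lib.BLD
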