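import Cfsg.Agent.BLD.A2c
import Cfsg.Agent.BLD.Ext1
import Cfsg.Agent.BLD.Ri
import Cfsg.Agent.BLD.Int

/-!
# Moufang buildings: extending isomorphisms of residues along simple bonds
-/

set_option autoImplicit false
set_option linter.unusedSectionVars false

namespace Cfsg.Lib.BLD

open Cfsg.Lib.Chev Cfsg.Lib.Perm.Plane Configuration

variable {ι A : Type} [Fintype ι] [DecidableEq ι] [DecidableEq A] {R : WeylData ι A}

namespace Bld

variable {Γ Ch : Type*} [Group Γ] [MulAction Γ Ch] {B : Bld R Γ Ch}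
  {Γ' Ch' : Type*} [Group Γ'] [MulAction Γ' Ch'] {B' : Bld R Γ' Ch'}

namespace Ext2

variable {j k : ι} {ψ : Ch → Ch'} {J : Set ι} {r : A}

theorem U_le_Lev (hr : R.InJ J r) : B.U r ≤ B.Lev J := fun _ h => Br_le_Lev hr (mem_U.1 h).1

theorem uniq (hB : B.RG) (hB' : B'.RG) (hψ : B.RIso B' J ψ) (hr : R.InJ J r) {g : Γ} {a b : Γ'}
    (hg : g ∈ B.U r) (ha : a ∈ B'.U r) (hb : b ∈ B'.U r) (h1 : B.Cmp J ψ g a) (h2 : B.Cmp J ψ g b) :
    a = b := by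
  have s := (U_le_Lev hr hg).1
  have := (h1.inv s).mul h2 s
  rw [inv_mul_cancel] at this
  exact inv_mul_eq_one.1 ((hψ.eq_one_iff hB hB' hr (one_mem _) (mul_mem (inv_mem ha) hb) this).1 rfl)

theorem exists_add (hB : B.RG) (hB' : B'.RG) (hψ : B.RIso B' {j, k} ψ) (hk : j ≠ k)
    (hC : R.C j k ≠ 0) (hr : R.InJ {j, k} r) {F F' : Type} [Field F] [Field F'] {f : F → Γ}
    {f' : F' → Γ'} (a : ∀ t u, f t * f u = f (t + u)) (a' : ∀ t u, f' t * f' u = f' (t + u))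
    (m : ∀ t, f t ∈ B.U r) (m' : ∀ t, f' t ∈ B'.U r) (i : ∀ t, f t = 1 → t = 0)
    (i' : ∀ t, f' t = 1 → t = 0) (s : ∀ g ∈ B.U r, ∃ t, f t = g) (s' : ∀ g ∈ B'.U r, ∃ t, f' t = g) :
    ∃ l : F ≃+ F', ∀ t t', B.Cmp {j, k} ψ (f t) (f' t') ↔ l t = t' := by
  have ex : ∀ t, ∃ t', B.Cmp {j, k} ψ (f t) (f' t') := fun t => by
    obtain ⟨g, hg, h⟩ := hψ.left hB hB' hk hC hr (m t)
    obtain ⟨t', rfl⟩ := s' g hg
    exact ⟨t', h⟩
  choose l hl using ex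
  have un : ∀ {t t'}, B.Cmp {j, k} ψ (f t) (f' t') → l t = t' := fun {t t'} h => by
    have e := uniq hB hB' hψ hr (m t) (m' _) (m' _) (hl t) h
    refine sub_eq_zero.1 (i' _ (mul_right_cancel (b := f' t') ?_))
    rw [a', sub_add_cancel, e, one_mul]
  have ad : ∀ t u, l (t + u) = l t + l u := fun t u =>
    un (a t u ▸ a' _ _ ▸ (hl t).mul (hl u) (U_le_Lev hr (m u)).1)
  refine ⟨AddEquiv.ofBijective (AddMonoidHom.mk' l ad) ⟨(injective_iff_map_eq_zero _).2 fun t e =>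
    i t ((hψ.eq_one_iff hB hB' hr (m t) (m' _) (hl t)).2 ?_), fun t' => ?_⟩,
    fun t t' => ⟨un, fun e => e ▸ hl t⟩⟩
  · rw [show l t = 0 from e]
    simpa using a' 0 0
  · obtain ⟨g, hg, h⟩ := hψ.right hB hB' hk hC hr (m' t')
    obtain ⟨t, rfl⟩ := s g hg
    exact ⟨t, un h⟩

end Ext2

section Ext
variable [Finite Γ] [Finite Ch] [Finite Γ'] [Finite Ch'] {i j k : ι}

theorem ext_base (hB : B.RG) (hB' : B'.RG) (h : R.C i j * R.C j i = 1) (hq : B.q j = B'.q j) :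
    ∃ φ, B.RIso B' {i, j} φ := by
  obtain ⟨F, _, _, e, c, he⟩ := hB.exists_a2c h
  obtain ⟨F', _, _, e', c', he'⟩ := hB'.exists_a2c h
  have := Fintype.ofFinite F
  have := Fintype.ofFinite F'
  obtain ⟨D, hD, -⟩ := he.graph hB hB' h he' (FiniteField.ringEquivOfCardEq (by
    rw [← Nat.card_eq_fintype_card, ← Nat.card_eq_fintype_card, c, c', hq])) one_ne_zero
  exact (hD.exists_rIso hB hB').imp fun _ h => h.1

open Ext2 in
theorem ext_step (hB : B.RG) (hB' : B'.RG) (h : R.C i j * R.C j i = 1) (hk : j ≠ k)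
    (hC : R.C j k ≠ 0) {ψ : Ch → Ch'} (hψ : B.RIso B' {j, k} ψ) :
    ∃ φ, B.RIso B' {i, j} φ ∧ ∀ x, B.δ (B.a 1) x ∈ R.WJ {j} → φ x = ψ x := by
  obtain ⟨F, _, _, e, -, he⟩ := hB.exists_a2c h
  obtain ⟨F', _, _, e', -, he'⟩ := hB'.exists_a2c h
  have n12 : (1 : Fin 3) ≠ 2 := by decide
  have n20 : (2 : Fin 3) ≠ 0 := by decide
  have n10 : (1 : Fin 3) ≠ 0 := by decide
  have p0 : R.InJ {j} (R.simple j) := R.inJ_simple_iff.2 rfl
  have p1 : R.InJ {j, k} (R.simple j) := R.inJ_simple_iff.2 (.inl rfl)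
  have p2 : R.InJ {i, j} (R.simple j) := R.inJ_simple_iff.2 (.inr rfl)
  have m : ∀ t, e 1 2 t ∈ B.U (R.simple j) := he.mem 1 2 n12
  have m' : ∀ t, e' 1 2 t ∈ B'.U (R.simple j) := he'.mem 1 2 n12
  have o : ∀ t, e 2 1 t ∈ B.U (R.neg (R.simple j)) := he.mem 2 1 n12.symm
  have o' : ∀ t, e' 2 1 t ∈ B'.U (R.neg (R.simple j)) := he'.mem 2 1 n12.symm
  obtain ⟨l, hl⟩ := exists_add hB hB' hψ hk hC p1 (he.st.add 1 2 n12) (he'.st.add 1 2 n12) m m'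
    (he.inj 1 2 n12) (he'.inj 1 2 n12) (he.surj 1 2 n12) (he'.surj 1 2 n12)
  obtain ⟨l', hl'⟩ := exists_add hB hB' hψ hk hC (R.inJ_neg p1) (he.st.add 2 1 n12.symm)
    (he'.st.add 2 1 n12.symm) o o' (he.inj 2 1 n12.symm) (he'.inj 2 1 n12.symm)
    (he.surj 2 1 n12.symm) (he'.surj 2 1 n12.symm)
  have sub : ({j} : Set ι) ⊆ {j, k} := fun _ => .inl
  have hp := hf_smul_simple (R := R) 1 j
  have hn := hf_smul_simple (R := R) (R.s j) j
  rw [one_smul, one_mul] at hp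
  rw [R.s_smul_simple, R.s_mul_self] at hn
  have s1 := fun t => (U_le_Lev p1 (m t)).1
  have s2 := fun t => (U_le_Lev (R.inJ_neg p1) (o t)).1
  have cw : ∀ t, t ≠ 0 → B.Cmp {j, k} ψ (stW e 1 2 t) (stW e' 1 2 (l t)) := fun t ht => by
    have c := (((hl t _).2 rfl).mul ((hl' (-t⁻¹) _).2 rfl) (s2 _)).mul ((hl t _).2 rfl) (s1 _)
    have a := (hψ.mono sub).lifts (c.mono sub) (he.lift_j t ht)
      (mul_mem (mul_mem (U_le_Lev p0 (m' _)) (U_le_Lev (R.inJ_neg p0) (o' _))) (U_le_Lev p0 (m' _))) 1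
    have b := he'.lift_j (l t) (by simpa using ht) 1
    have f : e' 1 2 (l t) • B'.a 1 = B'.a 1 := (mem_U.1 (m' _)).1 1 hp.1
    rw [← b, stW, mul_smul, mul_smul, mul_smul, mul_smul, f, smul_left_cancel_iff] at a
    have := hB'.semireg (mul_mem (inv_mem (o' (-(l t)⁻¹))) (o' (l' (-t⁻¹)))) hn.1
      (by rw [R.s_mul_self]; exact hn.2) (y := B'.a 1) (by simp [B'.δ_a])
      (by rw [mul_smul, a, inv_smul_smul])
    rwa [← inv_mul_eq_one.1 this] at c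
  have k1 : ∀ t, t ≠ 0 → ∀ x, l' (-t⁻¹ ^ 2 * x) = -(l t)⁻¹ ^ 2 * l x := fun t ht x => by
    have s : stW e 1 2 t ∈ B.St {j, k} (B.a 1) := mul_mem (mul_mem (s1 _) (s2 _)) (s1 _)
    have c := ((cw t ht).mul ((hl x _).2 rfl) (s1 x)).mul ((cw t ht).inv s) (inv_mem s)
    rw [he.st.stW_ab n12 n20 n10 ht, he'.st.stW_ab n12 n20 n10 (by simpa using ht)] at c
    exact (hl' _ _).1 c
  obtain ⟨σ, hσ⟩ := hua l fun t x ht => by
    have a := k1 1 one_ne_zero (t⁻¹ ^ 2 * x)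
    rw [inv_one, one_pow, neg_one_mul, ← neg_mul, k1 t ht] at a
    linear_combination a
  obtain ⟨D, hD, hd⟩ := he.graph hB hB' h he' σ (c := l 1) (by simp)
  obtain ⟨φ, hφ, hc⟩ := hD.exists_rIso hB hB'
  refine ⟨φ, hφ, fun x hx => ?_⟩
  rcases δ_mem_single.1 hx with rfl | hx
  · rw [hφ.apt 1 (one_mem _), hψ.apt 1 (one_mem _)]
  · obtain ⟨g, hg, rfl⟩ := hB.mouf j (B.a (R.s j)) x (δ_a_one _) hx
    obtain ⟨t, rfl⟩ := he.surj 1 2 n12 g hg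
    have w1 : R.s j ∈ R.WJ {i, j} := R.s_mem_WJ (.inr rfl)
    have w2 : R.s j ∈ R.WJ {j, k} := R.s_mem_WJ (.inl rfl)
    rw [hc _ (R.pos_simple j) p2 _ (m t) _ (m' _) (hd t) _ (by rwa [δ_a_one]),
      (hl t _).2 (hσ t) _ (by rwa [δ_a_one]), hφ.apt _ w1, hψ.apt _ w2]

end Ext

end Bld

end Cfsg.Lib.BLD
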