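import Cfsg.Agent.BLD.Int
import Cfsg.Agent.BLD.Grd3
import Cfsg.Agent.BLD.Rt2

/-!
# The fibre product datum of two Moufang buildings with matching residues
-/

set_option autoImplicit false
set_option linter.unusedSectionVars false

namespace Cfsg.Lib.BLD

open Cfsg.Lib.Chev Subgroup

variable {ι A : Type} [Fintype ι] [DecidableEq ι] [DecidableEq A] {R : WeylData ι A}

namespace Bld

variable {Γ Ch : Type*} [Group Γ] [MulAction Γ Ch] {B : Bld R Γ Ch}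
  {Γ' Ch' : Type*} [Group Γ'] [MulAction Γ' Ch'] {B' : Bld R Γ' Ch'}

namespace Fib1

section Dih

variable {G : Type*} [Group G] {a b : G}

theorem dih (ha : a * a = 1) (hb : b * b = 1) (h k : ℕ) :
    (a * b) ^ h * ((a * b) ^ k * a⁻¹) * ((a * b) ^ h)⁻¹ * b⁻¹ = (a * b) ^ (2 * h + k + 1) := by
  have e : a * (a * b)⁻¹ * a⁻¹ = a * b := by
    rw [mul_inv_rev, inv_eq_of_mul_eq_one_right ha, inv_eq_of_mul_eq_one_right hb, mul_assoc,
      mul_assoc, ha, mul_one]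
  calc _ = (a * b) ^ h * (a * b) ^ k * (a * (a * b)⁻¹ * a⁻¹) ^ h * (a * b⁻¹) := by
        rw [conj_pow, inv_pow, inv_eq_of_mul_eq_one_right ha]
        simp only [mul_assoc, ← mul_assoc a a, ha, one_mul]
    _ = _ := by rw [e, inv_eq_of_mul_eq_one_right hb, ← pow_add, ← pow_add, ← pow_succ]; congr 1; ring

theorem dih_mem {H : Subgroup G} (ha : a ∈ normalizer (H : Set G)) (hb : b ∈ normalizer (H : Set G))
    (a2 : a * a ∈ H) (b2 : b * b ∈ H) {h k : ℕ}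
    (e : (a * b) ^ h * ((a * b) ^ k * a⁻¹) * ((a * b) ^ h)⁻¹ * b⁻¹ ∈ H) :
    (a * b) ^ (2 * h + k + 1) ∈ H := by
  let π := QuotientGroup.mk' (H.subgroupOf (normalizer (H : Set G)))
  have k1 : ∀ x : normalizer (H : Set G), π x = 1 ↔ x.1 ∈ H := fun x => QuotientGroup.eq_one_iff x
  refine (k1 ((⟨a, ha⟩ * ⟨b, hb⟩) ^ (2 * h + k + 1))).1 ?_
  rw [map_pow, map_mul, ← dih (by rw [← map_mul, k1]; exact a2) (by rw [← map_mul, k1]; exact b2)]
  simp only [← map_mul, ← map_pow, ← map_inv]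
  exact (k1 _).2 e

end Dih

variable {J : Set ι} {φ ψ : Ch → Ch'} {θ : ι → Ch → Ch'} {i j k l : ι} {r s : A} {g : Γ} {g' : Γ'}
  {d e : Γ × Γ'} {v w : R.W}

theorem eq_or_neg (h : w * R.s k * w⁻¹ * (R.s j)⁻¹ = 1) :
    w • R.simple k = R.simple j ∨ R.neg (w • R.simple k) = R.simple j := by
  have h1 := R.smul_mem w (R.simple_mem k)
  have h2 : R.s j • w • R.simple k = R.neg (w • R.simple k) := by
    rw [← mul_inv_eq_one.1 h, smul_smul, inv_mul_cancel_right, mul_smul, R.s_smul_simple,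
      R.smul_neg _ (R.simple_mem k)]
  by_cases p : R.Pos (w • R.simple k)
  · exact .inl (R.eq_simple_of_not_pos_s_smul p (by rw [h2, R.pos_neg_iff h1]; exact not_not.2 p))
  · exact .inr (R.eq_simple_of_not_pos_s_smul ((R.pos_neg_iff h1).2 p) (by
      rwa [R.smul_neg _ h1, h2, R.neg_neg h1]))

theorem inJ_l : R.InJ {i, j} (R.simple i) := R.inJ_simple_iff.2 (.inl rfl)

theorem inJ_pm (h : r = R.simple i ∨ r = R.neg (R.simple i)) (hi : i ∈ J) : R.InJ J r := by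
  rcases h with rfl | rfl
  exacts [R.inJ_simple_iff.2 hi, R.inJ_neg (R.inJ_simple_iff.2 hi)]

theorem fix_panel (hB : B.RG) (hg : g ∈ B.H) (h : ∀ u ∈ B.U (R.simple l), Commute g u) {x : Ch}
    (hx : B.δ (B.a 1) x ∈ R.WJ {l}) : g • x = x := by
  rcases δ_mem_single.1 hx with rfl | hx
  · exact hg 1
  · obtain ⟨u, hu, rfl⟩ := hB.mouf l _ _ (δ_a_one (R.s l)) hx
    rw [smul_smul, (h u hu).eq, mul_smul, hg]

theorem H_le_St : B.H ≤ B.St J (B.a 1) := H_le_Lev.trans inf_le_left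

theorem U_le_Lev (hr : R.InJ J r) : B.U r ≤ B.Lev J := fun _ h => Br_le_Lev hr h.1

variable (B B')

/-- `d` induces `w` on both apartments. -/
def L2 (d : Γ × Γ') (w : R.W) : Prop := B.Lifts d.1 w ∧ B'.Lifts d.2 w

/-- Pairs of corresponding elements of the Levi subgroups. -/
noncomputable def Cg (J : Set ι) (φ : Ch → Ch') : Subgroup (Γ × Γ') where
  carrier := {d | d.1 ∈ B.Lev J ∧ d.2 ∈ B'.Lev J ∧ B.Cmp J φ d.1 d.2}
  one_mem' := ⟨one_mem _, one_mem _, Cmp.one⟩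
  mul_mem' h k := ⟨mul_mem h.1 k.1, mul_mem h.2.1 k.2.1, h.2.2.mul k.2.2 k.1.1⟩
  inv_mem' h := ⟨inv_mem h.1, inv_mem h.2.1, h.2.2.inv h.1.1⟩

variable (θ)

/-- An isomorphism of rank two residues which extends the given maps of panels. -/
structure Good (i j : ι) (φ : Ch → Ch') : Prop where
  ne : i ≠ j
  C : R.C i j ≠ 0
  iso : B.RIso B' {i, j} φ
  l : ∀ x, B.δ (B.a 1) x ∈ R.WJ {i} → φ x = θ i x
  r : ∀ x, B.δ (B.a 1) x ∈ R.WJ {j} → φ x = θ j x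

/-- The root groups. -/
noncomputable def X (r : A) : Subgroup (Γ × Γ') :=
  (B.U r).prod (B'.U r) ⊓ ⨅ (i) (j) (φ) (_ : Good B B' θ i j φ) (_ : R.InJ {i, j} r), Cg B B' {i, j} φ

/-- The torus. -/
noncomputable def T : Subgroup (Γ × Γ') := B.H.prod B'.H ⊓ ⨅ i, Cg B B' {i} (θ i)

/-- The rank one subgroups. -/
noncomputable def K (r : A) : Subgroup (Γ × Γ') := X B B' θ r ⊔ X B B' θ (R.neg r)

/-- The root lies in an irreducible standard subsystem of rank two. -/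
def Ok (r : A) : Prop := ∃ i j φ, Good B B' θ i j φ ∧ R.InJ {i, j} r

/-- The hypotheses. -/
structure Ctx : Prop where
  hB : B.RG
  hB' : B'.RG
  ex : ∀ i j, i ≠ j → R.C i j ≠ 0 → ∃ φ, Good B B' θ i j φ

variable {B B' θ}

theorem L2.mul (h : L2 B B' d v) (k : L2 B B' e w) : L2 B B' (d * e) (v * w) :=
  ⟨h.1.mul k.1, h.2.mul k.2⟩

theorem L2.inv (h : L2 B B' d v) : L2 B B' d⁻¹ v⁻¹ := ⟨h.1.inv, h.2.inv⟩

theorem L2.of (h : d ∈ T B B' θ) : L2 B B' d 1 := ⟨lifts_one_iff.2 h.1.1, lifts_one_iff.2 h.1.2⟩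

theorem L2.pow (h : L2 B B' d v) (n : ℕ) : L2 B B' (d ^ n) (v ^ n) := by
  induction n with
  | zero => rw [pow_zero, pow_zero]; exact ⟨lifts_one_iff.2 (one_mem _), lifts_one_iff.2 (one_mem _)⟩
  | succ n ih => rw [pow_succ, pow_succ]; exact ih.mul h

theorem X_iff : d ∈ X B B' θ r ↔ (d.1 ∈ B.U r ∧ d.2 ∈ B'.U r) ∧
    ∀ i j φ, Good B B' θ i j φ → R.InJ {i, j} r → d ∈ Cg B B' {i, j} φ := by
  simp only [X, mem_inf, mem_prod, mem_iInf]

theorem X_le (h : Good B B' θ i j φ) (hr : R.InJ {i, j} r) : X B B' θ r ≤ Cg B B' {i, j} φ :=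
  fun _ hd => (X_iff.1 hd).2 i j φ h hr

theorem K_le (h : Good B B' θ i j φ) (hr : R.InJ {i, j} r) : K B B' θ r ≤ Cg B B' {i, j} φ :=
  sup_le (X_le h hr) (X_le h (R.inJ_neg hr))

theorem K_le_prod : K B B' θ r ≤ (B.U r ⊔ B.U (R.neg r)).prod (B'.U r ⊔ B'.U (R.neg r)) :=
  sup_le (inf_le_left.trans (prod_mono le_sup_left le_sup_left))
    (inf_le_left.trans (prod_mono le_sup_right le_sup_right))

theorem K_neg (hr : r ∈ R.Φ) : K B B' θ (R.neg r) = K B B' θ r := by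
  rw [K, R.neg_neg hr, sup_comm, K]

theorem mem_K (h : r = s ∨ r = R.neg s) (hd : d ∈ X B B' θ r) : d ∈ K B B' θ s := by
  rcases h with rfl | rfl
  exacts [mem_sup_left hd, mem_sup_right hd]

namespace Good

theorem symm (h : Good B B' θ i j φ) : Good B B' θ j i φ :=
  ⟨h.ne.symm, fun e => h.C (C_eq_zero_symm e), Set.pair_comm i j ▸ h.iso, h.r, h.l⟩

theorem agree (h : Good B B' θ i j φ) (k : Good B B' θ i j ψ) :
    ∀ x, B.δ (B.a 1) x ∈ R.WJ {i, j} → φ x = ψ x :=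
  rigid h.iso.isom k.iso.isom (δ_a_one _)
    ((h.iso.apt 1 (one_mem _)).trans (k.iso.apt 1 (one_mem _)).symm)
    (by
      rintro l (rfl | rfl) z e
      · have := δ_mem_single.2 (.inr e)
        exact (h.l z this).trans (k.l z this).symm
      · have := δ_mem_single.2 (.inr e)
        exact (h.r z this).trans (k.r z this).symm)
    ((h.iso.apt _ (R.w0_mem _)).trans (k.iso.apt _ (R.w0_mem _)).symm)

theorem to_θ (h : Good B B' θ i j φ) (c : B.Cmp {i, j} φ g g') (hg : g ∈ B.St {i} (B.a 1)) :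
    B.Cmp {i} (θ i) g g' := (c.mono (by simp)).congr hg h.l

theorem of_θ (h : Good B B' θ i j φ) (c : B.Cmp {i} (θ i) g g') (hg : g ∈ B.St {i} (B.a 1)) :
    B.Cmp {i} φ g g' := c.congr hg fun x hx => (h.l x hx).symm

theorem T_le (h : Good B B' θ i j φ) : T B B' θ ≤ Cg B B' {i, j} φ := fun d hd =>
  ⟨H_le_Lev hd.1.1, H_le_Lev hd.1.2, h.iso.cmp_H hd.1.1 hd.1.2 (by
    rintro l (rfl | rfl)
    exacts [h.of_θ (mem_iInf.1 hd.2 l).2.2 (H_le_St hd.1.1),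
      h.symm.of_θ (mem_iInf.1 hd.2 l).2.2 (H_le_St hd.1.1)])⟩

end Good

namespace Ctx

variable (c : Ctx B B' θ)
include c

theorem good (i : ι) : ∃ j φ, Good B B' θ i j φ :=
  let ⟨j, h1, h2⟩ := c.hB.deep i
  let ⟨φ, h⟩ := c.ex j i h1 h2
  ⟨j, φ, h.symm⟩

theorem iso (i : ι) : B.RIso B' {i} (θ i) := by
  obtain ⟨j, φ, h⟩ := c.good i
  have k : B.RIso B' {i} φ := h.iso.mono (by simp)
  refine ⟨fun u v hu hv => ?_, fun w hw => ?_, fun y hy => ?_⟩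
  · rw [← h.l u hu, ← h.l v hv, k.isom u v hu hv]
  · rw [← h.l _ (by rwa [δ_a_one]), k.apt w hw]
  · obtain ⟨x, hx, e⟩ := k.surj y hy
    exact ⟨x, hx, (h.l x hx).symm.trans e⟩

theorem single (h : Good B B' θ i j φ) (h' : Good B B' θ k l ψ) (hr : R.InJ {i} r)
    (hr' : R.InJ {k, l} r) (h1 : g ∈ B.U r) (h2 : g' ∈ B'.U r) (e : B.Cmp {i, j} φ g g') :
    B.Cmp {k, l} ψ g g' := by
  have hg := (U_le_Lev hr h1).1
  have key : ∀ {l}, Good B B' θ i l ψ → B.Cmp {i, l} ψ g g' := fun h' =>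
    h'.iso.cmp_of_single c.hB c.hB' h'.ne h'.C hr h1 h2 (h'.of_θ (h.to_θ e hg) hg)
  obtain ⟨m, hm, e1⟩ := R.inJ_pair_of_eq_zero (i := i) (.inl rfl) (by rwa [Set.pair_eq_singleton])
  obtain rfl : m = i := by simpa using hm
  have : R.InJ {k, l} (R.simple m) := by
    rcases e1 with rfl | rfl
    exacts [hr', R.neg_neg (R.simple_mem m) ▸ R.inJ_neg hr']
  rcases R.inJ_simple_iff.1 this with rfl | rfl
  exacts [key h', Set.pair_comm m k ▸ key h'.symm]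

theorem mem_X (h : Good B B' θ i j φ) (hr : R.InJ {i, j} r) (h1 : d.1 ∈ B.U r) (h2 : d.2 ∈ B'.U r)
    (e : B.Cmp {i, j} φ d.1 d.2) : d ∈ X B B' θ r := by
  refine X_iff.2 ⟨⟨h1, h2⟩, fun k l ψ h' hr' => ⟨U_le_Lev hr' h1, U_le_Lev hr' h2, ?_⟩⟩
  by_cases hi : i ∈ ({k, l} : Set ι)
  · by_cases hj : j ∈ ({k, l} : Set ι)
    · have hg := (U_le_Lev hr h1).1
      rcases hi with rfl | rfl <;> rcases hj with rfl | rfl
      exacts [absurd rfl h.ne, e.congr hg (h.agree h'),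
        Set.pair_comm i j ▸ e.congr hg (h.agree h'.symm), absurd rfl h.ne]
    · refine c.single h h' ⟨hr.1, fun m hm => ?_⟩ hr' h1 h2 e
      by_cases e : m = j
      exacts [hr'.2 m (e ▸ hj), hr.2 m (by rintro (h | h); exacts [hm h, e h])]
  · refine c.single h.symm h' ⟨hr.1, fun m hm => ?_⟩ hr' h1 h2 (Set.pair_comm i j ▸ e)
    by_cases e : m = i
    exacts [hr'.2 m (e ▸ hi), hr.2 m (by rintro (h | h); exacts [e h, hm h])]

theorem cases (i j : ι) : (∃ φ, Good B B' θ i j φ) ∨ i = j ∨ R.C i j = 0 ∧ R.C j i = 0 := by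
  by_cases h : i = j
  · exact .inr (.inl h)
  by_cases h' : R.C i j = 0
  exacts [.inr (.inr ⟨h', C_eq_zero_symm h'⟩), .inl (c.ex i j h h')]

theorem ok (hr : R.InJ {i, j} r) : Ok B B' θ r := by
  rcases c.cases i j with ⟨φ, h⟩ | h
  · exact ⟨i, j, φ, h, hr⟩
  · obtain ⟨k, -, e⟩ := R.inJ_pair_of_eq_zero h hr
    obtain ⟨l, φ, h⟩ := c.good k
    exact ⟨k, l, φ, h, inJ_pm e (.inl rfl)⟩

theorem left (hr : R.InJ {i, j} r) (hg : g ∈ B.U r) : ∃ g', (g, g') ∈ X B B' θ r :=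
  let ⟨_, _, _, h, hr⟩ := c.ok hr
  let ⟨g', h1, h2⟩ := h.iso.left c.hB c.hB' h.ne h.C hr hg
  ⟨g', c.mem_X h hr hg h1 h2⟩

theorem right (hr : R.InJ {i, j} r) (hg : g' ∈ B'.U r) : ∃ g, (g, g') ∈ X B B' θ r :=
  let ⟨_, _, _, h, hr⟩ := c.ok hr
  let ⟨g, h1, h2⟩ := h.iso.right c.hB c.hB' h.ne h.C hr hg
  ⟨g, c.mem_X h hr h1 hg h2⟩

theorem le_map (hr : R.InJ {i, j} r) : B.U r ≤ (X B B' θ r).map (MonoidHom.fst _ _) := fun _ hg =>
  let ⟨_, h⟩ := c.left hr hg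
  ⟨_, h, rfl⟩

theorem eq_one (hr : R.InJ {i, j} r) (hd : d ∈ X B B' θ r) : d.1 = 1 ↔ d.2 = 1 :=
  let ⟨_, _, _, h, hr⟩ := c.ok hr
  h.iso.eq_one_iff c.hB c.hB' hr hd.1.1 hd.1.2 (X_le h hr hd).2.2

theorem K_θ : K B B' θ (R.simple i) ≤ Cg B B' {i} (θ i) := fun _ hd =>
  let ⟨_, _, h⟩ := c.good i
  have hr : R.InJ {i} (R.simple i) := R.inJ_simple_iff.2 rfl
  have h1 := sup_le (U_le_Lev hr) (U_le_Lev (R.inJ_neg hr)) (K_le_prod hd).1
  ⟨h1, sup_le (U_le_Lev hr) (U_le_Lev (R.inJ_neg hr)) (K_le_prod hd).2,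
    h.to_θ (K_le h inJ_l hd).2.2 h1.1⟩

theorem lift (hd : d ∈ K B B' θ (R.simple i)) (h : B.Lifts d.1 (R.s i)) : L2 B B' d (R.s i) :=
  ⟨h, (c.iso i).lifts (c.K_θ hd).2.2 h (c.K_θ hd).2.1⟩

theorem commute (h : R.C i j = 0) (hd : d ∈ K B B' θ (R.simple i)) (he : e ∈ K B B' θ (R.simple j)) :
    Commute d e :=
  Prod.ext (c.hB.commute_C0 h (K_le_prod hd).1 (K_le_prod he).1)
    (c.hB'.commute_C0 h (K_le_prod hd).2 (K_le_prod he).2)

theorem mem_T (hd : d ∈ K B B' θ (R.simple i)) (h : L2 B B' d w) (hw : w = 1) : d ∈ T B B' θ := by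
  subst hw
  have h1 := lifts_one_iff.1 h.1
  have h2 := lifts_one_iff.1 h.2
  refine ⟨⟨h1, h2⟩, mem_iInf.2 fun l => ⟨H_le_Lev h1, H_le_Lev h2, ?_⟩⟩
  rcases c.cases i l with ⟨φ, k⟩ | rfl | ⟨k, -⟩
  · exact k.symm.to_θ (Set.pair_comm i l ▸ (K_le k inJ_l hd).2.2) (H_le_St h1)
  · exact (c.K_θ hd).2.2
  · intro x hx
    rw [fix_panel c.hB h1 (fun u hu => c.hB.commute_C0 k (K_le_prod hd).1 (mem_sup_left hu)) hx,
      fix_panel c.hB' h2 fun u hu => c.hB'.commute_C0 k (K_le_prod hd).2 (mem_sup_left hu)]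
    rwa [← (c.iso l).apt 1 (one_mem _), (c.iso l).isom _ _ (by rw [δ_self]; exact one_mem _) hx]

theorem conj (h : Good B B' θ i j φ) (hr : R.InJ {i, j} r) (hw : w ∈ R.WJ {i, j})
    (h1 : e ∈ Cg B B' {i, j} φ) (h2 : L2 B B' e w) (hd : d ∈ X B B' θ r) :
    e * d * e⁻¹ ∈ X B B' θ (w • r) :=
  c.mem_X h (R.inJ_smul hw hr) (h2.1.conj_U.2 hd.1.1) (h2.2.conj_U.2 hd.1.2)
    (mul_mem (mul_mem h1 (X_le h hr hd)) (inv_mem h1)).2.2

theorem T_conj (hr : R.InJ {i, j} r) (he : e ∈ T B B' θ) (hd : d ∈ X B B' θ r) :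
    e * d * e⁻¹ ∈ X B B' θ r :=
  let ⟨_, _, _, h, hr⟩ := c.ok hr
  one_smul R.W r ▸ c.conj h hr (one_mem _) (h.T_le he) (.of he) hd

theorem n_conj (hr : R.InJ {i, j} r) (he : e ∈ K B B' θ (R.simple i)) (h2 : L2 B B' e (R.s i))
    (hd : d ∈ X B B' θ r) : e * d * e⁻¹ ∈ X B B' θ (R.s i • r) := by
  have k : ∀ {j φ}, Good B B' θ i j φ → R.InJ {i, j} r → _ := fun h hr =>
    c.conj h hr (R.s_mem_WJ (.inl rfl)) (K_le h inJ_l he) h2 hd
  rcases c.cases i j with ⟨φ, h⟩ | h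
  · exact k h hr
  obtain ⟨l, hl, e1⟩ := R.inJ_pair_of_eq_zero h hr
  by_cases e2 : l = i
  · obtain ⟨j, φ, h⟩ := c.good i
    exact k h (inJ_pm (e2 ▸ e1) (.inl rfl))
  obtain rfl : l = j := hl.resolve_left e2
  have h0 := (h.resolve_left (Ne.symm e2)).1
  have e3 : R.s i • R.simple l = R.simple l := by
    rw [R.s_smul i (R.simple_mem l), WeylData.σ_simple_of_eq_zero h0]
  have e4 : R.s i • r = r := by
    rcases e1 with rfl | rfl
    exacts [e3, by rw [R.smul_neg _ (R.simple_mem l), e3]]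
  rwa [e4, (c.commute h0 he (mem_K e1 hd)).eq, mul_inv_cancel_right]

omit c in
theorem conj_K (h1 : ∀ d ∈ X B B' θ r, e * d * e⁻¹ ∈ X B B' θ s)
    (h2 : ∀ d ∈ X B B' θ (R.neg r), e * d * e⁻¹ ∈ X B B' θ (R.neg s)) (hd : d ∈ K B B' θ r) :
    e * d * e⁻¹ ∈ K B B' θ s :=
  (sup_le (fun d hd => mem_sup_left (h1 d hd)) fun d hd => mem_sup_right (h2 d hd) :
    K B B' θ r ≤ (K B B' θ s).comap (MulAut.conj e).toMonoidHom) hd

theorem n_conj_K (hr : R.InJ {i, j} r) (he : e ∈ K B B' θ (R.simple i)) (h2 : L2 B B' e (R.s i))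
    (hd : d ∈ K B B' θ r) : e * d * e⁻¹ ∈ K B B' θ (R.s i • r) :=
  conj_K (fun _ => c.n_conj hr he h2)
    (fun _ hd => R.smul_neg _ hr.1 ▸ c.n_conj (R.inJ_neg hr) he h2 hd) hd

theorem n_T (he : e ∈ K B B' θ (R.simple i)) (h2 : L2 B B' e (R.s i)) (hd : d ∈ T B B' θ) :
    e * d * e⁻¹ ∈ T B B' θ := by
  have h1 : d⁻¹ * e * d⁻¹⁻¹ ∈ K B B' θ (R.simple i) :=
    conj_K (fun _ => c.T_conj (j := i) inJ_l (inv_mem hd))
      (fun _ => c.T_conj (j := i) (R.inJ_neg inJ_l) (inv_mem hd)) he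
  have := mul_mem hd (c.mem_T (mul_mem h1 (inv_mem he))
    ((((L2.of hd).inv.mul h2).mul (L2.of hd).inv.inv).mul h2.inv) (by simp))
  simpa only [inv_inv, ← mul_assoc, mul_inv_cancel, one_mul] using this

theorem n_norm (he : e ∈ K B B' θ (R.simple i)) (h2 : L2 B B' e (R.s i)) :
    e ∈ normalizer (T B B' θ : Set (Γ × Γ')) :=
  mem_normalizer_iff.2 fun d => ⟨c.n_T he h2, fun h => by
    simpa only [inv_inv, ← mul_assoc, inv_mul_cancel, one_mul, inv_mul_cancel_right] using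
      c.n_T (inv_mem he) (R.s_inv i ▸ h2.inv) h⟩

theorem n_sq (he : e ∈ K B B' θ (R.simple i)) (h2 : L2 B B' e (R.s i)) : e * e ∈ T B B' θ :=
  c.mem_T (mul_mem he he) (h2.mul h2) (R.s_mul_self i)

theorem exists_n (i : ι) : ∃ e ∈ K B B' θ (R.simple i), L2 B B' e (R.s i) := by
  obtain ⟨m, hm, h⟩ := c.hB.exists_n i
  obtain ⟨e, he, rfl⟩ := sup_le ((c.le_map (j := i) inJ_l).trans (map_mono le_sup_left))
    ((c.le_map (j := i) (R.inJ_neg inJ_l)).trans (map_mono le_sup_right)) hm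
  exact ⟨e, he, c.lift he h⟩

theorem comm (hr : R.InJ {i, j} r) (hs : R.InJ {i, j} s) (h1 : r ≠ s) (h2 : s ≠ R.neg r)
    (hd : d ∈ X B B' θ r) (he : e ∈ X B B' θ s) :
    d⁻¹ * e⁻¹ * d * e ∈ spanX (X B B' θ) ((cox R).cone r s) := by
  rcases c.cases i j with ⟨φ, h⟩ | h
  · have k : ∀ β ∈ (cox R).cone r s, R.InJ {i, j} β := fun β => cone_inJ hr hs h2
    obtain ⟨x, hx, ex⟩ := spanX_le_iff.2 (fun β hβ => (c.le_map (k β hβ)).trans
      (map_mono (le_spanX _ hβ))) (c.hB.comm hr.1 hs.1 h1 h2 hd.1.1 he.1.1)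
    have a1 := X_le h hr hd
    have a2 := X_le h hs he
    have a3 := (mul_mem (inv_mem (spanX_le_iff.2 (fun β hβ => X_le h (k β hβ)) hx))
      (mul_mem (mul_mem (mul_mem (inv_mem a1) (inv_mem a2)) a1) a2)).2.2
    have e1 : (x⁻¹ * (d⁻¹ * e⁻¹ * d * e)).1 = 1 := inv_mul_eq_one.2 ex
    obtain ⟨u, -, hu, hu'⟩ := exists_common hr hs h2
    have a4 : spanX (X B B' θ) ((cox R).cone r s) ≤
        (spanX B'.U ((cox R).cone r s)).comap (MonoidHom.snd _ _) :=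
      spanX_le_iff.2 fun β hβ y hy => mem_spanX B'.U hβ (X_iff.1 hy).1.2
    have e2 : (x⁻¹ * (d⁻¹ * e⁻¹ * d * e)).2 = 1 :=
      c.hB'.span_inj (u := u) (fun β hβ => ⟨k β hβ, ((mem_cone.1 hβ).2.2.2 _).1 hu hu'⟩)
        (mul_mem (inv_mem (mem_comap.1 (a4 hx))) (c.hB'.comm hr.1 hs.1 h1 h2 hd.1.2 he.1.2)) fun w hw => by
        have := a3 _ (by rwa [δ_a_one])
        rwa [e1, one_smul, h.iso.apt w hw, eq_comm] at this
    exact inv_mul_eq_one.1 (Prod.ext e1 e2) ▸ hx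
  · obtain ⟨k, hk, e1⟩ := R.inJ_pair_of_eq_zero h hr
    obtain ⟨l, hl, e2⟩ := R.inJ_pair_of_eq_zero h hs
    have hkl : k ≠ l := by
      rintro rfl
      rcases e1 with rfl | rfl <;> rcases e2 with rfl | rfl
      exacts [h1 rfl, h2 rfl, h2 (R.neg_neg (R.simple_mem k)).symm, h1 rfl]
    have h0 : R.C k l = 0 := by
      rcases hk with rfl | rfl <;> rcases hl with rfl | rfl
      exacts [absurd rfl hkl, (h.resolve_left hkl).1, (h.resolve_left hkl.symm).2, absurd rfl hkl]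
    rw [mul_assoc, (c.commute h0 (mem_K e1 hd) (mem_K e2 he)).eq, ← mul_inv_rev, inv_mul_cancel]
    exact one_mem _

theorem braid (hd : d ∈ K B B' θ (R.simple i)) (h1 : L2 B B' d (R.s i))
    (he : e ∈ K B B' θ (R.simple j)) (h2 : L2 B B' e (R.s j)) :
    (d * e) ^ orderOf (R.s i * R.s j) ∈ T B B' θ := by
  have hw : ∀ n : ℕ, (R.s i * R.s j) ^ n ∈ R.WJ {i, j} := fun n =>
    pow_mem (mul_mem (R.s_mem_WJ (.inl rfl)) (R.s_mem_WJ (.inr rfl))) n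
  have k : ∀ (n : ℕ) {r x}, R.InJ {i, j} r → x ∈ K B B' θ r →
      (d * e) ^ n * x * ((d * e) ^ n)⁻¹ ∈ K B B' θ ((R.s i * R.s j) ^ n • r) := by
    intro n r x hr hx
    induction n with
    | zero => simpa using hx
    | succ n ih =>
      have a := R.inJ_smul (hw n) hr
      have := c.n_conj_K (R.inJ_smul (R.s_mem_WJ (.inr rfl)) a) hd h1
        (c.n_conj_K (Set.pair_comm i j ▸ a) he h2 ih)
      rw [pow_succ' (R.s i * R.s j), mul_smul, mul_smul]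
      simpa only [pow_succ', mul_assoc, mul_inv_rev] using this
  have fin : ∀ {x} {w : R.W} {l}, x ∈ K B B' θ (w • R.simple l) → L2 B B' x (w * R.s l * w⁻¹) →
      w * R.s l * w⁻¹ * (R.s j)⁻¹ = 1 → x * e⁻¹ ∈ T B B' θ := fun hx h3 h4 => by
    refine c.mem_T (mul_mem ?_ (inv_mem he)) (h3.mul h2.inv) h4
    rcases eq_or_neg h4 with a | a
    · rwa [a] at hx
    · rwa [← K_neg (R.smul_mem _ (R.simple_mem _)), a] at hx
  have p := pow_orderOf_eq_one (R.s i * R.s j)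
  have q := fun n => (h1.mul h2).pow n
  obtain ⟨m, hm⟩ : ∃ m, orderOf (R.s i * R.s j) = 2 * m + 0 + 1 ∨
      orderOf (R.s i * R.s j) = 2 * m + 1 + 1 :=
    ⟨(orderOf (R.s i * R.s j) - 1) / 2, by have := orderOf_pos (R.s i * R.s j); omega⟩
  have t := fun h k => dih_mem (h := h) (k := k) (c.n_norm hd h1) (c.n_norm he h2) (c.n_sq hd h1)
    (c.n_sq he h2)
  rcases hm with hm | hm <;> rw [hm] at p ⊢
  · replace p := (dih (R.s_mul_self i) (R.s_mul_self j) m 0).trans p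
    refine t m 0 ?_
    rw [pow_zero, one_mul] at p ⊢
    exact fin (k m inJ_l (inv_mem hd)) (((q m).mul (R.s_inv i ▸ h1.inv)).mul (q m).inv)
      (R.s_inv i ▸ p)
  · replace p := (dih (R.s_mul_self i) (R.s_mul_self j) m 1).trans p
    refine t m 1 ?_
    rw [pow_one] at p ⊢
    exact fin (w := (R.s i * R.s j) ^ m * R.s i) (l := j)
      (mul_smul _ (R.s i) (R.simple j) ▸ k m (R.inJ_smul (R.s_mem_WJ (.inl rfl))
        (R.inJ_simple_iff.2 (.inr rfl))) (c.n_conj_K (R.inJ_simple_iff.2 (.inr rfl)) hd h1 he))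
      (by simpa only [mul_assoc, mul_inv_rev] using ((q m).mul ((h1.mul h2).mul h1.inv)).mul (q m).inv)
      (by simpa only [mul_assoc, mul_inv_rev] using p)

theorem rank_one (he : e ∈ K B B' θ (R.simple i)) (h2 : L2 B B' e (R.s i))
    (hd : d ∈ X B B' θ (R.neg (R.simple i))) (h1 : d ≠ 1) : ∃ u ∈ X B B' θ (R.simple i),
      ∃ h ∈ T B B' θ, ∃ u' ∈ X B B' θ (R.simple i), d = u * h * e * u' := by
  obtain ⟨u, hu, m, hm, u', hu', e1⟩ := c.hB.rank_one hd.1.1 fun e =>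
    h1 (Prod.ext e ((c.eq_one (j := i) (R.inJ_neg inJ_l) hd).1 e))
  obtain ⟨a, ha⟩ := c.left (j := i) inJ_l hu
  obtain ⟨b, hb⟩ := c.left (j := i) inJ_l hu'
  have k : (u, a)⁻¹ * d * (u', b)⁻¹ ∈ K B B' θ (R.simple i) :=
    mul_mem (mul_mem (inv_mem (mem_sup_left ha)) (mem_sup_right hd)) (inv_mem (mem_sup_left hb))
  exact ⟨_, ha, _, c.mem_T (mul_mem k (inv_mem he)) ((c.lift k (by simpa [e1, mul_assoc] using hm)).mul
    h2.inv) (mul_inv_cancel _), _, hb, by group⟩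

theorem torus (hd : d ∈ T B B' θ) : d.1 = 1 ↔ d.2 = 1 := by
  have k := fun i => (mem_iInf.1 hd.2 i).2.2
  refine ⟨fun h => eq_one_of_H (w := 1) c.hB'.faith hd.1.2 fun i => mem_Tv_iff.2 fun y hy => ?_,
    fun h => eq_one_of_H (w := 1) c.hB.faith hd.1.1 fun i => mem_Tv_iff.2 fun y hy => ?_⟩
  · obtain ⟨x, hx, rfl⟩ := (c.iso i).surj y hy
    rw [← k i x hx, h, one_smul]
  · rw [← B.δ_eq_one, ← (c.iso i).isom _ _ (St.smul_mem (H_le_St hd.1.1) hy) hy, k i y hy, h,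
      one_smul, δ_self]

end Ctx

end Fib1

open Fib1 in
theorem exists_pair (hB : B.RG) (hB' : B'.RG) (θ : ι → Ch → Ch')
    (hθ : ∀ i j, i ≠ j → R.C i j ≠ 0 → ∃ φ, B.RIso B' {i, j} φ ∧
      (∀ x, B.δ (B.a 1) x ∈ R.WJ {i} → φ x = θ i x) ∧ ∀ x, B.δ (B.a 1) x ∈ R.WJ {j} → φ x = θ j x) :
    ∃ L : LocG R (Γ × Γ'), B.Pair B' L := by
  have c : Ctx B B' θ := ⟨hB, hB', fun i j h1 h2 =>
    let ⟨φ, a, b, d⟩ := hθ i j h1 h2
    ⟨φ, h1, h2, a, b, d⟩⟩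
  choose n hn hn' using c.exists_n
  refine ⟨⟨X B B' θ, T B B' θ, n, fun i j r s hr hs h1 h2 a ha b hb => c.comm hr hs h1 h2 ha hb,
    fun i h hh a ha => c.T_conj (j := i) inJ_l hh ha,
    fun i j r hr a => ⟨c.n_conj hr (hn i) (hn' i), fun h => ?_⟩,
    fun i h => c.n_T (hn i) (hn' i), fun i => c.n_sq (hn i) (hn' i),
    fun i j => c.braid (hn i) (hn' i) (hn j) (hn' j), fun i => ?_,
    fun i a => c.rank_one (hn i) (hn' i)⟩,
    fun i d hd => ⟨hd.1.1, hd.1.2, c.eq_one (j := i) inJ_l hd⟩, fun i g => c.left (j := i) inJ_l,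
    fun i g => c.right (j := i) inJ_l, hn', fun d hd => ⟨hd.1.1, hd.1.2, c.torus hd⟩⟩
  · have := c.n_conj (R.inJ_smul (R.s_mem_WJ (.inl rfl)) hr) (inv_mem (hn i))
      (R.s_inv i ▸ (hn' i).inv) h
    rwa [smul_smul, R.s_mul_self, one_smul, inv_inv, ← mul_assoc, ← mul_assoc, inv_mul_cancel, one_mul,
      inv_mul_cancel_right] at this
  · obtain ⟨a, ha, h⟩ := hB.nontriv (R.neg_mem _ (R.simple_mem i))
    obtain ⟨b, hb⟩ := c.left (j := i) (R.inJ_neg inJ_l) ha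
    exact ⟨_, hb, fun e => h (congrArg Prod.fst e)⟩

end Bld

end Cfsg.Lib.BLD
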