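import Cfsg.Agent.BLD.Ct
import Cfsg.Agent.BLD.Grd3

/-! # The fibre product covers both groups isomorphically -/

set_option autoImplicit false
set_option linter.unusedSectionVars false

namespace Cfsg.Lib.BLD

open Cfsg.Lib.Chev

variable {ι A : Type} [Fintype ι] [DecidableEq ι] [DecidableEq A] {R : WeylData ι A}

namespace Bld

variable {Γ Ch : Type*} [Group Γ] [MulAction Γ Ch] {B : Bld R Γ Ch}
  {Γ' Ch' : Type*} [Group Γ'] [MulAction Γ' Ch'] {B' : Bld R Γ' Ch'}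

theorem Fib2.bij {E : Type*} [Group E] (hB : B.RG) (h : spanX B.U {β | β ∈ R.Φ} = ⊤) (π : E →* Γ)
    {L : LocG R E} {Y : GRD (cox R) E} (hX : ∀ i, Y.X (R.simple i) = L.X (R.simple i))
    (hY : ∀ g w, Y.Lifts g w ↔ L.Lifts g w)
    (h1 : ∀ i, ∀ d ∈ L.X (R.simple i), π d ∈ B.U (R.simple i) ∧ (π d = 1 → d = 1))
    (h2 : ∀ i, ∀ g ∈ B.U (R.simple i), ∃ d ∈ L.X (R.simple i), π d = g)
    (h3 : ∀ i, B.Lifts (π (L.n i)) (R.s i)) (h4 : ∀ d ∈ L.H, π d ∈ B.H ∧ (π d = 1 → d = 1)) :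
    Function.Bijective (π.comp (spanX Y.X (cox R).Φ).subtype) := by
  have k1 : ∀ ω : List ι, B.Lifts (π (wprod L.n ω)) (wprod R.s ω) := fun ω => by
    induction ω with
    | nil => simpa using lifts_one_iff.2 (one_mem B.H)
    | cons i ω ih => rw [wprod_cons, wprod_cons, map_mul]; exact (h3 i).mul ih
  have k2 : ∀ g w, Y.Lifts g w → B.Lifts (π g) w := fun g w hg => by
    obtain ⟨ω, rfl, e⟩ := (hY g w).1 hg
    simpa using (lifts_one_iff.2 (h4 _ e).1).mul (k1 ω)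
  have hG : GLift (cox R) π hB.grd.X Y.X := by
    refine ⟨fun r hr => ?_, fun r hr a ha e => ?_, Y.X_le⟩
    all_goals
      obtain ⟨w, i, rfl⟩ := (cox R).exists_simple hr
      obtain ⟨m, hm⟩ := Y.exists_lifts w
      have k3 : ∀ a ∈ Y.X (w • (cox R).simple i), m⁻¹ * a * m ∈ L.X (R.simple i) := fun a ha => by
        have := GRD.inv_conj hm hr ha
        rwa [inv_smul_smul, show (cox R).simple i = R.simple i from rfl, hX] at this
    · refine le_antisymm ?_ fun g hg => ?_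
      · rintro _ ⟨a, ha, rfl⟩
        have := (k2 m w hm).conj_U.2 (h1 i _ (k3 a ha)).1
        change π a ∈ B.U (w • R.simple i)
        simpa [mul_assoc] using this
      · change g ∈ B.U (w • R.simple i) at hg
        have k4 : (π m)⁻¹ * g * π m ∈ B.U (R.simple i) :=
          (k2 m w hm).conj_U.1 (by simpa [mul_assoc] using hg)
        obtain ⟨d, hd, e⟩ := h2 i _ k4
        refine ⟨m * d * m⁻¹, Y.conj hm ((cox R).simple_mem i) (by rw [← hX] at hd; exact hd), ?_⟩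
        simp [e, mul_assoc]
    · have k4 := (h1 i _ (k3 a ha)).2 (by simp [e])
      calc a = m * (m⁻¹ * a * m) * m⁻¹ := by group
        _ = 1 := by rw [k4]; group
  refine ⟨(injective_iff_map_eq_one _).2 fun g hg => Subtype.ext ?_, fun g => ?_⟩
  · obtain ⟨g, hg'⟩ := g
    change π g = 1 at hg
    change g = 1
    obtain ⟨u, hu, m, w, hm, u', hu', rfl⟩ := GRD.bruhat (Subgroup.mem_sup_left hg')
    have k3 : π m ∈ hB.grd.U := by
      rw [show π m = (π u)⁻¹ * π (u * m * u') * (π u')⁻¹ by simp [mul_assoc], hg, mul_one]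
      exact mul_mem (inv_mem (hG.mem_span (fun _ h => h.1) hu))
        (inv_mem (hG.mem_span (fun _ h => h.1) hu'))
    have k4 : hB.grd.Lifts (π m) w := hB.grd_lifts.2 (k2 m w hm)
    obtain rfl := hB.faithful.eq_one k4 fun v hv => mul_mem (mul_mem k3 hv) (inv_mem k3)
    obtain rfl := (h4 m (LocG.lifts_one_iff.1 ((hY m 1).1 hm))).2 (hB.faithful.UH _ k3 k4)
    rw [mul_one] at hg ⊢
    exact hG.eq_one hB.faithful Y.comm _ (mul_mem hu hu') hg
  · have k3 : g ∈ (spanX Y.X (cox R).Φ).map π := by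
      rw [hG.map_span fun _ h => h]
      exact h.ge (Subgroup.mem_top g)
    obtain ⟨d, hd, e⟩ := k3
    exact ⟨⟨d, hd⟩, e⟩

theorem Pair.nonempty_equiv (hB : B.RG) (hB' : B'.RG) (h : spanX B.U {β | β ∈ R.Φ} = ⊤)
    (h' : spanX B'.U {β | β ∈ R.Φ} = ⊤) {L : LocG R (Γ × Γ')} (hL : B.Pair B' L) :
    Nonempty (Γ ≃* Γ') := by
  obtain ⟨Y, hX, hY⟩ := L.exists_grd
  have hX' : ∀ i, Y.X (R.simple i) = L.X (R.simple i) := fun i =>
    hX i i _ (R.inJ_simple_iff.2 (by simp))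
  have k1 := Fib2.bij hB h (MonoidHom.fst Γ Γ') hX' hY
    (fun i d hd => ⟨(hL.mem i d hd).1, fun e => Prod.ext e ((hL.mem i d hd).2.2.1 e)⟩)
    (fun i g hg => (hL.left i g hg).elim fun g' e => ⟨_, e, rfl⟩) (fun i => (hL.lifts i).1)
    fun d hd => ⟨(hL.torus d hd).1, fun e => Prod.ext e ((hL.torus d hd).2.2.1 e)⟩
  have k2 := Fib2.bij hB' h' (MonoidHom.snd Γ Γ') hX' hY
    (fun i d hd => ⟨(hL.mem i d hd).2.1, fun e => Prod.ext ((hL.mem i d hd).2.2.2 e) e⟩)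
    (fun i g hg => (hL.right i g hg).elim fun g' e => ⟨_, e, rfl⟩) (fun i => (hL.lifts i).2)
    fun d hd => ⟨(hL.torus d hd).2.1, fun e => Prod.ext ((hL.torus d hd).2.2.2 e) e⟩
  exact ⟨(MulEquiv.ofBijective _ k1).symm.trans (MulEquiv.ofBijective _ k2)⟩

end Bld

end Cfsg.Lib.BLD
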