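import Cfsg.Agent.BLD.Defs

/-! # Higman's inequality for generalised quadrangles -/

set_option autoImplicit false
set_option linter.unusedSectionVars false

namespace Cfsg.Lib.BLD

open Finset

namespace GqH

theorem srg {P : Type*} [Fintype P] [DecidableEq P] [Nonempty P] {A : P → P → Prop} [DecidableRel A]
    {s t : ℕ} (hs : 2 ≤ s) (ht : 2 ≤ t) (sy : ∀ {x y}, A x y → A y x) (ir : ∀ x, ¬ A x x)
    (hk : ∀ x, #{z | A x z} = (t + 1) * s) (hl : ∀ x y, A x y → #{z | A x z ∧ A y z} + 1 = s)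
    (hm : ∀ x y, x ≠ y → ¬ A x y → #{z | A x z ∧ A y z} = t + 1)
    (K : ∀ {x z u u'}, A x z → A x u → A z u → A x u' → A z u' → u = u' ∨ A u u') : t ≤ s ^ 2 := by
  let a : P → P → ℤ := fun x y => if A x y then 1 else 0
  let e : P → P → ℤ := fun x y => if x = y then 1 else 0
  have as : ∀ x y, a x y = a y x := fun x y => if_congr ⟨sy, sy⟩ rfl rfl
  have se : ∀ x, ∑ z, e x z = 1 := fun x => by simp [e]
  have sk : ∀ x, ∑ z, a x z = (t + 1) * s := fun x => by
    rw [sum_boole, hk]; push_cast; rfl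
  have sc : ∀ x y, ∑ z, a x z * a y z = #{z | A x z ∧ A y z} := fun x y => by
    rw [← sum_boole]
    exact sum_congr rfl fun z _ => by by_cases A x z <;> by_cases A y z <;> simp [a, *]
  have sl : ∀ x y, A x y → ∑ z, a x z * a y z = s - 1 := fun x y h => by
    rw [sc, ← hl x y h]; push_cast; ring
  have sm : ∀ x y, x ≠ y → ¬ A x y → ∑ z, a x z * a y z = t + 1 := fun x y h h' => by
    rw [sc, hm x y h h']; push_cast; rfl
  obtain ⟨x⟩ := ‹Nonempty P›
  have hn : (Fintype.card P : ℤ) = 1 + (t + 1) * s + s ^ 2 * t := by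
    have h1 : ∑ y, ∑ z, a x z * a y z = ((t + 1) * s) ^ 2 := by
      rw [sum_comm]
      simp only [← mul_sum, as _ _, sk]
      rw [← sum_mul, sk, sq]
    have h2 : ∀ y, ∑ z, a x z * a y z =
        (t + 1) * s * e x y + (s - 1) * a x y + (t + 1) * (1 - e x y - a x y) := fun y => by
      by_cases h : x = y
      · subst h
        rw [sc]; simp [a, e, ir, hk]
      · by_cases h' : A x y
        · rw [sl x y h']; simp [a, e, h, h']
        · rw [sm x y h h']; simp [a, e, h, h']
    simp only [h2, sum_add_distrib, sum_sub_distrib, ← mul_sum, se, sk, sum_const, card_univ,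
      nsmul_eq_mul, mul_one] at h1
    refine mul_left_cancel₀ (show (t + 1 : ℤ) ≠ 0 by positivity) ?_
    linear_combination h1
  obtain ⟨y, xy, h0⟩ : ∃ y, x ≠ y ∧ ¬ A x y := by
    by_contra! h
    have : ∑ y, (e x y + a x y) = ∑ _y : P, (1 : ℤ) := sum_congr rfl fun y _ => by
      by_cases h' : x = y
      · subst h'; simp [a, e, ir]
      · simp [a, e, h', h y h']
    simp only [sum_add_distrib, se, sk, sum_const, card_univ, nsmul_eq_mul, mul_one, hn] at this
    have : (0 : ℤ) < s ^ 2 * t := by positivity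
    linarith
  have h0' : ¬ A y x := fun h => h0 (sy h)
  let v : P → ℤ := fun z => if x ≠ z ∧ y ≠ z ∧ ¬ A x z ∧ ¬ A y z then 1 else 0
  let T : Finset P := {u | A x u ∧ A y u}
  have cT : (#T : ℤ) = t + 1 := by rw [hm x y xy h0]; push_cast; rfl
  have co : ∀ {u u'}, A x u → A y u → A x u' → A y u' → ¬ A u u' := fun a1 a2 a3 a4 h =>
    (K h (sy a1) (sy a3) (sy a2) (sy a4)).elim xy h0
  have S0 : ∑ z, v z ^ 2 = s ^ 2 * t - s * t - s + t := by
    have : ∀ z, v z ^ 2 = 1 - e x z - e y z - a x z - a y z + a x z * a y z := fun z => by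
      by_cases h1 : x = z
      · subst h1; simp [v, a, e, ir, h0', xy.symm]
      · by_cases h2 : y = z
        · subst h2; simp [v, a, e, ir, h0, xy]
        · by_cases A x z <;> by_cases A y z <;> simp [v, a, e, *]
    simp only [this, sum_add_distrib, sum_sub_distrib, se, sk, sm x y xy h0, sum_const, card_univ,
      nsmul_eq_mul, mul_one, hn]
    ring
  have S1 : ∀ u ∈ T, ∑ z, v z * a u z = (t - 1) * s := fun u hu => by
    obtain ⟨u1, u2⟩ := (mem_filter.1 hu).2
    have : ∀ z, v z * a u z = a u z - e x z - e y z - a x z * a u z - a y z * a u z := fun z => by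
      by_cases h1 : x = z
      · subst h1; simp [v, a, e, ir, h0', xy.symm, sy u1]
      · by_cases h2 : y = z
        · subst h2; simp [v, a, e, ir, h0, xy, sy u2]
        · have := co (u' := z) u1 u2
          by_cases A x z <;> by_cases A y z <;> by_cases A u z <;> simp_all [v, a, e]
    simp only [this, sum_sub_distrib, se, sk, sl _ _ u1, sl _ _ u2]
    ring
  have S2 : ∀ u ∈ T, ∀ u' ∈ T, ∑ z, v z * a u z * a u' z = (t - 1) * (1 + (s - 1) * e u u') := by
    intro u hu u' hu'
    by_cases h : u = u'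
    · subst h
      rw [show (t - 1 : ℤ) * (1 + (s - 1) * e u u) = (t - 1) * s by simp [e], ← S1 u hu]
      exact sum_congr rfl fun z _ => by by_cases A u z <;> simp [a, *]
    obtain ⟨u1, u2⟩ := (mem_filter.1 hu).2
    obtain ⟨u3, u4⟩ := (mem_filter.1 hu').2
    have : ∀ z, v z * a u z * a u' z = a u z * a u' z - e x z - e y z := fun z => by
      by_cases h1 : x = z
      · subst h1; simp [v, a, e, xy.symm, sy u1, sy u3]
      · by_cases h2 : y = z
        · subst h2; simp [v, a, e, xy, sy u2, sy u4]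
        · by_cases b1 : A u z
          · by_cases b2 : A u' z
            · have c1 : ¬ A x z := fun c => (K c u1 (sy b1) u3 (sy b2)).elim h (co u1 u2 u3 u4)
              have c2 : ¬ A y z := fun c => (K c u2 (sy b1) u4 (sy b2)).elim h (co u1 u2 u3 u4)
              simp [v, a, e, *]
            · simp [a, e, *]
          · simp [a, e, *]
    simp only [this, sum_sub_distrib, se, sm u u' h (co u1 u2 u3 u4)]
    simp only [e, h, if_false]
    ring
  have vv : ∀ z, v z * v z = v z := fun z => by simp only [v]; split_ifs <;> simp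
  have cs := sum_mul_sq_le_sq_mul_sq univ v fun z => v z * ∑ u ∈ T, a u z
  have e1 : ∑ z, v z * (v z * ∑ u ∈ T, a u z) = (t + 1) * ((t - 1) * s) := by
    simp only [← mul_assoc, vv, mul_sum]
    rw [sum_comm, sum_congr rfl S1, sum_const, nsmul_eq_mul, cT, mul_assoc]
  have e2 : ∑ z, (v z * ∑ u ∈ T, a u z) ^ 2 = (t + 1) * ((t - 1) * (t + s)) := by
    have : ∀ z, (v z * ∑ u ∈ T, a u z) ^ 2 = ∑ u ∈ T, ∑ u' ∈ T, v z * a u z * a u' z := fun z => by
      rw [mul_pow, sq, sq, vv, sum_mul_sum, mul_sum]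
      simp only [mul_sum, mul_assoc]
    simp only [this]
    rw [sum_comm, sum_congr rfl (g := fun _ => ((t - 1) * (t + s) : ℤ)) fun u hu => ?_, sum_const,
      nsmul_eq_mul, cT]
    rw [sum_comm, sum_congr rfl (S2 u hu), ← mul_sum, sum_add_distrib, ← mul_sum, sum_const,
      nsmul_eq_mul, cT, show ∑ u' ∈ T, e u u' = 1 by simp [e, hu]]
    ring
  rw [e1, e2, S0] at cs
  by_contra! h
  have h1 : (s : ℤ) ^ 2 < t := by exact_mod_cast h
  have h2 : (2 : ℤ) ≤ s := by exact_mod_cast hs
  have h3 : (2 : ℤ) ≤ t := by exact_mod_cast ht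
  have : (0 : ℤ) < (t + 1) * (t - 1) * (t * (s - 1) * (t - s ^ 2)) :=
    mul_pos (mul_pos (by omega) (by omega)) (mul_pos (mul_pos (by omega) (by omega)) (by omega))
  linarith

end GqH

namespace GQ

variable {G P L : Type*} [Group G] [MulAction G P] [MulAction G L] [Finite P] [Finite L]
  (Q : GQ G P L)

theorem t_le [Nonempty P] : Q.t ≤ Q.s ^ 2 := by
  classical
  have := Fintype.ofFinite P
  have := Fintype.ofFinite L
  let A : P → P → Prop := fun x y => x ≠ y ∧ ∃ l, Q.I x l ∧ Q.I y l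
  have cp : ∀ l, #{x | Q.I x l} = Q.s + 1 := fun l => by
    rw [← Q.card_pts l, Set.ncard_eq_toFinset_card', Set.toFinset_ofPred]
  have cl : ∀ x, #{l | Q.I x l} = Q.t + 1 := fun x => by
    rw [← Q.card_lns x, Set.ncard_eq_toFinset_card', Set.toFinset_ofPred]
  have tri : ∀ {x z u l}, x ≠ z → Q.I x l → Q.I z l → A x u → A z u → Q.I u l :=
    fun h a b ⟨_, m, c, d⟩ ⟨_, m', e, f⟩ => by_contra fun k => h (Q.un k a d c b f e)
  have one : ∀ {x z}, A x z → #(bipartiteAbove Q.I {l | Q.I x l} z) = 1 := fun ⟨h, l, a, b⟩ =>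
    card_eq_one.2 ⟨l, eq_singleton_iff_unique_mem.2 ⟨by simp [a, b], fun m hm => by
      simp only [mem_bipartiteAbove, mem_filter, mem_univ, true_and] at hm
      exact (Q.uniq hm.1 hm.2 a b).resolve_left h⟩⟩
  refine GqH.srg (A := A) Q.two_le_s Q.two_le_t (fun ⟨h, l, a, b⟩ => ⟨h.symm, l, b, a⟩)
    (fun x h => h.1 rfl) (fun x => ?_) (fun x y ⟨h, l, a, b⟩ => ?_) (fun x y h h' => ?_)
    fun ⟨h, l, a, b⟩ c d e f => or_iff_not_imp_left.2 fun k => ⟨k, l, tri h a b c d, tri h a b e f⟩
  · rw [← cl x, ← card_mul_eq_card_mul Q.I (fun z hz => one (mem_filter.1 hz).2) fun l hl => ?_,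
      mul_one]
    have hl := (mem_filter.1 hl).2
    have : bipartiteBelow Q.I {z | A x z} l = ({z | Q.I z l} : Finset P).erase x := by
      ext z
      simp only [mem_bipartiteBelow, mem_filter, mem_univ, true_and, mem_erase]
      exact ⟨fun h => ⟨h.1.1.symm, h.2⟩, fun h => ⟨⟨h.1.symm, l, hl, h.2⟩, h.2⟩⟩
    rw [this, card_erase_of_mem (by simp [hl]), cp, Nat.add_sub_cancel]
  · have : ({z | A x z ∧ A y z} : Finset P) = (({z | Q.I z l} : Finset P).erase x).erase y := by
      ext z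
      simp only [mem_filter, mem_univ, true_and, mem_erase]
      exact ⟨fun k => ⟨k.2.1.symm, k.1.1.symm, tri h a b k.1 k.2⟩,
        fun k => ⟨⟨k.2.1.symm, l, a, k.2.2⟩, k.1.symm, l, b, k.2.2⟩⟩
    rw [this, card_erase_add_one (by simp [b, h.symm]), card_erase_of_mem (by simp [a]), cp,
      Nat.add_sub_cancel]
  · rw [← cl x, ← mul_one #{l | Q.I x l}, ← card_mul_eq_card_mul (s := {z | A x z ∧ A y z}) Q.I
      (fun z hz => one (mem_filter.1 hz).2.1) fun l hl => ?_, mul_one]
    have hl := (mem_filter.1 hl).2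
    have k : ¬ Q.I y l := fun k => h' ⟨h, l, hl, k⟩
    obtain ⟨z, m, a, b, c⟩ := Q.ex y l k
    refine card_eq_one.2 ⟨z, eq_singleton_iff_unique_mem.2 ⟨?_, fun w hw => ?_⟩⟩
    · simp only [mem_bipartiteBelow, mem_filter, mem_univ, true_and]
      exact ⟨⟨⟨fun e => h' ⟨h, m, e ▸ c, b⟩, l, hl, a⟩, fun e => k (e ▸ a), m, b, c⟩, a⟩
    · simp only [mem_bipartiteBelow, mem_filter, mem_univ, true_and] at hw
      obtain ⟨⟨-, -, m', d, e⟩, f⟩ := hw
      exact Q.un k f d e a b c

end GQ

end Cfsg.Lib.BLD
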