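import Cfsg.Agent.BLD.Bas2

/-!
# Moufang buildings: factorisation, semiregularity, rank one
-/

set_option autoImplicit false
set_option linter.unusedSectionVars false

namespace Cfsg.Lib.BLD

open Cfsg.Lib.Chev

variable {ι A : Type} [Fintype ι] [DecidableEq ι] [DecidableEq A] {R : WeylData ι A}

namespace Bld

variable {Γ Ch : Type*} [Group Γ] [MulAction Γ Ch] {B : Bld R Γ Ch}

section Grd1
variable {r : A} {u v w : R.W} {i j : ι} {g : Γ} {x y : Ch} {J : Set ι}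

theorem Grd1.δ_adj (w : R.W) (j : ι) : B.δ (B.a w) (B.a (w * R.s j)) = R.s j := by
  rw [B.δ_a, inv_mul_cancel_left]

theorem RG.trOn (hB : B.RG) (h : Hf R r w) (h' : ¬ Hf R r (w * R.s j)) : B.TrOn (B.U r) (B.a w) j := by
  obtain ⟨n, hn⟩ := B.exists_lifts w
  have := TrOn.conj (S' := B.U r) (hB.mouf j) n fun g hg => eq_of_hf_of_not_hf h h' ▸ hn.conj_U.2 hg
  rwa [hn, mul_one] at this

theorem RG.semireg (hB : B.RG) (hg : g ∈ B.U r) (h : Hf R r w) (h' : ¬ Hf R r (w * R.s j))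
    (hy : B.δ (B.a w) y = R.s j) (hgy : g • y = y) : g = 1 := by
  obtain ⟨t, ht, e⟩ := hB.trOn h h' y _ hy (Grd1.δ_adj w j)
  have m := mul_mem (mul_mem ht hg) (inv_mem ht)
  obtain ⟨l, hl, c⟩ := hB.deep j
  have er := eq_of_hf_of_not_hf h h'
  have e1 : (w * R.s l)⁻¹ • r = R.s l • R.simple j := by
    rw [er, mul_inv_rev, mul_smul, inv_smul_smul, R.s_inv]
  have h1 : Hf R r (w * R.s l) := by
    rw [Hf, e1]
    exact R.pos_s_smul (R.pos_simple j) fun e => hl (R.simple_injective e).symm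
  refine conj_eq_one_iff.1 (eq_one_of_H (w := w * R.s l) hB.faith (mem_H_of (v := w * R.s j) ?_
    (m.1 _ ((hf_mul_w0 h.mem).2 h'))) fun k => (mem_U.1 m).2 _ k h1 (by_contra fun d => ?_))
  · rw [mul_smul, mul_smul, ← e, inv_smul_smul, hgy]
  · rw [eq_of_hf_of_not_hf h1 d, inv_smul_smul] at e1
    have e2 := congrArg R.rc e1
    rw [R.rc_smul _ (R.simple_mem j), R.lin_s, R.rc_simple, R.rc_simple, R.sl_apply, R.a_single] at e2
    have e3 := congrFun e2 j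
    have e4 := congrFun e2 l
    by_cases f : k = j
    · simp [f, hl, c] at e4
    · simp [hl.symm, Ne.symm f] at e3

theorem RG.factor (hB : B.RG) (hg : g • B.a u = B.a u) (v : R.W) :
    ∃ y ∈ spanX B.U {β | Hf R β u ∧ ¬ Hf R β v}, g • B.a v = y • B.a v := by
  rw [← mul_inv_cancel_left u v]
  refine R.induction_pos_right (u⁻¹ * v) ⟨1, one_mem _, by rw [mul_one, hg, one_smul]⟩ ?_
  rintro j t ht ⟨y, hy, e⟩
  have hu : Hf R ((u * t) • R.simple j) u := by rwa [Hf, mul_smul, inv_smul_smul]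
  have f : (y⁻¹ * g) • B.a (u * t) = B.a (u * t) := by rw [mul_smul, e, inv_smul_smul]
  obtain ⟨x, hx, e1⟩ := hB.trOn (hf_smul_simple (u * t) j).1 (hf_smul_simple (u * t) j).2 _
    ((y⁻¹ * g) • B.a (u * t * R.s j)) (Grd1.δ_adj _ j) (by
      nth_rw 1 [← f]
      rw [B.δ_smul, Grd1.δ_adj])
  rw [← mul_assoc]
  have sub : {β | Hf R β u ∧ ¬ Hf R β (u * t)} ⊆ {β | Hf R β u ∧ ¬ Hf R β (u * t * R.s j)} := by
    rintro b ⟨h1, h2⟩
    refine ⟨h1, fun c => ?_⟩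
    have := eq_of_hf_of_not_hf ((hf_neg c.mem).2 h2) fun d => (hf_neg c.mem).1 d c
    rw [← this] at hu
    exact (hf_neg c.mem).1 hu h1
  have hβ : (u * t) • R.simple j ∈ {β | Hf R β u ∧ ¬ Hf R β (u * t * R.s j)} :=
    ⟨hu, (hf_smul_simple (u * t) j).2⟩
  exact ⟨y * x, mul_mem (spanX_mono _ sub hy) (mem_spanX _ hβ hx),
    by rw [mul_smul, e1, mul_smul, smul_inv_smul]⟩

theorem span_fix {T : Set A} (h : ∀ β ∈ T, Hf R β w) (hg : g ∈ spanX B.U T) : g • B.a w = B.a w :=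
  (spanX_le_iff (X := B.U) (K := MulAction.stabilizer Γ (B.a w))).2 (fun β hβ _ hx => hx.1 w (h β hβ)) hg

theorem span_le_Lev {T : Set A} (h : ∀ β ∈ T, R.InJ J β) : spanX B.U T ≤ B.Lev J :=
  spanX_le_iff.2 fun β hβ _ hx => Br_le_Lev (h β hβ) hx.1

theorem RG.exists_span_smul (hB : B.RG) (hx : B.δ (B.a 1) x ∈ R.WJ J) :
    ∃ y ∈ spanX B.U {β | R.Pos β ∧ R.InJ J β}, y • B.a (B.δ (B.a 1) x) = x := by
  obtain ⟨g, h1, h2⟩ := B.trans (δ_a_one (B := B) (B.δ (B.a 1) x))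
  obtain ⟨y, hy, e⟩ := hB.factor h1 (B.δ (B.a 1) x)
  exact ⟨y, spanX_mono _ (fun β hβ => And.intro (hf_one.1 hβ.1) (inJ_of_sep (one_mem _) hx hβ.1 hβ.2)) hy,
    e.symm.trans h2⟩

theorem RG.nontriv (hB : B.RG) (hr : r ∈ R.Φ) : ∃ a ∈ B.U r, a ≠ 1 := by
  obtain ⟨w, -, j, -, rfl⟩ := R.exists_smul_simple_inJ (R.inJ_univ hr)
  obtain ⟨y, z, n, hy, hz⟩ := B.thick (B.a w) j
  obtain ⟨g, hg, e⟩ := hB.trOn (hf_smul_simple w j).1 (hf_smul_simple w j).2 y z hy hz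
  exact ⟨g, hg, fun c => n (by rw [← e, c, one_smul])⟩

theorem Grd1.hf_s : ¬ Hf R (R.simple i) (1 * R.s i) := by
  simpa using (hf_smul_simple (R := R) 1 i).2

theorem RG.rank_one (hB : B.RG) (hg : g ∈ B.U (R.neg (R.simple i))) (h1 : g ≠ 1) :
    ∃ u ∈ B.U (R.simple i), ∃ m, B.Lifts m (R.s i) ∧ ∃ u' ∈ B.U (R.simple i), g = u * m * u' := by
  have p : Hf R (R.simple i) 1 := hf_one.2 (R.pos_simple i)
  have a1 : Hf R (R.neg (R.simple i)) (R.s i) := (hf_neg (R.simple_mem i)).2 (one_mul (R.s i) ▸ Grd1.hf_s)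
  have a2 : ¬ Hf R (R.neg (R.simple i)) (R.s i * R.s i) := by
    rw [R.s_mul_self, hf_neg (R.simple_mem i), not_not]; exact p
  have a3 : B.δ (B.a (R.s i)) (B.a 1) = R.s i := by rw [B.δ_a, mul_one, R.s_inv]
  have k : ∀ g ∈ B.U (R.neg (R.simple i)), g ≠ 1 → ∃ u ∈ B.U (R.simple i), u • B.a (R.s i) = g • B.a 1 :=
    fun g hg h1 => hB.mouf i _ _ (δ_a_one _) (panel a3 (by
      nth_rw 1 [← hg.1 _ a1]
      rw [B.δ_smul, a3]) fun e => h1 (hB.semireg hg a1 a2 a3 e.symm))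
  obtain ⟨u, hu, e⟩ := k g hg h1
  obtain ⟨u', hu', e'⟩ := k _ (inv_mem hg) (inv_ne_one.2 h1)
  have i1 : R.InJ {i} (R.simple i) := R.inJ_simple_iff.2 rfl
  refine ⟨u, hu, u⁻¹ * g * u', lifts_of_swap (mul_mem (mul_mem (inv_mem (Br_le_Lev i1 hu.1))
    (Br_le_Lev (R.inJ_neg i1) hg.1)) (Br_le_Lev i1 hu'.1)) ?_ ?_, u'⁻¹, inv_mem hu', by group⟩
  · rw [mul_smul, mul_smul, hu'.1 _ p, ← e, inv_smul_smul]
  · rw [mul_smul, mul_smul, e', smul_inv_smul, (inv_mem hu).1 _ p]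

theorem RG.rank_one' (hB : B.RG) (hg : g ∈ B.U (R.simple i)) (h1 : g ≠ 1) :
    ∃ u ∈ B.U (R.neg (R.simple i)), ∃ u' ∈ B.U (R.neg (R.simple i)), B.Lifts (u * g * u') (R.s i) := by
  obtain ⟨n, hn⟩ := B.exists_lifts (R.s i)
  obtain ⟨u, hu, m, hm, u', hu', e⟩ := hB.rank_one (g := n * g * n⁻¹)
    (R.s_smul_simple i ▸ hn.conj_U.2 hg) fun e => h1 (conj_eq_one_iff.1 e)
  have k : ∀ u ∈ B.U (R.simple i), n⁻¹ * u⁻¹ * n⁻¹⁻¹ ∈ B.U (R.neg (R.simple i)) := fun u hu => by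
    have := hn.inv.conj_U.2 (inv_mem hu)
    rwa [R.s_inv, R.s_smul_simple] at this
  refine ⟨_, k u hu, _, k u' hu', ?_⟩
  have := (hn.inv.mul hm).mul hn
  rw [inv_mul_cancel, one_mul] at this
  convert this using 1
  rw [show g = n⁻¹ * (n * g * n⁻¹) * n by group, e]
  group

theorem RG.card_U (hB : B.RG) (i : ι) : Nat.card (B.U (R.simple i)) = B.q i := by
  have p : Hf R (R.simple i) 1 := hf_one.2 (R.pos_simple i)
  refine Nat.card_congr (Equiv.ofBijective (fun g => ⟨g.1 • B.a (R.s i), by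
    nth_rw 1 [← g.2.1 _ p]
    rw [B.δ_smul, δ_a_one]⟩) ⟨fun g g' e => Subtype.ext ?_, fun y => ?_⟩)
  · refine (inv_mul_eq_one.1 (hB.semireg (mul_mem (inv_mem g'.2) g.2) p Grd1.hf_s (δ_a_one _) ?_)).symm
    rw [mul_smul, inv_smul_eq_iff]
    exact congrArg Subtype.val e
  · obtain ⟨g, hg, e⟩ := hB.mouf i _ y (δ_a_one _) y.2
    exact ⟨⟨g, hg⟩, Subtype.ext e⟩

theorem RG.span_eq_top [IsSimpleGroup Γ] [Nonempty ι] (hB : B.RG) :
    spanX B.U {β | β ∈ R.Φ} = ⊤ := by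
  have k1 : ∀ w, ∃ n ∈ spanX B.U {β | β ∈ R.Φ}, B.Lifts n w := fun w => by
    refine R.induction_left w ⟨1, one_mem _, lifts_one_iff.2 (one_mem _)⟩ ?_
    rintro i w ⟨n, hn, e⟩
    obtain ⟨g, hg, h1⟩ := hB.nontriv (R.simple_mem i)
    obtain ⟨u, hu, u', hu', e'⟩ := hB.rank_one' hg h1
    have m := R.neg_mem _ (R.simple_mem i)
    exact ⟨_, mul_mem (mul_mem (mul_mem (mem_spanX _ m hu) (mem_spanX _ (R.simple_mem i) hg))
      (mem_spanX _ m hu')) hn, e'.mul e⟩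
  have k2 : ∀ h ∈ B.H, ∀ x ∈ spanX B.U {β | β ∈ R.Φ}, h * x * h⁻¹ ∈ spanX B.U {β | β ∈ R.Φ} :=
    fun h hh => (spanX_le_iff (K := (spanX B.U {β | β ∈ R.Φ}).comap (MulAut.conj h).toMonoidHom)).2
      fun β hβ x hx => mem_spanX _ (R.smul_mem 1 hβ) ((lifts_one_iff.2 hh).conj_U.2 hx)
  have k3 : (spanX B.U {β | β ∈ R.Φ}).Normal := ⟨fun x hx g => by
    obtain ⟨y, hy, e⟩ := hB.exists_span_smul (J := Set.univ) (x := g • B.a 1) (by simp)
    obtain ⟨n, hn, e1⟩ := k1 (B.δ (B.a 1) (g • B.a 1))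
    have f : (n⁻¹ * (y⁻¹ * g)) • B.a 1 = B.a 1 := by
      rw [mul_smul, mul_smul, inv_smul_eq_iff, inv_smul_eq_iff, e1, mul_one, e]
    obtain ⟨z, hz, e2⟩ := hB.factor f (1 * R.w0 Set.univ)
    have m := mul_mem (mul_mem (spanX_mono _ (fun β hβ => hβ.1.mem) hy) hn)
      (spanX_mono _ (fun β hβ => hβ.1.mem) hz : z ∈ spanX B.U {β | β ∈ R.Φ})
    have hh : z⁻¹ * (n⁻¹ * (y⁻¹ * g)) ∈ B.H := mem_H_of (v := 1)
      (by rw [mul_smul, f, inv_smul_eq_iff, span_fix (fun β hβ => hβ.1) hz])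
      (by rw [mul_smul, e2, inv_smul_smul])
    convert mul_mem (mul_mem m (k2 _ hh x hx)) (inv_mem m) using 1
    group⟩
  refine k3.eq_bot_or_eq_top.resolve_left fun e => ?_
  obtain ⟨i⟩ := ‹Nonempty ι›
  obtain ⟨g, hg, h1⟩ := hB.nontriv (R.simple_mem i)
  exact h1 (Subgroup.mem_bot.1 (e ▸ mem_spanX _ (R.simple_mem i) hg))

end Grd1

end Bld

end Cfsg.Lib.BLD
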