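import Cfsg.Agent.BLD.Grd1

/-!
# The commutator relation for the root groups of a Moufang building
-/

set_option autoImplicit false
set_option linter.unusedSectionVars false
set_option linter.unusedVariables false

namespace Cfsg.Lib.BLD

open Cfsg.Lib.Chev

variable {ι A : Type} [Fintype ι] [DecidableEq ι] [DecidableEq A] {R : WeylData ι A}

namespace Grd2

variable {r s β : A} {x y u v : R.W} {c d i j : ι}

theorem step (h : ¬ Hf R (x • R.simple c) y) (h1 : Hf R β (x * R.s c)) (h2 : ¬ Hf R β y) :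
    Hf R β x := by
  by_contra e
  have e1 := eq_of_hf_of_not_hf (j := c) h1 (by rwa [R.mul_s_mul_s])
  rw [mul_smul, R.s_smul_simple, R.smul_neg _ (R.simple_mem c)] at e1
  rw [e1, hf_neg (R.smul_mem _ (R.simple_mem c))] at h2
  exact h2 h

theorem step' (h : ¬ Hf R (x • R.simple c) y) (h1 : ¬ Hf R β (x * R.s c)) (h2 : Hf R β y) :
    ¬ Hf R β x :=
  (hf_neg h2.mem).1 (step h ((hf_neg h2.mem).2 h1) fun e => (hf_neg h2.mem).1 e h2)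

theorem len_lt (h : ¬ Hf R (x • R.simple c) y) :
    R.len (y⁻¹ * (x * R.s c)) < R.len (y⁻¹ * x) := by
  rw [← mul_assoc, R.len_mul_s_lt_iff, mul_smul]
  exact h

theorem len_lt' (h : ¬ Hf R (x • R.simple c) y) :
    R.len ((x * R.s c)⁻¹ * y) < R.len (x⁻¹ * y) := by
  rw [← R.len_inv, ← R.len_inv (x⁻¹ * y), mul_inv_rev, inv_inv, mul_inv_rev, inv_inv]
  exact len_lt h

theorem exists_step {J : Set ι} (hx : x ∈ R.WJ J) (hy : y ∈ R.WJ J) (h : x ≠ y) :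
    ∃ c ∈ J, ¬ Hf R (x • R.simple c) y := by
  obtain ⟨c, hc⟩ := R.exists_not_pos_of_ne_one (w := y⁻¹ * x) fun e =>
    h (inv_mul_eq_one.1 e).symm
  exact ⟨c, R.mem_of_not_pos_of_mem_WJ (mul_mem (inv_mem hy) hx) hc, by rwa [Hf, ← mul_smul]⟩

theorem comb {n p q : ℤ} (hr : r ∈ R.Φ) (hs : s ∈ R.Φ) (hβ : β ∈ R.Φ)
    (e : n • R.rc β = p • R.rc r + q • R.rc s) (w : R.W) (l : ι) :
    n * R.rc (w • β) l = p * R.rc (w • r) l + q * R.rc (w • s) l := by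
  have e1 : n • R.rc (w • β) = p • R.rc (w • r) + q • R.rc (w • s) := by
    rw [R.rc_smul w hβ, R.rc_smul w hr, R.rc_smul w hs, ← map_smul, ← map_smul, ← map_smul, e,
      map_add]
  exact congrFun e1 l

theorem exists_neg (hr : r ∈ R.Φ) (h : ¬ R.Pos r) : ∃ l, R.rc r l < 0 := by
  by_contra e
  push Not at e
  exact h ⟨hr, e⟩

/-- The conclusion of the combinatorial part. -/
def Good (R : WeylData ι A) (r s : A) (u v : R.W) (c d : ι) : Prop :=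
  ∀ β, Hf R β (u * R.s c) → ¬ Hf R β (v * R.s d) →
    β ∈ (cox R).cone r s ∧ Hf R β u ∧ ∀ l, Hf R β (u * R.s l)

theorem Good_eq_1' : type_of% @Good.eq_1 := @Good.eq_1

theorem aux (hr : R.InJ {i, j} r) (hs : R.InJ {i, j} s) (h1 : r ≠ s) (h2 : s ≠ R.neg r)
    (hu : u ∈ R.WJ {i, j}) (hv : v ∈ R.WJ {i, j}) (ru : Hf R r u) (su : Hf R s u)
    (rv : ¬ Hf R r v) (sv : ¬ Hf R s v)
    (hm : ∀ v' ∈ R.WJ {i, j}, ¬ Hf R r v' → ¬ Hf R s v' → R.len (u⁻¹ * v) ≤ R.len (u⁻¹ * v'))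
    (hc : c ∈ ({i, j} : Set ι)) (h3 : ¬ Hf R (u • R.simple c) v) (h4 : ¬ Hf R r (u * R.s c)) :
    ∃ d, Good R r s u v c d := by
  have e1 := eq_of_hf_of_not_hf ru h4
  have h5 : Hf R s (u * R.s c) := by_contra fun e => h1 (e1.trans (eq_of_hf_of_not_hf su e).symm)
  have hu' := mul_mem hu (R.s_mem_WJ hc)
  obtain ⟨d, hd, h6⟩ := exists_step hv hu' fun e => sv (e ▸ h5)
  have hv' := mul_mem hv (R.s_mem_WJ hd)
  have h7 : ¬ Hf R (v • R.simple d) u := fun e =>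
    rv (((eq_of_hf_of_not_hf e h6).trans e1.symm) ▸ (hf_smul_simple v d).1)
  have h8 : ¬ Hf R r (v * R.s d) := fun e => by
    have := eq_of_hf_of_not_hf (j := d) ((hf_neg hr.1).2 rv) fun e' => (hf_neg hr.1).1 e' e
    exact h6 (this ▸ (hf_neg hr.1).2 h4)
  have h9 : Hf R s (v * R.s d) := by_contra fun e => (len_lt h7).not_ge (hm _ hv' h8 e)
  refine ⟨d, fun β b1 b2 => ?_⟩
  have b3 := step' h6 b2 b1
  have b4 := step h3 b1 b3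
  have hβ := b1.mem
  obtain ⟨n, p, q, hn, e⟩ := exists_comb hr hs (inJ_of_sep hu' hv' b1 b2) h1 h2
  have k := comb hr.1 hs.1 hβ e
  have n1 : β ≠ r := fun e => h4 (e ▸ b1)
  have n2 : β ≠ s := fun e => b2 (e ▸ h9)
  have hpq : 0 < p ∧ 0 < q := by
    obtain ⟨l1, a1⟩ := b1.exists_coord_pos
    obtain ⟨l2, a2⟩ := exists_neg (R.smul_mem _ hβ) b2
    obtain ⟨l3, a3⟩ := b4.exists_coord_pos
    have k1 := k (u * R.s c)⁻¹ l1
    have k2 := k (v * R.s d)⁻¹ l2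
    have k3 := k u⁻¹ l3
    have c1 : _ ≤ (0 : ℤ) := (R.not_pos_iff (R.smul_mem _ hr.1)).1 h4 l1
    have c2 : (0 : ℤ) ≤ _ := h5.2 l1
    have c3 : _ ≤ (0 : ℤ) := (R.not_pos_iff (R.smul_mem _ hr.1)).1 h8 l2
    have c4 : (0 : ℤ) ≤ _ := h9.2 l2
    have c5 : (0 : ℤ) ≤ _ := ru.2 l3
    have c6 : (0 : ℤ) ≤ _ := su.2 l3
    have d1 := mul_pos hn a1
    have d2 := mul_neg_of_pos_of_neg hn a2
    have d3 := mul_pos hn a3
    have f1 : ¬ (0 ≤ p ∧ q ≤ 0) := fun ⟨f, g⟩ => by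
      linarith [mul_nonpos_of_nonneg_of_nonpos f c1, mul_nonpos_of_nonpos_of_nonneg g c2]
    have f2 : ¬ (p ≤ 0 ∧ 0 ≤ q) := fun ⟨f, g⟩ => by
      linarith [mul_nonneg_of_nonpos_of_nonpos f c3, mul_nonneg g c4]
    have f3 : ¬ (p ≤ 0 ∧ q ≤ 0) := fun ⟨f, g⟩ => by
      linarith [mul_nonpos_of_nonpos_of_nonneg f c5, mul_nonpos_of_nonpos_of_nonneg g c6]
    omega
  refine ⟨mem_cone.2 ⟨hβ, n1, n2, fun w => ⟨fun a1 a2 => ⟨R.smul_mem _ hβ, fun l => ?_⟩,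
    fun a1 a2 a3 => ?_⟩⟩, b4, fun l => by_contra fun a => ?_⟩
  · have c1 : (0 : ℤ) ≤ _ := a1.2 l
    have c2 : (0 : ℤ) ≤ _ := a2.2 l
    have := k w l
    refine (mul_nonneg_iff_of_pos_left hn).1 ?_
    linarith [mul_nonneg hpq.1.le c1, mul_nonneg hpq.2.le c2]
  · obtain ⟨l, a4⟩ := a3.exists_coord_pos
    have c1 : _ ≤ (0 : ℤ) := (R.not_pos_iff (R.smul_mem _ hr.1)).1 a1 l
    have c2 : _ ≤ (0 : ℤ) := (R.not_pos_iff (R.smul_mem _ hs.1)).1 a2 l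
    have := k w l
    linarith [mul_nonpos_of_nonneg_of_nonpos hpq.1.le c1, mul_nonpos_of_nonneg_of_nonpos hpq.2.le c2,
      mul_pos hn a4]
  · have e2 := eq_of_hf_of_not_hf b4 a
    have n3 : c ≠ l := fun e3 => n1 (e2.trans (e3 ▸ e1.symm))
    have k1 := k u⁻¹ c
    have c1 : (0 : ℤ) ≤ _ := su.2 c
    rw [e2, e1, inv_smul_smul, inv_smul_smul, R.rc_simple, R.rc_simple, Pi.single_eq_same,
      Pi.single_eq_of_ne n3] at k1
    linarith [mul_nonneg hpq.2.le c1, hpq.1]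

theorem exists_good_inJ (hr : R.InJ {i, j} r) (hs : R.InJ {i, j} s) (h1 : r ≠ s)
    (h2 : s ≠ R.neg r) : ∃ u v c d, Hf R r u ∧ Hf R s u ∧ ¬ Hf R r v ∧ ¬ Hf R s v ∧
      Good R r s u v c d := by
  classical
  have ex : ∃ n, ∃ u ∈ R.WJ {i, j}, ∃ v ∈ R.WJ {i, j}, Hf R r u ∧ Hf R s u ∧ ¬ Hf R r v ∧
      ¬ Hf R s v ∧ R.len (u⁻¹ * v) = n := by
    obtain ⟨u, hu, a1, a2⟩ := exists_common hr hs h2
    obtain ⟨v, hv, a3, a4⟩ := exists_common (R.inJ_neg hr) (R.inJ_neg hs) fun e =>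
      h2 (by rw [R.neg_neg hr.1] at e; rw [← e, R.neg_neg hs.1])
    exact ⟨_, u, hu, v, hv, a1, a2, (hf_neg hr.1).1 a3, (hf_neg hs.1).1 a4, rfl⟩
  obtain ⟨u, hu, v, hv, ru, su, rv, sv, e⟩ := Nat.find_spec ex
  have hm : ∀ u' ∈ R.WJ {i, j}, ∀ v' ∈ R.WJ {i, j}, Hf R r u' → Hf R s u' → ¬ Hf R r v' →
      ¬ Hf R s v' → R.len (u⁻¹ * v) ≤ R.len (u'⁻¹ * v') := fun u' a v' b a1 a2 a3 a4 =>
    e ▸ Nat.find_min' ex ⟨u', a, v', b, a1, a2, a3, a4, rfl⟩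
  obtain ⟨c, hc, h3⟩ := exists_step hu hv fun e => rv (e ▸ ru)
  by_cases h4 : Hf R r (u * R.s c)
  · have h5 : ¬ Hf R s (u * R.s c) := fun a =>
      (len_lt' h3).not_ge (hm _ (mul_mem hu (R.s_mem_WJ hc)) v hv h4 a rv sv)
    obtain ⟨d, hd⟩ := aux hs hr h1.symm (fun e => h2 (by rw [e, R.neg_neg hs.1])) hu hv su ru sv rv
      (fun v' a b b' => hm u hu v' a ru su b' b) hc h3 h5
    exact ⟨u, v, c, d, ru, su, rv, sv, fun β b1 b2 => (cox R).cone_comm s r ▸ hd β b1 b2⟩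
  · obtain ⟨d, hd⟩ := aux hr hs h1 h2 hu hv ru su rv sv (fun v' a => hm u hu v' a ru su) hc h3 h4
    exact ⟨u, v, c, d, ru, su, rv, sv, hd⟩

theorem exists_good (hr : r ∈ R.Φ) (hs : s ∈ R.Φ) (h1 : r ≠ s) (h2 : s ≠ R.neg r) :
    ∃ u v c d, Hf R r u ∧ Hf R s u ∧ ¬ Hf R r v ∧ ¬ Hf R s v ∧ Good R r s u v c d := by
  obtain ⟨w, i, j, hr', hs'⟩ := R.exists_smul_inJ_pair hr hs
  obtain ⟨u, v, c, d, a1, a2, a3, a4, a5⟩ := exists_good_inJ hr' hs'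
    (fun e => h1 (MulAction.injective w e))
    (fun e => h2 (MulAction.injective w (e.trans (R.smul_neg w hr).symm)))
  have k : ∀ β x, Hf R β (w⁻¹ * x) ↔ Hf R (w • β) x := fun β x => by
    rw [← hf_smul w, mul_inv_cancel_left]
  refine ⟨w⁻¹ * u, w⁻¹ * v, c, d, (k _ _).2 a1, (k _ _).2 a2, fun e => a3 ((k _ _).1 e),
    fun e => a4 ((k _ _).1 e), fun β b1 b2 => ?_⟩
  rw [mul_assoc, k] at b1 b2
  obtain ⟨c1, c2, c3⟩ := a5 _ b1 b2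
  exact ⟨(cone_smul w).1 c1, (k _ _).2 c2, fun l => by rw [mul_assoc, k]; exact c3 l⟩

end Grd2

namespace Bld

variable {Γ Ch : Type*} [Group Γ] [MulAction Γ Ch] {B : Bld R Γ Ch}
  {Γ' Ch' : Type*} [Group Γ'] [MulAction Γ' Ch'] {B' : Bld R Γ' Ch'}

section Grd2
variable {r s : A} {u v w : R.W} {i j k : ι} {g : Γ} {J : Set ι}

theorem Grd2.comm_mem_Tv (h1 : r ≠ s) {a b : Γ} (ha : a ∈ B.U r) (hb : b ∈ B.U s) (rw : Hf R r w)
    (sw : Hf R s w) (l : ι) : a⁻¹ * b⁻¹ * a * b ∈ B.Tv (B.a w) l := by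
  by_cases c : Hf R r (w * R.s l)
  · have h2 := (mem_U.1 ha).2 w l rw c
    have h3 := Tv_conj h2 b⁻¹
    rw [(mem_U.1 (inv_mem hb)).1 w sw, inv_inv] at h3
    simpa only [mul_assoc] using mul_mem (inv_mem h2) h3
  by_cases c' : Hf R s (w * R.s l)
  · have h2 := (mem_U.1 hb).2 w l sw c'
    have h3 := Tv_conj (inv_mem h2) a⁻¹
    rw [(mem_U.1 (inv_mem ha)).1 w rw, inv_inv] at h3
    exact mul_mem h3 h2
  exact absurd ((eq_of_hf_of_not_hf rw c).trans (eq_of_hf_of_not_hf sw c').symm) h1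

theorem RG.comm (hB : B.RG) (hr : r ∈ R.Φ) (hs : s ∈ R.Φ) (h1 : r ≠ s) (h2 : s ≠ R.neg r) {a b : Γ}
    (ha : a ∈ B.U r) (hb : b ∈ B.U s) : a⁻¹ * b⁻¹ * a * b ∈ spanX B.U ((cox R).cone r s) := by
  obtain ⟨u, v, c, d, ru, su, rv, sv, hg⟩ := Grd2.exists_good hr hs h1 h2
  have h3 := Grd2.comm_mem_Tv h1 ha hb ru su
  obtain ⟨y, hy, e⟩ := hB.factor (u := u * R.s c)
    ((h3 c).2 _ (by rw [B.δ_a, inv_mul_cancel_left])) (v * R.s d)
  obtain ⟨l, hl⟩ := Rt1.exists_opp (R := R) d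
  have h4 := (Grd2.comm_mem_Tv h1 ha hb ((hf_mul_w0 hr).2 rv) ((hf_mul_w0 hs).2 sv) l).2
    (B.a (v * R.s d * R.w0 Set.univ)) (by rw [B.δ_a, ← hl]; group)
  have h5 : y⁻¹ * (a⁻¹ * b⁻¹ * a * b) ∈ B.H := mem_H_of (v := v * R.s d)
    (by rw [mul_smul, e, inv_smul_smul]) (by
      rw [mul_smul, h4]
      exact span_fix (fun β hβ => (hf_mul_w0 hβ.1.mem).2 hβ.2) (inv_mem hy))
  have h6 := eq_one_of_H hB.faith h5 (w := u) fun l => mul_mem (inv_mem (spanX_le_iff.2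
    (fun β hβ x hx => (mem_U.1 hx).2 u l (hg β hβ.1 hβ.2).2.1 ((hg β hβ.1 hβ.2).2.2 l)) hy)) (h3 l)
  rw [← inv_mul_eq_one.1 h6]
  exact spanX_mono _ (fun β hβ => (hg β hβ.1 hβ.2).1) hy

end Grd2

end Bld

end Cfsg.Lib.BLD
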