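import Cfsg.Agent.BLD.Rt2
import Cfsg.Agent.Chev.WeylTypes
import Cfsg.Agent.Chev.ClsWeyl

/-! The Coxeter matrices of the standard types. -/

set_option autoImplicit false
set_option linter.unusedSectionVars false
set_option linter.unusedVariables false

namespace Cfsg.Lib.BLD

open Cfsg.Lib.Chev Cfsg.Lib.Perm.Plane Configuration

section Typ
open Cfsg.Lie

namespace Typ

theorem ord_of {ι A : Type} [Fintype ι] [DecidableEq ι] [DecidableEq A] (R : WeylData ι A) (i j : ι)
    {m : ℕ} (h : (i = j ∧ m = 1) ∨ (R.C i j = 0 ∧ m = 2) ∨ (R.C i j * R.C j i = 1 ∧ m = 3) ∨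
      (R.C i j * R.C j i = 2 ∧ m = 4)) : orderOf (R.s i * R.s j) = m := by
  rcases h with ⟨rfl, rfl⟩ | ⟨h, rfl⟩ | ⟨h, rfl⟩ | ⟨h, rfl⟩
  · rw [R.s_mul_self, orderOf_one]
  · exact orderOf_of_C0 h
  · exact orderOf_A2 h
  · exact orderOf_B2 h

theorem typeB_dot {m : ℕ} (i j : Fin m) : (typeB m).α j ⬝ᵥ (typeB m).α i =
    if i.val = j.val then (if i.val + 1 = m then 1 else 2) else
      if j.val = i.val + 1 ∨ i.val = j.val + 1 then -1 else 0 := by
  have := i.2
  have := j.2
  simp only [typeB_α, sub_dotProduct, dotProduct_sub, evE_dot]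
  split_ifs <;> omega

theorem typeB_C {m : ℕ} (i j : Fin m) : (typeB m).weyl.C i j = if i = j then 2 else
    if j.val = i.val + 1 then -1 else if i.val = j.val + 1 then (if i.val + 1 = m then -2 else -1)
    else 0 := by
  have := i.2
  have := j.2
  have h := ((typeB m).intg _ ((typeB m).α_mem i)).mul_dot ((typeB m).α j)
  rw [← Euclid.weyl_C, typeB_dot, typeB_dot, if_pos rfl] at h
  generalize (typeB m).weyl.C i j = c at h ⊢
  simp only [Fin.ext_iff]
  split_ifs at h ⊢ <;> omega

theorem typeC_dot {m : ℕ} (i j : Fin m) : (typeC m).α j ⬝ᵥ (typeC m).α i =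
    if i.val = j.val then (if i.val + 1 = m then 4 else 2) else
      if j.val = i.val + 1 ∨ i.val = j.val + 1 then
        (if i.val + 1 = m ∨ j.val + 1 = m then -2 else -1) else 0 := by
  have := i.2
  have := j.2
  rw [typeC_α, typeC_α]
  split_ifs <;> simp only [sub_dotProduct, dotProduct_sub, dotProduct_smul,
      smul_dotProduct, evE_dot, smul_eq_mul] <;> split_ifs <;> omega

theorem typeC_C {m : ℕ} (i j : Fin m) : (typeC m).weyl.C i j = if i = j then 2 else
    if j.val = i.val + 1 then (if j.val + 1 = m then -2 else -1) else if i.val = j.val + 1 then -1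
    else 0 := by
  have := i.2
  have := j.2
  have h := ((typeC m).intg _ ((typeC m).α_mem i)).mul_dot ((typeC m).α j)
  rw [← Euclid.weyl_C, typeC_dot, typeC_dot, if_pos rfl] at h
  generalize (typeC m).weyl.C i j = c at h ⊢
  simp only [Fin.ext_iff]
  split_ifs at h ⊢ <;> omega

theorem hasC_apply {l : ℕ} {A : Type} [DecidableEq A] {R : WeylData (Fin l) A} {CL : List (List ℤ)}
    (h : R.HasC CL) (i j : Fin l) : R.C i j = (CL.getD i []).getD j 0 := by
  rw [h i]
  simp

theorem ord_of_hasC {l : ℕ} {A : Type} [DecidableEq A] {R : WeylData (Fin l) A} {CL : List (List ℤ)}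
    (h : R.HasC CL) {m : ℕ → ℕ → ℕ} (hm : ∀ i j : Fin l, (i = j ∧ m i j = 1) ∨
      ((CL.getD i []).getD j 0 = 0 ∧ m i j = 2) ∨
      ((CL.getD i []).getD j 0 * (CL.getD j []).getD i 0 = 1 ∧ m i j = 3) ∨
      ((CL.getD i []).getD j 0 * (CL.getD j []).getD i 0 = 2 ∧ m i j = 4)) (i j : Fin l) :
    orderOf (R.s i * R.s j) = m i j := by
  refine ord_of R i j ?_
  rw [hasC_apply h, hasC_apply h]
  exact hm i j

end Typ

theorem ord_A (n : ℕ) (i j : Fin n) :
    orderOf ((Chev.typeA n).weyl.s i * (Chev.typeA n).weyl.s j) = mA i j := by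
  refine Typ.ord_of _ i j ?_
  simp only [typeA_C, mA, Fin.ext_iff]
  split_ifs <;> omega

theorem ord_B (n : ℕ) (i j : Fin n) : orderOf ((typeB n).weyl.s i * (typeB n).weyl.s j) = mB n i j := by
  refine Typ.ord_of _ i j ?_
  have := i.2
  have := j.2
  simp only [Typ.typeB_C, mB, Fin.ext_iff]
  split_ifs <;> omega

theorem ord_C (n : ℕ) (i j : Fin n) : orderOf ((typeC n).weyl.s i * (typeC n).weyl.s j) = mB n i j := by
  refine Typ.ord_of _ i j ?_
  have := i.2
  have := j.2
  simp only [Typ.typeC_C, mB, Fin.ext_iff]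
  split_ifs <;> omega

theorem ord_D (n : ℕ) (hn : 2 ≤ n) (i j : Fin n) :
    orderOf ((typeD n hn).weyl.s i * (typeD n hn).weyl.s j) = mD n i j := by
  refine Typ.ord_of _ i j ?_
  have := i.2
  have := j.2
  simp only [typeD_C, mD, Fin.ext_iff]
  split_ifs <;> omega

theorem ord_E6 (R : RootData chevE6) (i j : Fin 6) : orderOf (R.weyl.s i * R.weyl.s j) = mE i j :=
  Typ.ord_of_hasC (hasC_E6 R) (by decide +kernel) i j

theorem ord_E7 (R : RootData chevE7) (i j : Fin 7) : orderOf (R.weyl.s i * R.weyl.s j) = mE i j :=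
  Typ.ord_of_hasC (hasC_E7 R) (by decide +kernel) i j

theorem ord_E8 (R : RootData chevE8) (i j : Fin 8) : orderOf (R.weyl.s i * R.weyl.s j) = mE i j :=
  Typ.ord_of_hasC (hasC_E8 R) (by decide +kernel) i j

theorem ord_F4 (R : RootData chevF4) (i j : Fin 4) : orderOf (R.weyl.s i * R.weyl.s j) = mF i j :=
  Typ.ord_of_hasC (hasC_F4 R) (by decide +kernel) i j

end Typ

end Cfsg.Lib.BLD
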