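import Cfsg.Agent.BLD.ModS
import Cfsg.Agent.BLD.Typ
import Cfsg.Agent.Chev.LieModel

/-! # Orthogonal models -/

set_option autoImplicit false
set_option linter.unusedSectionVars false
set_option linter.unusedVariables false

namespace Cfsg.Lib.BLD

open Cfsg.Lib.Chev Cfsg.Lie

namespace ModO

open Matrix Cfsg.Lib.Class Cfsg.Lib.Class.Orth QuadraticMap

variable {F : Type} [Field F] [Fintype F] {I : Type} [Fintype I] [DecidableEq I]
  {Q : QuadraticForm F (I → F)} {m : ℕ} {P : OFrame m Q} {E : Euclid (Fin m) (Fin m)}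

theorem card_supp (p : I → Prop) : Nat.card {w : I → F // ∀ c, w c ≠ 0 → p c} =
    Fintype.card F ^ Nat.card {c // p c} := by
  classical
  rw [← Nat.card_eq_fintype_card, ← Nat.card_fun]
  refine Nat.card_congr ⟨fun w c => w.1 c, fun v => ⟨fun c => if h : p c then v ⟨c, h⟩ else 0,
    fun c hc => by_contra fun h => hc (dif_neg h)⟩, fun w => Subtype.ext (funext fun c => ?_),
    fun v => funext fun c => dif_pos c.2⟩
  by_cases h : p c
  · exact dif_pos h
  · exact (dif_neg h).trans (by_contra fun e => h (w.2 c fun e' => e e'.symm))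

theorem card_ray {a : I} (ha : P.wt a ≠ 0) {μ : Fin m → ℤ} (hμ : P.wt a ⬝ᵥ μ = 0) :
    Nat.card (unS P.wt (oMat Q) (rayS (P.wt a + μ))) =
      Fintype.card F ^ Nat.card {c // P.wt c = μ} := by
  obtain ⟨a', h⟩ := P.exists_bar ha
  rw [← card_supp]
  symm
  have h0 : ∀ w : I → F, (∀ c, w c ≠ 0 → P.wt c = μ) → w a' = 0 := fun w hw => by_contra fun e => by
    have := OFrame.dot_bar ha h
    rw [hw a' e, hμ] at this
    omega
  refine Nat.card_eq_of_bijective (fun w => ⟨eich Q (Pi.single a 1) w.1,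
    (OFrame.mem_ray_iff ha h hμ).2 ⟨w.1, w.2, rfl⟩⟩) ⟨fun w w' e => ?_, fun g => ?_⟩
  · have e' : eich Q (Pi.single a 1) w.1 = eich Q (Pi.single a 1) w'.1 := congrArg Subtype.val e
    refine Subtype.ext (funext fun c => by_contra fun hc => ?_)
    have h1 : P.wt c = μ := by
      by_cases h2 : w.1 c = 0
      · exact w'.2 c fun h3 => hc (h2.trans h3.symm)
      · exact w.2 c h2
    refine OFrame.eich_ne_one ha h (w := w.1 + -w'.1) (c := c)
      (by simpa [← sub_eq_add_neg, sub_eq_zero] using hc) ?_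
      (by simp [h0 _ w.2, h0 _ w'.2]) ?_
    · rintro rfl
      have := P.norm c ha
      rw [h1] at hμ this
      omega
    · rw [eich_add (P.sing a ha) (by rw [P.polar_eq a a' ha h, h0 _ w.2])
        (by rw [P.polar_eq a a' ha h]; simp [h0 _ w'.2]), eich_neg, e', mul_inv_cancel]
  · obtain ⟨w, hw, e⟩ := (OFrame.mem_ray_iff ha h hμ).1 g.2
    exact ⟨⟨w, hw⟩, Subtype.ext e⟩

theorem card_one {μ : Fin m → ℤ} (h : μ ⬝ᵥ μ = 1) : Nat.card {c // P.wt c = μ} = 1 := by
  obtain ⟨a, ha⟩ := P.surj μ h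
  have h0 : μ ≠ 0 := by rintro rfl; simp at h
  exact Nat.card_eq_one_iff_exists.2 ⟨⟨a, ha⟩, fun c => Subtype.ext
    (P.inj _ _ (by rw [c.2]; exact h0) (c.2.trans ha.symm))⟩

theorem card_B (i : Fin m) : Nat.card (unS P.wt (oMat Q) (rayS ((typeB m).α i))) =
    if i.val + 1 = m then Fintype.card F ^ Nat.card {c // P.wt c = 0} else Fintype.card F := by
  have hi := i.2
  obtain ⟨a, ha⟩ := P.surj (evE m i) (by simp [evE_dot])
  have h0 : P.wt a ≠ 0 := by
    intro e
    have : P.wt a ⬝ᵥ evE m i = 1 := by rw [ha]; simp [evE_dot]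
    simp [e] at this
  rw [typeB_α, sub_eq_add_neg, ← ha, card_ray h0 (by rw [ha]; simp [evE_dot])]
  split_ifs with h
  · rw [evE_of_le h.ge, neg_zero]
  · rw [card_one (by simp [evE_dot]; omega), pow_one]

theorem model (hE : P.Fits E) (hQ : (polarBilin Q).Nondegenerate) (hn : 5 ≤ Fintype.card I)
    {M : ℕ → ℕ → ℕ} {q : ℕ → ℕ} (hM : ∀ i j, orderOf (E.weyl.s i * E.weyl.s j) = M i j)
    (hq : ∀ i, Nat.card (unS P.wt (oMat Q) (rayS (E.α i))) = q i) : Model m M q (POmega F Q) := by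
  have : Finite (O Q) := Finite.of_injective _ oMat_injective
  have hx : ¬ Exc Q := not_exc_of_finrank (by simp; omega)
  have h := commutator_eq_EG hQ hx (by simp; omega)
  have := isSimpleGroup_POmega hQ hn
  have hY := hE.egGr.faithful
  have htop : (hE.egGr.rgd.map (QuotientGroup.mk' (Subgroup.center _))).G0 = ⊤ := by
    rw [RGD.map_G0, RGD.G0, Graded.rgd_X,
      show spanX hE.egGr.X {r | r ∈ E.weyl.Φ} = ⊤ from hE.gr.spanX_restrict_eq_top hE.spanX_eq, top_sup_eq,
      ← MonoidHom.range_eq_map, QuotientGroup.range_mk']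
  refine model_of_rgd (hY.map (LieModel.mem_H_of_mk hY)) ((MulEquiv.subgroupCongr htop).trans
    (Subgroup.topEquiv.trans ((pomegaEquiv Q).trans
      (nonempty_quot_center_congr (MulEquiv.subgroupCongr h)).some).symm)) hM fun i => ?_
  have hr : E.α i ∈ E.Φ := E.α_mem i
  rw [RGD.map_X, ← hq]
  refine (Nat.card_image_of_injOn fun a ha b hb e => ?_).trans ?_
  · have h1 := mul_mem (inv_mem ha) hb
    exact inv_mul_eq_one.1 (hY.eq_one_of_mem_X_of_mem_H hr h1 (LieModel.mem_H_of_mk hY _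
      (RGD.X_le_G0 _ hr h1) (by rw [map_mul, map_inv, e, inv_mul_cancel])))
  · exact Nat.card_congr (Subgroup.subgroupOfEquivOfLe
      ((le_spanX _ hr).trans hE.spanX_eq.le)).toEquiv

theorem exists_aniso (F : Type) [Field F] [Fintype F] : ∃ a b : F,
    ∀ z₁ z₂ : F, z₁ ^ 2 + a * z₁ * z₂ + b * z₂ ^ 2 = 0 → z₁ = 0 ∧ z₂ = 0 := by
  have h : ¬ Function.Surjective fun x : F => x ^ 2 + x := fun h => by
    have := Finite.injective_iff_surjective.2 h (a₁ := 0) (a₂ := -1) (by simp)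
    simp at this
  obtain ⟨c, hc⟩ := not_forall.1 h
  refine ⟨1, -c, fun x y e => ?_⟩
  have hy : y = 0 := by_contra fun hy => hc ⟨x / y, by
    field_simp
    linear_combination e⟩
  exact ⟨by simpa [hy] using e, hy⟩

end ModO

open Cfsg.Lib.Class Cfsg.Lib.Class.Orth

variable (F : Type) [Field F] [Fintype F]

theorem mod_B {n : ℕ} (hn : 3 ≤ n) (h : Odd (Fintype.card F)) :
    Model n (mB n) (fun _ => Fintype.card F) (POmega F (quadFormOdd n F)) := by
  rw [← coe_quadOdd]
  refine ModO.model fits_odd (quadOdd_nondegenerate (Class.two_ne_zero_of_odd_card h) n)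
    (by simp; omega) (ord_B n) fun i => ?_
  have : Nat.card {c // (frameOdd n F).wt c = 0} = 1 :=
    Nat.card_eq_one_iff_exists.2 ⟨⟨.inl (), rfl⟩, by
      rintro ⟨c | c, hc⟩
      exacts [rfl, absurd hc (wtH_ne_zero c)]⟩
  rw [ModO.card_B, this, pow_one, ite_self]

theorem mod_D {n : ℕ} (hn : 4 ≤ n) :
    Model n (mD n) (fun _ => Fintype.card F) (POmega F (quadFormPlus n F)) := by
  rw [← coe_quadPlus]
  refine ModO.model (fits_plus (by omega)) (quadPlus_nondegenerate n)
    (by simp; omega) (ord_D n _) fun i => ?_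
  rw [typeD_α']
  have := ModO.card_ray (P := framePlus n F) (a := dA i) (wtH_ne_zero (dA i)) (dA_dot (by omega) i)
  rwa [ModO.card_one (wtH_norm _), pow_one] at this

theorem mod_Dm {n : ℕ} (hn : 3 ≤ n) : ∃ a b : F,
    (∀ z₁ z₂ : F, z₁ ^ 2 + a * z₁ * z₂ + b * z₂ ^ 2 = 0 → z₁ = 0 ∧ z₂ = 0) ∧
    Model n (mB n) (fun i => if i + 1 = n then Fintype.card F ^ 2 else Fintype.card F)
      (POmega F (quadFormMinus n F a b)) := by
  obtain ⟨a, b, hab⟩ := ModO.exists_aniso F
  refine ⟨a, b, hab, ?_⟩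
  rw [← coe_quadMinus]
  refine ModO.model (fits_minus hab) (quadMinus_nondegenerate _ hab)
    (by simp; omega) (ord_B n) fun i => ?_
  have : Nat.card {c // (frameMinus n F hab).wt c = 0} = 2 := by
    refine (Nat.card_eq_of_bijective (fun c : Fin 2 => (⟨.inr c, rfl⟩ :
      {c // (frameMinus n F hab).wt c = 0})) ⟨fun c d e => Sum.inr_injective (congrArg Subtype.val e), ?_⟩).symm.trans
        (by simp)
    rintro ⟨c | c, hc⟩
    exacts [absurd hc (wtH_ne_zero c), ⟨c, rfl⟩]
  rw [ModO.card_B, this]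

end Cfsg.Lib.BLD
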