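import Cfsg.Agent.BLD.Typ
import Cfsg.Agent.Chev.RGDSplit
import Cfsg.Agent.Chev.LieSimple

/-! # The split models -/

set_option autoImplicit false
set_option linter.unusedSectionVars false

namespace Cfsg.Lib.BLD

open Cfsg.Lib.Chev Cfsg.Lie

variable (F : Type) [Field F] [Fintype F]

theorem model_of_rgd {n : ℕ} {A : Type} [DecidableEq A] {R : WeylData (Fin n) A} {Γ : Type} [Group Γ]
    [Finite Γ] {Y : RGD R Γ} (hY : Y.Faithful) {G : Type*} [Group G] [IsSimpleGroup G]
    (e : Y.G0 ≃* G) {m : ℕ → ℕ → ℕ} {q : ℕ → ℕ} (hm : ∀ i j, orderOf (R.s i * R.s j) = m i j)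
    (hq : ∀ i, Nat.card (Y.X (R.simple i)) = q i) : Model n m q G :=
  ⟨Y.G0, inferInstance, inferInstance, e.isSimpleGroup, hY.bnPair rfl, hY.idx rfl, ⟨e⟩,
    fun i j => by
      rw [bnM, ← (hY.weylEquiv rfl).orderOf_eq, map_mul, hY.weylEquiv_sg, hY.weylEquiv_sg, hm],
    fun i => (hY.param_idx rfl i).trans (hq i)⟩

namespace ModS

/-- The central quotient of a group generated by its root groups. -/
theorem model_quot {n : ℕ} {A : Type} [DecidableEq A] {R : WeylData (Fin n) A} {Γ : Type} [Group Γ]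
    [Finite Γ] {Y : RGD R Γ} (hY : Y.Faithful) (h : Y.G0 = ⊤) [IsSimpleGroup (Γ ⧸ Subgroup.center Γ)]
    {m : ℕ → ℕ → ℕ} {q : ℕ → ℕ} (hm : ∀ i j, orderOf (R.s i * R.s j) = m i j)
    (hq : ∀ i, Nat.card (Y.X (R.simple i)) = q i) : Model n m q (Γ ⧸ Subgroup.center Γ) := by
  refine model_of_rgd (hY.map (LieModel.mem_H_of_mk hY)) ((MulEquiv.subgroupCongr (by
    rw [RGD.map_G0, h, ← MonoidHom.range_eq_map, QuotientGroup.range_mk'])).trans
    Subgroup.topEquiv) hm fun i => ?_
  rw [RGD.map_X, ← hq i]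
  refine Nat.card_congr (Set.BijOn.equiv _ (Set.InjOn.bijOn_image fun a ha b hb e => ?_)).symm
  have k := Y.X_le_U (R.pos_simple i) (mul_mem (inv_mem ha) hb)
  exact inv_mul_eq_one.1 (hY.eq_one_of_mem_U_of_mem_H k (LieModel.mem_H_of_mk hY _ (RGD.U_le_G0 _ k)
    (by rw [map_mul, map_inv, e, inv_mul_cancel])))

theorem card_of {G : Type*} [Group G] {K : Subgroup G} {x : F → G} (h : ∀ {g}, g ∈ K ↔ ∃ t, x t = g)
    (hx : Function.Injective x) : Nat.card K = Fintype.card F := by
  rw [← Nat.card_eq_fintype_card, ← Nat.card_range_of_injective hx]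
  exact Nat.card_congr (Equiv.setCongr (Set.ext fun _ => h))

theorem mod_chev {D : ChevalleyDatum} (C : Core.Cert D) (R : RootData D)
    (hD : D ∈ [chevD4, chevF4, chevE6, chevE7, chevE8]) {m : ℕ → ℕ → ℕ}
    (hm : ∀ i j, orderOf (R.weyl.s i * R.weyl.s j) = m i j) :
    Model D.rank m (fun _ => Fintype.card F) (D.group F) :=
  haveI := (chevalley_simple_nonabelian' (F := F) hD).1
  model_of_rgd (C.faithful F R) (MulEquiv.subgroupCongr (C.group_eq_Y R).symm) hm fun i =>
    (C.card_xSub R (R.weyl_mem.1 (R.weyl.simple_mem i))).trans Nat.card_eq_fintype_card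

end ModS

open ModS

theorem mod_A {n : ℕ} (hn : 3 ≤ n) : Model n mA (fun _ => Fintype.card F)
    (Matrix.ProjectiveSpecialLinearGroup (Fin (n + 1)) F) := by
  have := Class.PSL_isSimpleGroup (ι := Fin (n + 1)) (F := F) (by simp; omega)
  refine model_quot (slGr n F).faithful slGr_G0 (ord_A n) fun i => ?_
  have h : i.castSucc ≠ i.succ := Fin.castSucc_lt_succ.ne
  change Nat.card ((slGr n F).X ((Chev.typeA n).α i)) = _
  rw [typeA_α']
  refine card_of F (mem_slGr_X h) fun t t' e => ?_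
  simpa [coe_slE h, h] using congrFun (congrFun (congrArg Subtype.val e) i.castSucc) i.succ

theorem mod_C {n : ℕ} (hn : 3 ≤ n) : Model n (mB n) (fun _ => Fintype.card F) (PSp n F) := by
  have := Class.PSp_isSimpleGroup (F := F) n (by omega) (Class.spPerfectCond_of_card n (.inl hn))
  refine model_quot (spGr n F).faithful spGr_G0 (ord_C n) fun i => ?_
  obtain ⟨a, b, h, e⟩ := mem_typeC'.1 ((typeC n).α_mem i)
  change Nat.card ((spGr n F).X ((typeC n).α i)) = _
  rw [e]
  by_cases h' : b = a.swap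
  · subst h'
    refine card_of F mem_unS_spL fun t t' e => ?_
    simpa [spL, h] using congrFun (congrFun (congrArg Subtype.val e) a) a.swap
  · refine card_of F (mem_unS_spE h h') fun t t' e => ?_
    simpa [coe_spE h h', h, Ne.symm h'] using congrFun (congrFun (congrArg Subtype.val e) a) b

theorem mod_E6 : Model 6 mE (fun _ => Fintype.card F) (chevE6.group F) :=
  mod_chev F Core.certE6 rootE6 (by simp) (ord_E6 _)

theorem mod_E7 : Model 7 mE (fun _ => Fintype.card F) (chevE7.group F) :=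
  mod_chev F Core.certE7 rootE7 (by simp) (ord_E7 _)

theorem mod_E8 : Model 8 mE (fun _ => Fintype.card F) (chevE8.group F) :=
  mod_chev F Core.certE8 rootE8 (by simp) (ord_E8 _)

theorem mod_F4 : Model 4 mF (fun _ => Fintype.card F) (chevF4.group F) :=
  mod_chev F Core.certF4 rootF4 (by simp) (ord_F4 _)

end Cfsg.Lib.BLD
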