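import Cfsg.Agent.BLD.Defs
import Cfsg.Agent.Chev.LieSimple
import Cfsg.Agent.Chev.TwistSplit
import Cfsg.Agent.Chev.TwistE6

/-!
# The BN-pairs of the twisted groups
-/

set_option autoImplicit false
set_option linter.unusedSectionVars false
set_option linter.unusedVariables false

namespace Cfsg.Lib.BLD

open Cfsg.Lib.Chev Cfsg.Lib.Chev.Core Cfsg.Lie

variable (F : Type) [Field F] [Fintype F]

theorem param_twist {ι A : Type} [Fintype ι] [DecidableEq ι] [DecidableEq A] {R : WeylData ι A}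
    {Γ : Type*} [Group Γ] [Finite Γ] {Y : RGD R Γ} {S : R.Sym} (T : Y.Twist S) (hY : Y.Faithful)
    {K : Subgroup Γ} (hK : T.G1 = K) (i : ι) :
    BN.param (T.bnPair hY hK) (T.idx hY hK i) = Nat.card ↥(Y.UL (S.orb i) ⊓ T.F) := by
  subst hK
  have hl := T.lifts_rep_t hY i
  have hX : ∀ a : ↥(Y.UL (S.orb i) ⊓ T.F), (a : Γ) ∈ T.G1 := fun a =>
    T.U_inf_le_G1 hY ⟨Y.UL_le_U _ a.2.1, a.2.2⟩
  symm
  refine Nat.card_congr (Equiv.ofBijective (fun a => ⟨((⟨a, hX a⟩ * (T.idx hY rfl i : T.G1) : T.G1) :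
    T.G1 ⧸ (T.bnPair hY rfl).B), ?_⟩) ⟨?_, ?_⟩)
  · rw [BN.dist_one_mk, BN.cellOf_eq_iff]
    exact BN.B_mul_mem_cell (Y.U_le_B (Y.UL_le_U _ a.2.1)) (BN.coe_mem_cell_sg _ _)
  · intro a a' e
    have e1 := QuotientGroup.eq.1 (congrArg Subtype.val e)
    change ((a : Γ) * T.rep (S.t i))⁻¹ * (a' * T.rep (S.t i)) ∈ Y.B at e1
    have h1 := RGD.Lifts.conj_UL (J := S.orb i) (S.t_inv i ▸ hl.inv :)
      (mul_mem (inv_mem a.2.1) a'.2.1)
    have h2 := hY.eq_one_of_mem_V_of_mem_B (Y.VL_le_V _ h1) (by simpa [mul_assoc] using e1)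
    rw [mul_eq_one_iff_eq_inv, inv_inv, mul_eq_left] at h2
    exact Subtype.ext (inv_mul_eq_one.1 h2)
  · rintro ⟨c, hc⟩
    obtain ⟨g, rfl⟩ := QuotientGroup.mk_surjective c
    rw [BN.dist_one_mk, BN.cellOf_eq_iff, BN.sg_def, T.mem_cell_mk_iff hY rfl hl] at hc
    obtain ⟨b, hb, u, hu, e⟩ := T.exists_of_mem_cell hY (inv_mem g.2) (RGD.inv_mem_cell hc)
      (inv_mem (T.rep_mem _)) hl.inv
    rw [S.t_inv, show S.t i = R.w0 (S.orb i) from rfl, Y.Uneg_w0] at hu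
    refine ⟨⟨u⁻¹, inv_mem hu⟩, Subtype.ext (QuotientGroup.eq.2 ?_)⟩
    change (u⁻¹ * T.rep (S.t i))⁻¹ * (g : Γ) ∈ Y.B
    rw [← inv_inv (g : Γ), e]
    simpa [mul_assoc] using hb.1

theorem bnM_twist {ι A : Type} [Fintype ι] [DecidableEq ι] [DecidableEq A] {R : WeylData ι A}
    {Γ : Type*} [Group Γ] {Y : RGD R Γ} {S : R.Sym} (T : Y.Twist S) (hY : Y.Faithful)
    {K : Subgroup Γ} (hK : T.G1 = K) (i j : ι) :
    bnM (T.bnPair hY hK) (T.idx hY hK i) (T.idx hY hK j) = orderOf (S.t i * S.t j) := by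
  refine orderOf_eq_orderOf_iff.2 fun n => ?_
  have h : ∀ n : ℕ, Y.Lifts ((T.rep (S.t i) * T.rep (S.t j)) ^ n) ((S.t i * S.t j) ^ n) := fun n => by
    induction n with
    | zero => simpa using RGD.lifts_one_iff.2 (one_mem _)
    | succ n ih => simpa only [pow_succ] using ih.mul ((T.lifts_rep_t hY i).mul (T.lifts_rep_t hY j))
  rw [BN.sg_def, BN.sg_def, ← BN.mk_mul, ← QuotientGroup.mk_pow, BN.mk_eq_one_iff]
  exact ⟨hY.eq_one_of_mem_B (h n), fun e => Y.H_le_B (RGD.lifts_one_iff.1 (e ▸ h n))⟩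

/-- The model given by a twisted group. -/
theorem ModT.model {ι A : Type} [Fintype ι] [DecidableEq ι] [DecidableEq A] {R : WeylData ι A}
    {Γ : Type} [Group Γ] [Finite Γ] {Y : RGD R Γ} {S : R.Sym} (T : Y.Twist S) (hY : Y.Faithful)
    {G : Type*} [Group G] [IsSimpleGroup G] (e : T.G1 ≃* G) {n : ℕ} (f : Fin n → ι)
    (h1 : ∀ a b, f b ∈ S.orb (f a) → a = b) (h2 : ∀ i, ∃ a, i ∈ S.orb (f a)) {m : ℕ → ℕ → ℕ}
    {q : ℕ → ℕ} (hm : ∀ a b, orderOf (S.t (f a) * S.t (f b)) = m a b)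
    (hq : ∀ a, Nat.card ↥(Y.UL (S.orb (f a)) ⊓ T.F) = q a) : Model n m q G :=
  ⟨T.G1, _, inferInstance, e.isSimpleGroup, T.bnPair hY rfl, Equiv.ofBijective
    (fun a => T.idx hY rfl (f a)) ⟨fun a b h => h1 a b ((T.idx_eq_iff hY rfl).1 h), fun s =>
      let ⟨i, hi⟩ := T.idx_surjective hY rfl s
      let ⟨a, ha⟩ := h2 i
      ⟨a, ((T.idx_eq_iff hY rfl).2 ha).trans hi⟩⟩, ⟨e⟩,
    fun a b => (bnM_twist T hY rfl _ _).trans (hm a b), fun a => (param_twist T hY rfl _).trans (hq a)⟩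

theorem mod_2E6 {q : ℕ} (hq : IsPrimePow q) (hF : Fintype.card F = q ^ 2) :
    Model 4 mF (fun i => if i < 2 then q ^ 2 else q) (twistedE6 F q) := by
  obtain ⟨f, hf, h4, hM⟩ := exists_twE6 hF
  have := isSimpleGroup_of_isLieTypeChar (p := ringChar F) (G := twistedE6 F q) (by
    iterate 7 refine .inr ?_
    exact .inl ⟨F, _, _, inferInstance, q, hq, .inl ⟨hF, ⟨.refl _⟩⟩⟩)
  refine ModT.model (twE6 f hf) (certE6.faithful F rootE6) (MulEquiv.subgroupCongr hM)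
    (![0, 2, 3, 1] : Fin 4 → Fin 6) (fun a b h => ?_) (fun i : Fin 6 => ?_)
    (fun a b => (hasC_E6 rootE6).orderOf_t_mul_t _
      (subE6_π f) twChk_E6 (by revert a b; decide +kernel)) fun a => ?_
  · replace h : ![0, 2, 3, 1] b ∈ orbE6 (![0, 2, 3, 1] a) := (subE6_orb f _).le h
    revert a b; decide
  · obtain ⟨a, h⟩ : ∃ a, i ∈ orbE6 (![0, 2, 3, 1] a) := by revert i; decide
    exact ⟨a, (subE6_orb f _).ge h⟩
  · refine (twE6_card_UL f hf hF h4 _).2.trans ((congrArg (fun k => q ^ (k / 1))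
      (twist_E6_t (hasC_E6 rootE6) _ (subE6_π f) _).2.2).trans ?_)
    fin_cases a <;> simp [orbE6]

end Cfsg.Lib.BLD
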