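import Cfsg.Agent.BLD.ModT
import Cfsg.Agent.Chev.OverShape

/-!
# The unitary groups as models
-/

set_option autoImplicit false
set_option linter.unusedSectionVars false
set_option linter.unusedVariables false

namespace Cfsg.Lib.BLD

open Cfsg.Lib.Chev Cfsg.Lib.Perm.Plane Configuration

namespace ModU

open Equiv Equiv.Perm Matrix Cfsg.Lib.Class Cfsg.Lib.Char

section weyl

variable {m : ℕ} {w w' : (Chev.typeA m).weyl.W} {π π' : Perm (Fin (m + 1))}

/-- The root `e_a - e_b`. -/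
abbrev rt (a b : Fin (m + 1)) : Fin (m + 1) → ℤ := Pi.single a 1 - Pi.single b 1

/-- `w` permutes the coordinates by `π`. -/
def Ac (w : (Chev.typeA m).weyl.W) (π : Perm (Fin (m + 1))) : Prop :=
  ∀ a b, a ≠ b → w • rt a b = rt (π a) (π b)

theorem Ac_eq_1' : type_of% @Ac.eq_1 := @Ac.eq_1

theorem Ac.one : Ac (m := m) 1 1 := fun _ _ _ => one_smul _ _

theorem Ac.mul (h : Ac w π) (h' : Ac w' π') : Ac (w * w') (π * π') := fun a b hab => by
  rw [mul_smul, h' a b hab, h _ _ (π'.injective.ne hab)]; rfl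

theorem Ac.pow (h : Ac w π) (k : ℕ) : Ac (w ^ k) (π ^ k) := by
  induction k with
  | zero => simpa using Ac.one
  | succ k ih => rw [pow_succ, pow_succ]; exact ih.mul h

theorem Ac.unique (h : Ac w π) (h' : Ac w' π) : w = w' :=
  (Chev.typeA m).weyl.ext_roots fun r hr => by
    obtain ⟨a, b, hab, rfl⟩ := mem_typeA'.1 hr
    exact (h a b hab).trans (h' a b hab).symm

theorem Ac.eq_one_iff (hm : 1 ≤ m) (h : Ac w π) : w = 1 ↔ π = 1 := by
  refine ⟨fun e => Equiv.ext fun a => ?_, fun e => h.unique (e ▸ Ac.one)⟩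
  haveI : Nontrivial (Fin (m + 1)) := Fin.nontrivial_iff_two_le.2 (by omega)
  obtain ⟨b, hb⟩ := exists_ne a
  have h1 := congrFun (h a b hb.symm) a
  rw [e, one_smul] at h1
  by_contra h2
  have h3 : a ≠ π a := fun h => h2 h.symm
  simp only [Pi.sub_apply, Pi.single_eq_same, Pi.single_eq_of_ne hb.symm, Pi.single_eq_of_ne h3,
    Pi.single_apply] at h1
  split_ifs at h1 <;> omega

theorem Ac.orderOf_eq (hm : 1 ≤ m) (h : Ac w π) : orderOf w = orderOf π :=
  orderOf_eq_orderOf_iff.2 fun k => (h.pow k).eq_one_iff hm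

theorem Ac.s (i : Fin m) : Ac ((Chev.typeA m).weyl.s i) (swap i.castSucc i.succ) := fun a b hab => by
  have hne : i.castSucc ≠ i.succ := Fin.castSucc_lt_succ.ne
  have h2 : rt i.castSucc i.succ ⬝ᵥ rt i.castSucc i.succ = 2 := by
    simp [hne, hne.symm]
  have key : ∀ c, reflE (rt i.castSucc i.succ) (Pi.single c 1) =
      Pi.single (swap i.castSucc i.succ c) 1 := fun c => by
    rw [reflE_apply, corv_of_two h2]
    by_cases h3 : c = i.castSucc
    · subst h3; simp [hne]
    by_cases h4 : c = i.succ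
    · subst h4; simp [hne.symm]
    · simp [h3, h4, swap_apply_of_ne_of_ne]
  rw [(Chev.typeA m).weyl.s_smul i (mem_typeA'.2 ⟨a, b, hab, rfl⟩), Euclid.weyl_σ, typeA_α', map_sub,
    key, key]

theorem Ac.mem_fix (h : Ac w π) (hπ : ∀ a, π a.rev = (π a).rev) : w ∈ (symA m).fix := by
  rw [WeylData.Sym.mem_fix_iff_smul]
  intro r hr
  obtain ⟨a, b, hab, rfl⟩ := mem_typeA'.1 hr
  have key : ∀ a b : Fin (m + 1), (symA m).ρ (rt a b) = rt b.rev a.rev := fun a b => by
    rw [symA_ρ, map_sub, negRev_single, negRev_single, neg_sub_neg]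
  rw [key, h a b hab, key, h _ _ (Fin.rev_injective.ne hab.symm), hπ, hπ]

theorem Ac.t (hm : 1 ≤ m) (h : Ac w π) (hπ : ∀ a, π a.rev = (π a).rev) (h1 : π ≠ 1) {i : Fin m}
    (hw : w ∈ (Chev.typeA m).weyl.WJ {i, i.rev}) : Ac ((symA m).t i) π := by
  rcases WeylData.Sym.eq_one_or_t (h.mem_fix hπ) (symA_orb i ▸ hw) with e | e
  · exact absurd ((h.eq_one_iff hm).1 e) h1
  · exact e ▸ h

theorem rev_swap (x y z : Fin (m + 1)) : (swap x y z).rev = swap x.rev y.rev z.rev :=
  (Fin.rev_injective.swap_apply x y z).symm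

theorem ac_long (hm : 1 ≤ m) (i : Fin m) (h : 2 * (i.val + 1) < m) :
    Ac ((symA m).t i) (swap i.castSucc i.succ * swap i.castSucc.rev i.succ.rev) := by
  have h1 := (Ac.s i).mul (Ac.s i.rev)
  rw [← Fin.rev_succ, ← Fin.rev_castSucc, Equiv.swap_comm i.succ.rev] at h1
  have hd : (swap i.castSucc i.succ).Disjoint (swap i.castSucc.rev i.succ.rev) :=
    disjoint_swap_swap (by simp [Fin.ext_iff]; omega)
  refine h1.t hm (fun a => ?_) (fun e => ?_)
    (mul_mem ((Chev.typeA m).weyl.s_mem_WJ (by simp)) ((Chev.typeA m).weyl.s_mem_WJ (by simp)))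
  · rw [Perm.mul_apply, Perm.mul_apply, rev_swap, rev_swap, Fin.rev_rev, Fin.rev_rev,
      ← Perm.mul_apply, hd.commute.eq, Perm.mul_apply]
  · exact Fin.castSucc_lt_succ.ne (swap_eq_one_iff.1 (hd.mul_eq_one_iff.1 e).1)

theorem ac_short (hm : 1 ≤ m) (i : Fin m) (h : 2 * (i.val + 1) = m + 1 ∨ 2 * (i.val + 1) = m) :
    Ac ((symA m).t i) (swap i.castSucc i.castSucc.rev) := by
  have hπ : ∀ a : Fin (m + 1), swap i.castSucc i.castSucc.rev a.rev =
      (swap i.castSucc i.castSucc.rev a).rev := fun a => by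
    rw [rev_swap, Fin.rev_rev, Equiv.swap_comm]
  have h1 : swap i.castSucc i.castSucc.rev ≠ 1 := fun e => by
    have := swap_eq_one_iff.1 e
    simp only [Fin.ext_iff, Fin.val_castSucc, Fin.val_rev] at this
    omega
  rcases h with h | h
  · have e : i.castSucc.rev = i.succ := by
      simp only [Fin.ext_iff, Fin.val_castSucc, Fin.val_rev, Fin.val_succ]; omega
    exact (e ▸ Ac.s i).t hm hπ h1 ((Chev.typeA m).weyl.s_mem_WJ (by simp))
  · have e : i.rev.castSucc = i.succ := by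
      simp only [Fin.ext_iff, Fin.val_castSucc, Fin.val_rev, Fin.val_succ]; omega
    have h2 := ((Ac.s i.rev).mul (Ac.s i)).mul (Ac.s i.rev)
    rw [e, ← Fin.rev_castSucc, swap_mul_swap_mul_swap Fin.castSucc_lt_succ.ne
      (fun e => h1 (swap_eq_one_iff.2 e)), Equiv.swap_comm] at h2
    exact h2.t hm hπ h1 (mul_mem (mul_mem ((Chev.typeA m).weyl.s_mem_WJ (by simp))
      ((Chev.typeA m).weyl.s_mem_WJ (by simp))) ((Chev.typeA m).weyl.s_mem_WJ (by simp)))

theorem via_swap {α β : Type*} [DecidableEq α] [DecidableEq β] (f : α ↪ β) (a b : α) :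
    viaEmbeddingHom f (swap a b) = swap (f a) (f b) := by
  ext x
  rw [viaEmbeddingHom_apply]
  by_cases hx : x ∈ Set.range f
  · obtain ⟨y, rfl⟩ := hx
    rw [viaEmbedding_apply, f.injective.swap_apply]
  · rw [viaEmbedding_apply_of_notMem _ _ _ hx,
      swap_apply_of_ne_of_ne (fun h => hx ⟨a, h.symm⟩) (fun h => hx ⟨b, h.symm⟩)]

/-- A long reflection of the hyperoctahedral group. -/
abbrev lg {k : ℕ} (a b : Fin k) : Perm (Fin k ⊕ Fin k) :=
  swap (.inl a) (.inl b) * swap (.inr a) (.inr b)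

/-- A short reflection of the hyperoctahedral group. -/
abbrev st {k : ℕ} (a : Fin k) : Perm (Fin k ⊕ Fin k) := swap (.inl a) (.inr a)

theorem exists_via {k : ℕ} (g : Fin k → Fin (m + 1)) (hg : Function.Injective g)
    (h : ∀ a, 2 * (g a).val < m) : ∃ Φ : Perm (Fin k ⊕ Fin k) →* Perm (Fin (m + 1)),
      Function.Injective Φ ∧ (∀ a b, Φ (lg a b) = swap (g a) (g b) * swap (g a).rev (g b).rev) ∧
        ∀ a, Φ (st a) = swap (g a) (g a).rev := by
  have hf : Function.Injective (Sum.elim g fun a => (g a).rev) := by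
    refine hg.sumElim (Fin.rev_injective.comp hg) fun a b e => ?_
    have h1 := h a
    have h2 := h b
    simp only [Fin.ext_iff, Fin.val_rev] at e
    omega
  exact ⟨viaEmbeddingHom ⟨_, hf⟩, viaEmbeddingHom_injective _,
    fun a b => by rw [map_mul, via_swap, via_swap]; rfl, fun a => via_swap _ _ _⟩

theorem o3 : orderOf (lg (0 : Fin 3) 1 * lg 1 2) = 3 :=
  haveI : Fact (Nat.Prime 3) := ⟨Nat.prime_three⟩
  orderOf_eq_prime (by decide) (by decide)

theorem o4 : orderOf (lg (0 : Fin 2) 1 * st 1) = 4 :=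
  orderOf_eq_prime_pow (p := 2) (n := 1) (by decide) (by decide)

theorem o2 : orderOf (lg (0 : Fin 4) 1 * lg 2 3) = 2 := orderOf_eq_prime (by decide) (by decide)

theorem o2' : orderOf (lg (0 : Fin 3) 1 * st 2) = 2 := orderOf_eq_prime (by decide) (by decide)

theorem ord_lt {n : ℕ} (hm : 2 * n = m + 1 ∨ 2 * n = m) {i j : Fin m} (hij : i.val < j.val)
    (hj : j.val < n) : orderOf ((symA m).t i * (symA m).t j) = mB n i j := by
  have h1 : 1 ≤ m := by omega
  have hi := ac_long h1 i (by omega)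
  rw [mB, if_neg hij.ne]
  by_cases e1 : j.val + 1 = n
  · have hj := ac_short h1 j (by omega)
    rw [(hi.mul hj).orderOf_eq h1]
    by_cases e2 : i.val + 1 = j
    · have e3 : j.castSucc = i.succ := Fin.ext e2.symm
      obtain ⟨Φ, hΦ, a1, a2⟩ := exists_via ![i.castSucc, i.succ]
        (fun a b e => by fin_cases a <;> fin_cases b <;> simp [Fin.ext_iff] at e ⊢)
        (fun a => by fin_cases a <;> simp <;> omega)
      rw [if_pos (.inl e2), if_pos (.inr e1), ← o4, ← orderOf_injective Φ hΦ, map_mul, a1, a2, e3]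
      rfl
    · obtain ⟨Φ, hΦ, a1, a2⟩ := exists_via ![i.castSucc, i.succ, j.castSucc]
        (fun a b e => by fin_cases a <;> fin_cases b <;> simp [Fin.ext_iff] at e ⊢ <;> omega)
        (fun a => by fin_cases a <;> simp <;> omega)
      rw [if_neg (by omega), ← o2', ← orderOf_injective Φ hΦ, map_mul, a1, a2]
      rfl
  · have hj := ac_long h1 j (by omega)
    rw [(hi.mul hj).orderOf_eq h1]
    by_cases e2 : i.val + 1 = j
    · have e3 : j.castSucc = i.succ := Fin.ext e2.symm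
      obtain ⟨Φ, hΦ, a1, a2⟩ := exists_via ![i.castSucc, i.succ, j.succ]
        (fun a b e => by fin_cases a <;> fin_cases b <;> simp [Fin.ext_iff] at e ⊢ <;> omega)
        (fun a => by fin_cases a <;> simp <;> omega)
      rw [if_pos (.inl e2), if_neg (by omega), ← o3, ← orderOf_injective Φ hΦ, map_mul, a1, a1, e3]
      rfl
    · obtain ⟨Φ, hΦ, a1, a2⟩ := exists_via ![i.castSucc, i.succ, j.castSucc, j.succ]
        (fun a b e => by fin_cases a <;> fin_cases b <;> simp [Fin.ext_iff] at e ⊢ <;> omega)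
        (fun a => by fin_cases a <;> simp <;> omega)
      rw [if_neg (by omega), ← o2, ← orderOf_injective Φ hΦ, map_mul, a1, a1]
      rfl

theorem ord_t {n : ℕ} (hm : 2 * n = m + 1 ∨ 2 * n = m) {i j : Fin m} (hi : i.val < n)
    (hj : j.val < n) : orderOf ((symA m).t i * (symA m).t j) = mB n i j := by
  rcases lt_trichotomy i.val j.val with h | h | h
  · exact ord_lt hm h hj
  · rw [Fin.ext h, WeylData.Sym.t_mul_self, orderOf_one, mB, if_pos rfl]
  · rw [← orderOf_inv, _root_.mul_inv_rev, WeylData.Sym.t_inv, WeylData.Sym.t_inv, ord_lt hm h hi]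
    simp only [mB, eq_comm (a := j.val) (b := i.val), or_comm]

end weyl

section count

variable {F : Type} [Field F] [Fintype F] {q m : ℕ} (hF : Fintype.card F = q ^ 2)

theorem card_fixed (i : Fin m) (e : i.rev = i) : Nat.card ((slGr m F).rgd.UL {i, i.rev} ⊓
    (suTw m (frobq_ne_id hF) (frobq_frobq hF)).F : Subgroup _) = q := by
  have hab : i.castSucc ≠ i.succ := Fin.castSucc_lt_succ.ne
  have hσ : ∀ t, slE i.castSucc i.succ t ∈ (suTw m (frobq_ne_id hF) (frobq_frobq hF)).F ↔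
      t + t ^ q = 0 := fun t => by
    rw [mem_suTw_F', suσ_slE _ hab, Fin.rev_castSucc, Fin.rev_succ, e, ← mul_inv_eq_one,
      stA_slE.inv hab, stA_slE.add _ _ hab, slE_eq_one_iff hab, frobq_apply]
    constructor <;> intro h <;> linear_combination -h
  refine .trans ?_
    (Form.card_trace_eq hF (n := 0) (zero_pow (by have := two_le_of_card_sq hF; omega)))
  refine (Nat.card_congr (Equiv.ofBijective (fun t : {x : F // x + x ^ q = 0} =>
    (⟨slE i.castSucc i.succ t, slE_mem_UL Fin.castSucc_lt_succ (fun j h h' =>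
        .inl (Fin.ext (by simp only [Fin.val_castSucc, Fin.val_succ] at h h'; omega))) _,
      (hσ _).2 t.2⟩ : ((slGr m F).rgd.UL {i, i.rev} ⊓
        (suTw m (frobq_ne_id hF) (frobq_frobq hF)).F : Subgroup _)))
    ⟨fun s t h => Subtype.ext ?_, fun ⟨g, hg⟩ => ?_⟩)).symm
  · have := congrFun (congrFun (congrArg (fun g => g.1.1) h) i.castSucc) i.succ
    simpa [coe_slE hab, hab] using this
  · obtain ⟨t, rfl⟩ := (mem_slGr_X hab).1 (sl_UL_le (fun x y hxy h t => by
      have hxy' : x.val < y := hxy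
      have hy := y.2
      have h3 := h ⟨x, by omega⟩ le_rfl hxy'
      have h4 := h ⟨y - 1, by omega⟩ (by simp only; omega) (by simp only; omega)
      simp only [e, Set.mem_insert_iff, Set.mem_singleton_iff, or_self, Fin.ext_iff] at h3 h4
      obtain rfl : x = i.castSucc := Fin.ext h3
      obtain rfl : y = i.succ :=
        Fin.ext (by rw [Fin.val_succ]; simp only [Fin.val_castSucc] at *; omega)
      exact (mem_slGr_X hab).2 ⟨t, rfl⟩) hg.1)
    exact ⟨⟨t, (hσ t).1 hg.2⟩, rfl⟩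

theorem card_adj (i : Fin m) (e : i.rev.castSucc = i.succ) :
    Nat.card ((slGr m F).rgd.UL {i, i.rev} ⊓
      (suTw m (frobq_ne_id hF) (frobq_frobq hF)).F : Subgroup _) = q ^ 3 := by
  have e' : i.rev.val = i.val + 1 := congrArg Fin.val e
  set a := i.castSucc with ha
  set b := i.succ with hb
  set c := i.rev.succ with hc
  have va : a.val = i := rfl
  have vb : b.val = i + 1 := rfl
  have vc : c.val = i + 2 := by rw [hc, Fin.val_succ, e']
  have hab : a < b := by rw [Fin.lt_def]; omega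
  have hbc : b < c := by rw [Fin.lt_def]; omega
  have hac := hab.trans hbc
  have ra : a.rev = c := Fin.rev_castSucc i
  have rb : b.rev = b := (Fin.rev_succ i).trans e
  have rc : c.rev = a := by rw [← ra, Fin.rev_rev]
  have hJ : ∀ j : Fin m, j ∈ ({i, i.rev} : Set (Fin m)) ↔ j.val = i ∨ j.val = i + 1 := fun j => by
    simp only [Set.mem_insert_iff, Set.mem_singleton_iff, Fin.ext_iff, e']
  have hm := heis_mul (stA_slE (F := F)) hab.ne hbc.ne hac.ne
  have hinj : ∀ s t v s' t' v' : F, slE a b s * slE b c t * slE a c v =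
      slE a b s' * slE b c t' * slE a c v' → s = s' ∧ t = t' ∧ v = v' := by
    intro s t v s' t' v' h
    have h1 := congrFun (congrFun (congrArg Subtype.val h) a) b
    have h2 := congrFun (congrFun (congrArg Subtype.val h) b) c
    simp [coe_slE hab.ne, coe_slE hbc.ne, coe_slE hac.ne, mul_add, add_mul, hab.ne, hbc.ne',
      hab.ne', hac.ne', hbc.ne, hac.ne, single_mul_single_of_ne] at h1 h2
    subst h1 h2
    refine ⟨rfl, rfl, ?_⟩
    rwa [mul_right_inj, ← mul_inv_eq_one, stA_slE.inv hac.ne, stA_slE.add _ _ hac.ne,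
      slE_eq_one_iff hac.ne, add_neg_eq_zero] at h
  have hσ : ∀ s t v : F, suσ (frobq hF) (slE a b s * slE b c t * slE a c v) =
      slE a b (-t ^ q) * slE b c (-s ^ q) * slE a c (-v ^ q - t ^ q * s ^ q) := fun s t v => by
    have := hm 0 (-s ^ q) 0 (-t ^ q) 0 (-v ^ q)
    rw [stA_slE.zero hab.ne, stA_slE.zero hac.ne, stA_slE.zero hbc.ne] at this
    rw [map_mul, map_mul, suσ_slE _ hab.ne, suσ_slE _ hbc.ne, suσ_slE _ hac.ne, ra, rb, rc]
    simp only [neg_mul_neg, one_mul, mul_one, zero_add, add_zero, frobq_apply] at this ⊢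
    rw [mul_assoc, this]
  have hx : ∀ s v : F, v + v ^ q = s * s ^ q → slE a b s * slE b c (-s ^ q) * slE a c v ∈
      (slGr m F).rgd.UL {i, i.rev} ⊓ (suTw m (frobq_ne_id hF) (frobq_frobq hF)).F := by
    intro s v hv
    refine ⟨mul_mem (mul_mem (slE_mem_UL hab (fun j _ _ => (hJ j).2 (by omega)) _)
      (slE_mem_UL hbc (fun j _ _ => (hJ j).2 (by omega)) _))
      (slE_mem_UL hac (fun j _ _ => (hJ j).2 (by omega)) _), (mem_suTw_F' _ _).2 ?_⟩
    have h1 : (-s ^ q) ^ q = -s := by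
      rw [← frobq_apply hF, ← frobq_apply hF, map_neg, frobq_frobq]
    rw [hσ, h1, neg_neg]
    congr 2
    linear_combination -hv
  have hcard : Nat.card (Σ s : F, {v : F // v + v ^ q = s * s ^ q}) = q ^ 3 := by
    rw [Nat.card_sigma, Finset.sum_congr rfl fun s _ => Form.card_trace_eq hF (n := s * s ^ q) (by
      rw [← frobq_apply hF, ← frobq_apply hF, map_mul, frobq_frobq, mul_comm])]
    rw [Finset.sum_const, Finset.card_univ, hF, smul_eq_mul, ← pow_succ]
  rw [← hcard]
  refine (Nat.card_congr (Equiv.ofBijective (fun x : Σ s : F, {v : F // v + v ^ q = s * s ^ q} =>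
    (⟨_, hx x.1 x.2 x.2.2⟩ : ((slGr m F).rgd.UL {i, i.rev} ⊓
        (suTw m (frobq_ne_id hF) (frobq_frobq hF)).F : Subgroup _))) ⟨?_, fun ⟨g, hg⟩ => ?_⟩)).symm
  · rintro ⟨s, v, hv⟩ ⟨s', v', hv'⟩ h
    obtain ⟨rfl, -, rfl⟩ := hinj _ _ _ _ _ _ (congrArg Subtype.val h)
    rfl
  let K : Subgroup (SpecialLinearGroup (Fin (m + 1)) F) :=
    { carrier := {g | ∃ s t v, g = slE a b s * slE b c t * slE a c v}
      one_mem' := ⟨0, 0, 0, by
        rw [stA_slE.zero hab.ne, stA_slE.zero hac.ne, stA_slE.zero hbc.ne, one_mul, one_mul]⟩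
      mul_mem' := by
        rintro _ _ ⟨s, t, v, rfl⟩ ⟨s', t', v', rfl⟩
        exact ⟨_, _, _, hm _ _ _ _ _ _⟩
      inv_mem' := by
        rintro _ ⟨s, t, v, rfl⟩
        refine ⟨-s, -t, -v - s * t, inv_eq_of_mul_eq_one_right ?_⟩
        rw [hm, add_neg_cancel, add_neg_cancel, show v + (-v - s * t) - -s * t = 0 by ring,
          stA_slE.zero hab.ne, stA_slE.zero hac.ne, stA_slE.zero hbc.ne, one_mul, one_mul] }
  obtain ⟨s, t, v, rfl⟩ : g ∈ K := by
    refine sl_UL_le (fun x y hxy h t => ?_) hg.1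
    have hxy' : x.val < y := hxy
    have hy := y.2
    have h5 := (hJ _).1 (h ⟨x, by omega⟩ le_rfl hxy')
    have h6 := (hJ _).1 (h ⟨y - 1, by omega⟩ (by simp only; omega) (by simp only; omega))
    simp only at h5 h6
    have : (x = a ∧ y = b) ∨ (x = b ∧ y = c) ∨ (x = a ∧ y = c) := by
      simp only [Fin.ext_iff]; omega
    rcases this with ⟨rfl, rfl⟩ | ⟨rfl, rfl⟩ | ⟨rfl, rfl⟩
    · exact ⟨t, 0, 0, by rw [stA_slE.zero hac.ne, stA_slE.zero hbc.ne, mul_one, mul_one]⟩
    · exact ⟨0, t, 0, by rw [stA_slE.zero hac.ne, stA_slE.zero hab.ne, mul_one, one_mul]⟩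
    · exact ⟨0, 0, t, by rw [stA_slE.zero hbc.ne, stA_slE.zero hab.ne, mul_one, one_mul]⟩
  have h3 := (mem_suTw_F' _ _).1 hg.2
  rw [hσ] at h3
  obtain ⟨h4, h5, h6⟩ := hinj _ _ _ _ _ _ h3
  subst h5
  exact ⟨⟨s, v, by linear_combination -h6 + s ^ q * h4⟩, rfl⟩

include hF in
theorem model {n : ℕ} (hn : 3 ≤ n) (hm : 2 * n = m + 1 ∨ 2 * n = m) {c : ℕ}
    (hc : ∀ i : Fin m, i.val + 1 = n → Nat.card ((slGr m F).rgd.UL {i, i.rev} ⊓
      (suTw m (frobq_ne_id hF) (frobq_frobq hF)).F : Subgroup _) = c) :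
    Model n (mB n) (fun i => if i + 1 = n then c else q ^ 2) (PSU (m + 1) F q) := by
  have hY : ((slGr m F).rgd.map (QuotientGroup.mk' (Subgroup.center _))).Faithful :=
    (slGr m F).faithful.map (LieModel.mem_H_of_mk (slGr m F).faithful)
  let T := LieModel.psuTw m (frobq_ne_id hF) (frobq_frobq hF)
  have e : PSU (m + 1) F q ≃* T.G1 := (nonempty_psu_equiv hF (by omega)).some.trans
    (MulEquiv.subgroupCongr (LieModel.psuTw_G1 _ _ _).symm)
  haveI := Form.isSimpleGroup_PSU hF (m + 1) (by omega) (by omega)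
  have hnm : n ≤ m := by omega
  have hb : Function.Bijective fun i : Fin n => T.idx hY rfl (Fin.castLE hnm i) := by
    refine ⟨fun i j h => ?_, fun x => ?_⟩
    · rw [T.idx_eq_iff, symA_orb] at h
      have hi := i.2
      have hj := j.2
      simp only [Set.mem_insert_iff, Set.mem_singleton_iff, Fin.ext_iff, Fin.val_castLE,
        Fin.val_rev] at h ⊢
      omega
    · obtain ⟨k, rfl⟩ := T.idx_surjective hY rfl x
      have hk := k.2
      by_cases h : k.val < n
      · exact ⟨⟨k, h⟩, rfl⟩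
      · refine ⟨⟨m - (k + 1), by omega⟩, ?_⟩
        rw [T.idx_eq_iff, symA_orb]
        simp only [Set.mem_insert_iff, Set.mem_singleton_iff, Fin.ext_iff, Fin.val_castLE,
          Fin.val_rev]
        omega
  refine ⟨T.G1, inferInstance, inferInstance, e.symm.isSimpleGroup, T.bnPair hY rfl,
    Equiv.ofBijective _ hb, ⟨e.symm⟩, fun i j => ?_, fun i => ?_⟩
  · exact (bnM_twist T hY rfl _ _).trans (ord_t hm i.2 j.2)
  · refine (param_twist T hY rfl _).trans ((psuTw_card_UL _ _ _).trans ?_)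
    have hi := i.2
    dsimp only
    split_ifs with h
    · exact hc _ h
    · rw [su_card_orth, Nat.card_eq_fintype_card, hF] <;>
        simp only [ne_eq, Fin.ext_iff, Fin.val_castLE, Fin.val_rev, Fin.val_castSucc,
          Fin.val_succ] <;> omega

end count

end ModU

section Typ
open Cfsg.Lie

variable (F : Type) [Field F] [Fintype F]

theorem mod_Ue {q n : ℕ} (hF : Fintype.card F = q ^ 2) (hn : 3 ≤ n) :
    Model n (mB n) (fun i => if i + 1 = n then q else q ^ 2) (PSU (2 * n) F q) := by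
  obtain ⟨m, hm⟩ : ∃ m, 2 * n = m + 1 := ⟨2 * n - 1, by omega⟩
  rw [hm]
  exact ModU.model hF hn (.inl hm) fun i hi =>
    ModU.card_fixed hF i (Fin.ext (by rw [Fin.val_rev]; omega))

theorem mod_Uo {q n : ℕ} (hF : Fintype.card F = q ^ 2) (hn : 3 ≤ n) :
    Model n (mB n) (fun i => if i + 1 = n then q ^ 3 else q ^ 2) (PSU (2 * n + 1) F q) :=
  ModU.model hF hn (.inr rfl) fun i hi => ModU.card_adj hF i (Fin.ext (by
    rw [Fin.val_castSucc, Fin.val_rev, Fin.val_succ]; omega))

end Typ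

end Cfsg.Lib.BLD
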