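import Cfsg.Agent.BLD.Defs

/-! Elations of finite Moufang planes. -/

set_option autoImplicit false
set_option linter.unusedSectionVars false
set_option linter.unusedVariables false

namespace Cfsg.Lib.BLD

open Cfsg.Lib.Chev Cfsg.Lib.Perm.Plane Configuration

section PlP
variable {G P L : Type*} [Group G] [Membership P L] [MulAction G P] [MulAction G L] [CG G P L]
  [ProjectivePlane P L] [Finite P] [Finite L] [Finite G]

theorem axis_of_pelt {p k : ℕ} (hp : p.Prime) (hn : p ∣ ProjectivePlane.order P L) {g : G}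
    (hg : g ^ p ^ k = 1) {c x : P} {l : L} (hc : g ∈ centre G L c) (hcl : c ∈ l) (hx : x ∈ l)
    (hxc : x ≠ c) (hgx : g • x = x) : g ∈ axis G (P := P) l := by
  by_cases h1 : g = 1
  · exact h1 ▸ one_mem _
  obtain ⟨m, hm⟩ := exists_axis hc
  by_cases hcm : c ∈ m
  · exact lu hxc ((fix_point_cases h1 hc hm hgx).resolve_left hxc) hcm hx hcl ▸ hm
  exfalso
  have := Fact.mk hp
  obtain ⟨j, j1, jp⟩ := exists_pow_prime_order k h1 hg
  have hc' := pow_mem hc j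
  have hm' := pow_mem hm j
  generalize g ^ j = t at j1 jp hc' hm'
  obtain ⟨y, hyl, hym⟩ := exists_meet (P := P) l m
  have h2 := ncard_modEq_fixed_elt jp {z : P | z ∈ l ∧ z ≠ c} fun z hz =>
    ⟨smul_mem_of_centre hc' hcl hz.1, fun e => hz.2 (MulAction.injective t (e.trans (centre_fix hc').symm))⟩
  have h3 : {z | z ∈ {z : P | z ∈ l ∧ z ≠ c} ∧ t • z = z} = {y} := Set.eq_singleton_iff_unique_mem.2
    ⟨⟨⟨hyl, fun e => hcm (e ▸ hym)⟩, hm' y hym⟩, fun z hz => pu (fun e : l = m => hcm (e ▸ hcl)) hz.1.1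
      ((fix_point_cases j1 hc' hm' hz.2).resolve_left hz.1.2) hyl hym⟩
  rw [h3, ncard_pts_ne hcl, Set.ncard_singleton] at h2
  exact hp.one_lt.ne' (Nat.dvd_one.1 ((Nat.modEq_zero_iff_dvd).1
    (h2.symm.trans ((Nat.modEq_zero_iff_dvd).2 hn))))

theorem order_pow (hM : IsMoufang G P L) :
    ∃ p e : ℕ, p.Prime ∧ 0 < e ∧ ProjectivePlane.order P L = p ^ e := by
  obtain ⟨-, -, -, l, -⟩ := @ProjectivePlane.exists_config P L _ _
  obtain ⟨p, e, hp, he, -⟩ := order_eq_pow (G := G) (l := l) fun c hc => hM.persp_ne_bot hc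
  refine ⟨p, e, hp, Nat.pos_of_ne_zero fun h => ?_, he⟩
  have := two_le_order P L
  rw [he, h, pow_zero] at this
  omega

theorem persp_comm (hM : IsMoufang G P L) {c : P} {l : L} (hc : c ∈ l) {g h : G}
    (hg : g ∈ persp G c l) (hh : h ∈ persp G c l) : g * h = h * g :=
  hM.trans_comm l (persp_le_trans hc hg) (persp_le_trans hc hh)

theorem persp_pow (hM : IsMoufang G P L) {p : ℕ} (hp : p.Prime) (hn : p ∣ ProjectivePlane.order P L)
    {c : P} {l : L} (hc : c ∈ l) {g : G} (hg : g ∈ persp G c l) : g ^ p = 1 := by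
  obtain ⟨q, e, hq, he, h⟩ := order_eq_pow (G := G) (l := l) fun c hc => hM.persp_ne_bot hc
  rw [(Nat.prime_dvd_prime_iff_eq hp hq).1 (hp.dvd_of_dvd_pow (he ▸ hn))]
  exact h g (persp_le_trans hc hg)

namespace PlP

theorem mv (hM : IsMoufang G P L) {c z : P} {l m m' : L} (hc : c ∈ l) (hz : z ∈ l) (h1 : z ∈ m)
    (h2 : z ∈ m') (n1 : c ∉ m) (n2 : c ∉ m') : ∃ g ∈ persp G c l, g • m = m' := by
  obtain ⟨k, hk, hkl, -⟩ := exists_line_ne_ne c l l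
  obtain ⟨x, xk, xm⟩ := exists_meet (P := P) k m
  obtain ⟨y, yk, ym⟩ := exists_meet (P := P) k m'
  have xl : x ∉ l := fun h => n1 (pu hkl xk h hk hc ▸ xm)
  obtain ⟨g, hg, e⟩ := hM l k c x y hc hk xk yk xl fun h => n2 (pu hkl yk h hk hc ▸ ym)
  exact ⟨g, hg, smul_line_eq (fun e : x = z => xl (e ▸ hz)) xm h1 (e ▸ ym) ((hg.2 z hz).symm ▸ h2)⟩

theorem stepA (hM : IsMoufang G P L) {c z : P} {m₀ m m' : L} (h0 : z ∉ m₀) (h1 : z ∈ m)
    (h2 : z ∈ m') (n1 : c ∉ m) (n2 : c ∉ m') : ∃ h : G, h • c = c ∧ h • m₀ = m₀ ∧ h • m = m' := by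
  obtain ⟨l, hc, hz⟩ := exists_join L c z
  obtain ⟨d, dl, dm⟩ := exists_meet (P := P) l m₀
  have dz : d ≠ z := fun e => h0 (e ▸ dm)
  obtain ⟨g, hg, e⟩ := mv hM dl hz h1 h2 (fun h => n1 (lu dz dl hz h h1 ▸ hc))
    fun h => n2 (lu dz dl hz h h2 ▸ hc)
  exact ⟨g, hg.2 c hc, hg.1 m₀ dm, e⟩

theorem stepB (hM : IsMoufang G P L) {c : P} {m₀ m m' : L} (h1 : m ≠ m₀) (h2 : m' ≠ m₀)
    (n1 : c ∉ m) (n2 : c ∉ m') : ∃ h : G, h • c = c ∧ h • m₀ = m₀ ∧ h • m = m' := by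
  obtain ⟨e, em, e0⟩ := exists_meet (P := P) m m₀
  obtain ⟨x, xm, xe, -⟩ := exists_mem_ne_ne m e e
  have x0 : x ∉ m₀ := fun h => xe (pu h1 xm h em e0)
  obtain ⟨e', em', e0'⟩ := exists_meet (P := P) m' m₀
  obtain ⟨k, xk, ck⟩ := exists_join L x c
  obtain ⟨k', xk', ek'⟩ := exists_join L x e'
  obtain ⟨n, xn, nk, nk'⟩ := exists_line_ne_ne x k k'
  have cn : c ∉ n := fun h => nk (lu (fun e : x = c => n1 (e ▸ xm)) xn h xk ck)
  obtain ⟨z, zn, zm⟩ := exists_meet (P := P) n m'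
  obtain ⟨g, g1, g2, g3⟩ := stepA hM x0 xm xn n1 cn
  obtain ⟨h, k1, k2, k3⟩ := stepA hM (m₀ := m₀) (fun h => nk' (lu (fun e : x = e' => x0 (e ▸ e0')) xn
    (pu h2 zm h em' e0' ▸ zn) xk' ek')) zn zm cn n2
  exact ⟨h * g, by rw [mul_smul, g1, k1], by rw [mul_smul, g2, k2], by rw [mul_smul, g3, k3]⟩

end PlP

theorem exists_cen (hM : IsMoufang G P L) (c : P) : ∃ T : Subgroup G,
    (∀ g, g ∈ T ↔ g ∈ centre G L c ∧ ∃ l : L, c ∈ l ∧ g ∈ axis G (P := P) l) ∧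
    Nat.card T = ProjectivePlane.order P L ^ 2 ∧
    ∀ M ≤ T, (∀ h : G, h • c = c → ∀ g ∈ M, h * g * h⁻¹ ∈ M) → M = ⊥ ∨ M = T := by
  obtain ⟨T, hT⟩ : ∃ T : Subgroup G,
      ∀ g, g ∈ T ↔ g ∈ centre G L c ∧ ∃ l : L, c ∈ l ∧ g ∈ axis G (P := P) l :=
    ⟨trans G (P := Dual L) (L := Dual P) c, fun _ => Iff.rfl⟩
  obtain ⟨m₀, h0⟩ := exists_line_not_mem L c
  have fr : ∀ t ∈ T, t • m₀ = m₀ → t = 1 := fun t ht e => by
    obtain ⟨h1, l, h2, h3⟩ := (hT t).1 ht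
    exact elation_free_line h2 h1 h3 h0 e
  have inj : ∀ s ∈ T, ∀ t ∈ T, s • m₀ = t • m₀ → s = t := fun s hs t ht e =>
    (inv_mul_eq_one.1 (fr _ (mul_mem (inv_mem ht) hs) (by rw [mul_smul, e, inv_smul_smul]))).symm
  have nm : ∀ t ∈ T, c ∉ t • m₀ := fun t ht => not_mem_smul_of_fix (centre_fix ((hT t).1 ht).1) h0
  refine ⟨T, hT, ?_, fun M hM' hn => ?_⟩
  · have h1 := Set.ncard_add_ncard_compl {m : L | c ∈ m}
    rw [ncard_lns, card_lns P L] at h1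
    rw [Nat.card_eq_of_bijective (fun t : T => (⟨t.1 • m₀, nm t t.2⟩ : ↥({m : L | c ∈ m}ᶜ)))
      ⟨fun s t e => Subtype.ext (inj _ s.2 _ t.2 (congrArg Subtype.val e)), fun ⟨m, hm⟩ => ?_⟩,
      Nat.card_coe_set_eq]
    · omega
    · obtain ⟨z, z0, zm⟩ := exists_meet (P := P) m₀ m
      obtain ⟨l, hc, hz⟩ := exists_join L c z
      obtain ⟨g, hg, e⟩ := PlP.mv hM hc hz z0 zm h0 hm
      exact ⟨⟨g, (hT g).2 ⟨hg.1, l, hc, hg.2⟩⟩, Subtype.ext e⟩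
  · refine or_iff_not_imp_left.2 fun h => le_antisymm hM' fun s hs => ?_
    obtain ⟨⟨t, ht⟩, t1⟩ := Subgroup.ne_bot_iff_exists_ne_one.1 h
    by_cases s1 : s = 1
    · exact s1 ▸ one_mem _
    obtain ⟨g, g1, g2, g3⟩ := PlP.stepB hM (m₀ := m₀) (fun e => t1 (Subtype.ext (fr t (hM' ht) e)))
      (fun e => s1 (fr s hs e)) (nm t (hM' ht)) (nm s hs)
    rw [inj s hs _ (hM' (hn g g1 t ht)) (by rw [mul_smul, mul_smul, inv_smul_eq_iff.2 g2.symm, g3])]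
    exact hn g g1 t ht

end PlP

end Cfsg.Lib.BLD
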