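import Cfsg.Agent.BLD.Defs2

/-! # Panels of a residue as points and lines -/

set_option autoImplicit false
set_option linter.unusedSectionVars false

namespace Cfsg.Lib.BLD

open Cfsg.Lib.Chev

variable {ι A : Type} [Fintype ι] [DecidableEq ι] [DecidableEq A] {R : WeylData ι A}

namespace Bld

variable {Γ Ch : Type*} [Group Γ] [MulAction Γ Ch] {B : Bld R Γ Ch}

namespace ResAux

theorem single {x y : Ch} {j : ι} : B.δ x y ∈ R.WJ {j} ↔ y = x ∨ B.δ x y = R.s j := by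
  refine ⟨fun h => ?_, fun h => h.elim (fun e => by rw [e, B.δ_self]; exact one_mem _)
    fun e => e ▸ R.s_mem_WJ rfl⟩
  rw [eq_comm, ← B.δ_eq_one]
  refine R.WJ_induction (p := fun w => w = 1 ∨ w = R.s j) h (.inl rfl) ?_
  rintro i rfl _ - (rfl | rfl)
  exacts [.inr (mul_one _), .inl (R.s_mul_self _)]

theorem ncard_panel [Finite Ch] (x : Ch) (i : ι) :
    {y | B.δ x y ∈ R.WJ {i}}.ncard = B.q i + 1 := by
  obtain ⟨g, rfl, -⟩ := B.trans ((B.δ_self (B.a 1)).trans (B.δ_self x).symm)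
  have e : {y | B.δ (g • B.a 1) y ∈ R.WJ {i}} =
      (g • ·) '' insert (B.a 1) {y | B.δ (B.a 1) y = R.s i} := by
    ext y
    obtain ⟨z, rfl⟩ := MulAction.surjective g y
    rw [(MulAction.injective g).mem_set_image, Set.mem_ofPred_eq, B.δ_smul, single]
    rfl
  rw [e, Set.ncard_image_of_injective _ (MulAction.injective g), Set.ncard_insert_of_notMem
    (fun h => R.s_ne_one i (h.symm.trans (B.δ_self _)))]
  rfl

theorem ncard_pan [Finite Ch] {J : Set ι} {i : ι} (hi : i ∈ J) (x : B.Res J) :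
    (B.pan J i x).ncard = B.q i + 1 := by
  rw [← ncard_panel x.1 i, ← Set.ncard_image_of_injective (f := fun y : B.Res J => y.1) _
    Subtype.val_injective]
  congr 1
  ext y
  exact ⟨fun ⟨z, hz, e⟩ => e ▸ hz, fun h =>
    ⟨⟨y, B.δ_mem_trans x.2 (R.WJ_mono (Set.singleton_subset_iff.2 hi) h)⟩, h, rfl⟩⟩

end ResAux

open ResAux

section Res
variable {J : Set ι} {i j : ι} {x y : B.Res J}

theorem mem_pan_self (j : ι) (x : B.Res J) : x ∈ B.pan J j x :=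
  single.2 (.inl rfl)

theorem pt_eq_iff : B.pt J j x = B.pt J j y ↔ B.δ x.1 y.1 ∈ R.WJ {j} :=
  ⟨fun h => (congrArg Subtype.val h).ge (mem_pan_self j y), fun h => Subtype.ext (Set.ext fun _ =>
    ⟨B.δ_mem_trans (B.δ_mem_symm h), B.δ_mem_trans h⟩)⟩

theorem ln_eq_iff : B.ln J j i x = B.ln J j i y ↔ B.δ x.1 y.1 ∈ R.WJ {i} := pt_eq_iff

theorem pt_mem_ln (j i : ι) (x : B.Res J) : B.pt J j x ∈ B.ln J j i x :=
  ⟨x, mem_pan_self j x, mem_pan_self i x⟩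

theorem exists_flag {p : B.Pan J j} {l : B.Ln J j i} (h : p ∈ l) :
    ∃ x, p = B.pt J j x ∧ l = B.ln J j i x := by
  obtain ⟨y, rfl⟩ := B.pt_surjective J j p
  obtain ⟨z, rfl⟩ := B.ln_surjective J j i l
  obtain ⟨x, h1, h2⟩ := h
  exact ⟨x, pt_eq_iff.2 h1, ln_eq_iff.2 h2⟩

theorem flag_ext (hij : i ≠ j) (h1 : B.pt J j x = B.pt J j y) (h2 : B.ln J j i x = B.ln J j i y) :
    x = y := by
  refine Subtype.ext ((single.1 (ln_eq_iff.1 h2)).elim Eq.symm fun e => ?_)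
  have := pt_eq_iff.1 h1
  rw [e, R.s_mem_WJ_iff] at this
  exact absurd this hij

theorem pt_mem_ln_iff : B.pt J j x ∈ B.ln J j i y ↔
    ∃ z : B.Res J, B.δ x.1 z.1 ∈ R.WJ {j} ∧ B.δ z.1 y.1 ∈ R.WJ {i} :=
  exists_congr fun _ => and_congr_right' ⟨B.δ_mem_symm, B.δ_mem_symm⟩

theorem ncard_pts [Finite Ch] (hij : i ≠ j) (hi : i ∈ J) (l : B.Ln J j i) :
    {p : B.Pan J j | p ∈ l}.ncard = B.q i + 1 := by
  obtain ⟨x, rfl⟩ := B.ln_surjective J j i l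
  rw [← ncard_pan hi x, ← (show Set.InjOn (B.pt J j) (B.pan J i x) from fun y hy z hz e =>
    flag_ext hij e (ln_eq_iff.2 (B.δ_mem_trans (B.δ_mem_symm hy) hz))).ncard_image]
  congr 1
  ext p
  refine ⟨fun h => ?_, ?_⟩
  · obtain ⟨y, rfl, e⟩ := exists_flag h
    exact ⟨y, ln_eq_iff.1 e, rfl⟩
  · rintro ⟨y, hy, rfl⟩
    exact ⟨y, mem_pan_self j y, hy⟩

theorem ncard_lns [Finite Ch] (hij : i ≠ j) (hj : j ∈ J) (p : B.Pan J j) :
    {l : B.Ln J j i | p ∈ l}.ncard = B.q j + 1 := by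
  obtain ⟨x, rfl⟩ := B.pt_surjective J j p
  rw [← ncard_pan hj x, ← (show Set.InjOn (B.ln J j i) (B.pan J j x) from fun y hy z hz e =>
    flag_ext hij (pt_eq_iff.2 (B.δ_mem_trans (B.δ_mem_symm hy) hz)) e).ncard_image]
  congr 1
  ext l
  refine ⟨fun h => ?_, ?_⟩
  · obtain ⟨y, e, rfl⟩ := exists_flag h
    exact ⟨y, pt_eq_iff.1 e, rfl⟩
  · rintro ⟨y, hy, rfl⟩
    exact ⟨y, hy, mem_pan_self i y⟩

theorem smul_mem_iff (σ : B.Iso J) (p : B.Pan J j) (l : B.Ln J j i) : σ • p ∈ σ • l ↔ p ∈ l := by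
  have k : ∀ (σ : B.Iso J) (p : B.Pan J j) (l : B.Ln J j i), p ∈ l → σ • p ∈ σ • l := fun σ p l h => by
    obtain ⟨x, rfl, rfl⟩ := exists_flag h
    rw [smul_pt, smul_ln]
    exact pt_mem_ln j i _
  exact ⟨fun h => by simpa only [inv_smul_smul] using k σ⁻¹ _ _ h, k σ p l⟩

theorem fix_iff (hij : i ≠ j) (σ : B.Iso J) :
    σ.1 x = x ↔ σ • B.pt J j x = B.pt J j x ∧ σ • B.ln J j i x = B.ln J j i x := by
  rw [smul_pt, smul_ln]
  exact ⟨fun e => by rw [e]; exact ⟨rfl, rfl⟩, fun h => flag_ext hij h.1 h.2⟩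

theorem fix_lns_iff (hij : i ≠ j) (σ : B.Iso J) (x : B.Res J) :
    (σ • B.pt J j x = B.pt J j x ∧ ∀ l : B.Ln J j i, B.pt J j x ∈ l → σ • l = l) ↔
      ∀ y : B.Res J, B.δ x.1 y.1 ∈ R.WJ {j} → σ.1 y = y := by
  refine ⟨fun h y hy => ?_, fun h => ⟨by rw [smul_pt, h x (mem_pan_self j x)], fun l hl => ?_⟩⟩
  · rw [pt_eq_iff.2 hy] at h
    exact (fix_iff hij σ).2 ⟨h.1, h.2 _ (pt_mem_ln j i y)⟩
  · obtain ⟨y, e, rfl⟩ := exists_flag hl
    rw [smul_ln, h y (pt_eq_iff.1 e)]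

theorem fix_pts_iff (hij : i ≠ j) (σ : B.Iso J) (x : B.Res J) :
    (σ • B.ln J j i x = B.ln J j i x ∧ ∀ p : B.Pan J j, p ∈ B.ln J j i x → σ • p = p) ↔
      ∀ y : B.Res J, B.δ x.1 y.1 ∈ R.WJ {i} → σ.1 y = y := by
  refine ⟨fun h y hy => ?_, fun h => ⟨by rw [smul_ln, h x (mem_pan_self i x)], fun p hp => ?_⟩⟩
  · rw [ln_eq_iff.2 hy] at h
    exact (fix_iff hij σ).2 ⟨h.2 _ (pt_mem_ln j i y), h.1⟩
  · obtain ⟨y, rfl, e⟩ := exists_flag hp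
    rw [smul_pt, h y (ln_eq_iff.1 e)]

theorem mem_Tv_iff_res (hj : j ∈ J) (g : B.St J (B.a 1)) (x : B.Res J) :
    g.1 ∈ B.Tv x.1 j ↔ ∀ y : B.Res J, B.δ x.1 y.1 ∈ R.WJ {j} → (B.res J g).1 y = y :=
  ⟨fun h y hy => Subtype.ext ((single.1 hy).elim (fun e => by rw [res_apply, e, h.1]) (h.2 y.1)),
    fun h => ⟨congrArg Subtype.val (h x (mem_pan_self j x)), fun y hy => congrArg Subtype.val
      (h ⟨y, B.δ_mem_trans x.2 (hy ▸ R.s_mem_WJ hj)⟩ (single.2 (.inr hy)))⟩⟩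

theorem res_eq_one_iff (g : B.St J (B.a 1)) : B.res J g = 1 ↔ g.1 ∈ B.Kr J (B.a 1) :=
  ⟨fun h y hy => by rw [← B.res_apply J g ⟨y, hy⟩, h]; rfl,
    fun h => Subtype.ext (Equiv.ext fun y => Subtype.ext (h y.1 y.2))⟩

theorem mem_Aut {K : Subgroup Γ} {σ : B.Iso J} :
    σ ∈ B.Aut J K ↔ ∃ g : B.St J (B.a 1), g.1 ∈ K ∧ B.res J g = σ := Iff.rfl

theorem card_Aut {K : Subgroup Γ} (hK : K ≤ B.St J (B.a 1)) :
    Nat.card (B.Aut J K) = (B.Kr J (B.a 1)).relIndex K := by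
  rw [Aut, ← Subgroup.relIndex_ker, ← Subgroup.relIndex_subgroupOf hK]
  congr 1
  ext g
  exact res_eq_one_iff g

end Res

end Bld

end Cfsg.Lib.BLD
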