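import Cfsg.Agent.BLD.Pl0
import Cfsg.Agent.BLD.Bas1
import Cfsg.Agent.BLD.Res
import Cfsg.Agent.BLD.Rt1
import Cfsg.Agent.BLD.PlP

/-! Chamber forms of the lemmas on elations of the planes of a building. -/

set_option autoImplicit false
set_option linter.unusedSectionVars false
set_option linter.unusedVariables false

namespace Cfsg.Lib.BLD

open Cfsg.Lib.Chev Cfsg.Lib.Perm.Plane Configuration

variable {ι A : Type} [Fintype ι] [DecidableEq ι] [DecidableEq A] {R : WeylData ι A}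

namespace Bld

variable {Γ Ch : Type*} [Group Γ] [MulAction Γ Ch] {B : Bld R Γ Ch}
  {Γ' Ch' : Type*} [Group Γ'] [MulAction Γ' Ch'] {B' : Bld R Γ' Ch'}

section Fin
variable [Finite Γ] [Finite Ch] {i j k : ι} {p : ℕ}

namespace PlB1

/-- The map onto the group induced on the base residue. -/
noncomputable def img (B : Bld R Γ Ch) (J : Set ι) :
    B.St J (B.a 1) →* B.Aut J (B.St J (B.a 1)) :=
  (B.res J).codRestrict _ fun g => mem_Aut.2 ⟨g, g.2, rfl⟩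

theorem img_eq_1' : type_of% @img.eq_1 := @img.eq_1

theorem mem_St_of_fix {J : Set ι} {g : Γ} {x : Ch} (h : g • x = x) : g ∈ B.St J x := by
  rw [mem_St, h, B.δ_self]
  exact one_mem _

theorem moufang [hA : Fact (R.C i j * R.C j i = 1)] :
    IsMoufang (B.Aut {i, j} (B.St {i, j} (B.a 1))) (B.Pan {i, j} j) (B.Ln {i, j} j i) :=
  isMoufang inf_le_left

theorem la0 (h : R.C j k * R.C k j = 1) (hp : p.Prime) (hq : p ∣ B.q j) {g : Γ} {n : ℕ}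
    (hg : g ^ p ^ n = 1) {y : Ch} (h1 : g ∈ B.Tv (B.a 1) j) (h2 : B.δ (B.a 1) y = R.s k)
    (h3 : g • y = y) : g ∈ B.Tv (B.a 1) k := by
  haveI : Fact (R.C k j * R.C j k = 1) := ⟨by rw [mul_comm]; exact h⟩
  have hkj : k ≠ j := (C_of_mul_eq_one h).1.symm
  have hgS : g ∈ B.St {k, j} (B.a 1) := mem_St_of_fix h1.1
  let C0 : B.Res {k, j} := ⟨B.a 1, by rw [B.δ_self]; exact one_mem _⟩
  let y0 : B.Res {k, j} := ⟨y, by rw [h2]; exact R.s_mem_WJ (by simp)⟩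
  have hy0 : B.δ y0.1 C0.1 ∈ R.WJ {k} :=
    B.δ_mem_symm (show B.δ (B.a 1) y ∈ R.WJ {k} by rw [h2]; exact R.s_mem_WJ (by simp))
  let σ := img B {k, j} ⟨g, hgS⟩
  have hσ : σ ^ p ^ n = 1 := by
    have e : (⟨g, hgS⟩ : B.St {k, j} (B.a 1)) ^ p ^ n = 1 := Subtype.ext hg
    rw [← map_pow, e, map_one]
  have hc : σ ∈ centre _ (B.Ln {k, j} j k) (B.pt {k, j} j C0) :=
    (mem_centre_iff σ C0).2 ((mem_Tv_iff_res (by simp) ⟨g, hgS⟩ C0).1 h1)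
  have hx : B.pt {k, j} j y0 ∈ B.ln {k, j} j k C0 :=
    pt_mem_ln_iff.2 ⟨y0, by rw [B.δ_self]; exact one_mem _, hy0⟩
  have hxc : B.pt {k, j} j y0 ≠ B.pt {k, j} j C0 := by
    intro e
    have e' : y = B.a 1 := congrArg Subtype.val (flag_ext hkj e (ln_eq_iff.2 hy0))
    rw [e', B.δ_self] at h2
    exact R.s_ne_one k h2.symm
  have hgx : σ • B.pt {k, j} j y0 = B.pt {k, j} j y0 := by
    have e : (B.res {k, j} ⟨g, hgS⟩).1 y0 = y0 := Subtype.ext h3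
    exact (B.smul_pt {k, j} j (B.res {k, j} ⟨g, hgS⟩) y0).trans (by rw [e])
  have ho := plane_order (B := B) (i := k) (j := j)
  have := axis_of_pelt hp (by rw [ho.1, ho.2]; exact hq) hσ hc (pt_mem_ln j k C0) hx hxc hgx
  exact (mem_Tv_iff_res (by simp) ⟨g, hgS⟩ C0).2 ((mem_axis_iff σ C0).1 this)

theorem ela0 (h : R.C i j * R.C j i = 1) (hp : p.Prime) (hq : p ∣ B.q j) {y : Ch} {g g' : Γ}
    (hg : g ∈ B.Tv (B.a 1) i ⊓ B.Tv (B.a 1) j) (hg' : g' ∈ B.Tv (B.a 1) i ⊓ B.Tv (B.a 1) j)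
    (hy : B.δ (B.a 1) y ∈ R.WJ {i, j}) : g • g' • y = g' • g • y ∧ g ^ p • y = y := by
  haveI : Fact (R.C i j * R.C j i = 1) := ⟨h⟩
  let C0 : B.Res {i, j} := ⟨B.a 1, by rw [B.δ_self]; exact one_mem _⟩
  let y0 : B.Res {i, j} := ⟨y, hy⟩
  have key : ∀ (g : Γ) (hg : g ∈ B.Tv (B.a 1) i ⊓ B.Tv (B.a 1) j),
      img B {i, j} ⟨g, mem_St_of_fix hg.1.1⟩ ∈
        persp _ (B.pt {i, j} j C0) (B.ln {i, j} j i C0) := fun g hg =>
    ⟨(mem_centre_iff _ C0).2 ((mem_Tv_iff_res (by simp) ⟨g, mem_St_of_fix hg.1.1⟩ C0).1 hg.2),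
      (mem_axis_iff _ C0).2 ((mem_Tv_iff_res (by simp) ⟨g, mem_St_of_fix hg.1.1⟩ C0).1 hg.1)⟩
  have ho := plane_order (B := B) (i := i) (j := j)
  have e1 := persp_comm moufang (pt_mem_ln j i C0) (key g hg) (key g' hg')
  have e2 := persp_pow moufang hp (by rw [ho.1, ho.2]; exact hq) (pt_mem_ln j i C0) (key g hg)
  rw [← map_mul, ← map_mul] at e1
  rw [← map_pow] at e2
  have f1 := congrArg (fun σ : B.Aut {i, j} (B.St {i, j} (B.a 1)) => (σ.1.1 y0).1) e1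
  have f2 := congrArg (fun σ : B.Aut {i, j} (B.St {i, j} (B.a 1)) => (σ.1.1 y0).1) e2
  refine ⟨?_, f2⟩
  rw [← mul_smul, ← mul_smul]
  exact f1

theorem exists_base (B : Bld R Γ Ch) (x : Ch) : ∃ t : Γ, t • x = B.a 1 := by
  obtain ⟨t, ht, -⟩ := B.trans (x := x) (y := x) (x' := B.a 1) (y' := B.a 1)
    (by rw [B.δ_self, B.δ_self])
  exact ⟨t, ht⟩

end PlB1

theorem q_pow (h : R.C i j * R.C j i = 1) : B.q i = B.q j ∧ ∃ p e : ℕ, p.Prime ∧ 0 < e ∧ B.q i = p ^ e := by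
  haveI : Fact (R.C i j * R.C j i = 1) := ⟨h⟩
  have ho := plane_order (B := B) (i := i) (j := j)
  obtain ⟨p, e, h1, h2, h3⟩ := order_pow (PlB1.moufang (B := B) (i := i) (j := j))
  exact ⟨ho.2, p, e, h1, h2, ho.1 ▸ h3⟩

theorem la (h : R.C j k * R.C k j = 1) (hp : p.Prime) (hq : p ∣ B.q j) {g : Γ} {n : ℕ}
    (hg : g ^ p ^ n = 1) {x y : Ch} (h1 : g ∈ B.Tv x j) (h2 : B.δ x y = R.s k) (h3 : g • y = y) :
    g ∈ B.Tv x k := by
  obtain ⟨t, ht⟩ := PlB1.exists_base B x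
  have e1 : t * g * t⁻¹ ∈ B.Tv (B.a 1) j := ht ▸ Tv_conj h1 t
  have e2 := PlB1.la0 (y := t • y) h hp hq (by rw [conj_pow, hg, mul_one, mul_inv_cancel]) e1
    (by rw [← ht, B.δ_smul, h2]) (by rw [mul_smul, mul_smul, inv_smul_smul, h3])
  have e3 := Tv_conj e2 t⁻¹
  rw [← ht, inv_smul_smul] at e3
  simpa [mul_assoc] using e3

theorem ela (h : R.C i j * R.C j i = 1) (hp : p.Prime) (hq : p ∣ B.q j) {x y : Ch} {g g' : Γ}
    (hg : g ∈ B.Tv x i ⊓ B.Tv x j) (hg' : g' ∈ B.Tv x i ⊓ B.Tv x j) (hy : B.δ x y ∈ R.WJ {i, j}) :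
    g • g' • y = g' • g • y ∧ g ^ p • y = y := by
  obtain ⟨t, ht⟩ := PlB1.exists_base B x
  have c : ∀ g ∈ B.Tv x i ⊓ B.Tv x j, t * g * t⁻¹ ∈ B.Tv (B.a 1) i ⊓ B.Tv (B.a 1) j :=
    fun g hg => ⟨ht ▸ Tv_conj hg.1 t, ht ▸ Tv_conj hg.2 t⟩
  obtain ⟨e1, e2⟩ := PlB1.ela0 (y := t • y) h hp hq (c g hg) (c g' hg')
    (by rw [← ht, B.δ_smul]; exact hy)
  rw [conj_pow] at e2
  simp only [mul_smul, inv_smul_smul, smul_left_cancel_iff] at e1 e2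
  exact ⟨e1, e2⟩

end Fin

end Bld

end Cfsg.Lib.BLD
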