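import Cfsg.Agent.BLD.Pl0
import Cfsg.Agent.BLD.PlP
import Cfsg.Agent.BLD.PlB1
import Cfsg.Agent.BLD.Bas2

/-! # The group of elations with a given centre in an `A₂`-residue -/

set_option autoImplicit false
set_option linter.unusedSectionVars false
set_option linter.unusedVariables false

namespace Cfsg.Lib.BLD

open Cfsg.Lib.Chev Cfsg.Lib.Perm.Plane Configuration

variable {ι A : Type} [Fintype ι] [DecidableEq ι] [DecidableEq A] {R : WeylData ι A}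

namespace Bld

variable {Γ Ch : Type*} [Group Γ] [MulAction Γ Ch] {B : Bld R Γ Ch}
  {Γ' Ch' : Type*} [Group Γ'] [MulAction Γ' Ch'] {B' : Bld R Γ' Ch'}

namespace PlB2

theorem lev_le (J : Set ι) : B.Lev J ≤ B.St J (B.a 1) := inf_le_left

variable (B) in
/-- restriction of the Levi subgroup to the residue -/
noncomputable def rho (J : Set ι) : B.Lev J →* B.Aut J (B.Lev J) :=
  ((B.res J).comp (Subgroup.inclusion (lev_le J))).codRestrict _ fun g =>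
    mem_Aut.2 ⟨_, g.2, rfl⟩

theorem rho_eq_1' : type_of% @rho.eq_1 := @rho.eq_1

theorem rho_apply {J : Set ι} (g : B.Lev J) (x : B.Res J) :
    ((rho B J g).1.1 x).1 = g.1 • x.1 := rfl

theorem rho_surj (J : Set ι) : Function.Surjective (rho B J) := by
  rintro ⟨σ, hσ⟩
  obtain ⟨g, hg, rfl⟩ := mem_Aut.1 hσ
  exact ⟨⟨g.1, hg⟩, rfl⟩

theorem rho_eq_one {J : Set ι} (g : B.Lev J) : rho B J g = 1 ↔ g.1 ∈ B.Kr J (B.a 1) := by
  rw [← res_eq_one_iff (⟨g.1, lev_le J g.2⟩ : B.St J (B.a 1))]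
  exact ⟨fun h => congrArg Subtype.val h, fun h => Subtype.ext h⟩

theorem mem_Tv_rho {J : Set ι} {j : ι} (hj : j ∈ J) (g : B.Lev J) (x : B.Res J) :
    g.1 ∈ B.Tv x.1 j ↔ ∀ y : B.Res J, B.δ x.1 y.1 ∈ R.WJ {j} → (rho B J g).1.1 y = y :=
  mem_Tv_iff_res hj (⟨g.1, lev_le J g.2⟩ : B.St J (B.a 1)) x

variable (B) in
/-- the base chamber in the residue -/
def base (J : Set ι) : B.Res J := ⟨B.a 1, by rw [B.δ_self]; exact one_mem _⟩

theorem base_eq_1' : type_of% @base.eq_1 := @base.eq_1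

theorem WJ_le {J : Set ι} {j : ι} (hj : j ∈ J) {w : R.W} (h : w ∈ R.WJ {j}) : w ∈ R.WJ J := by
  rcases mem_WJ_single.1 h with rfl | rfl
  · exact one_mem _
  · exact R.s_mem_WJ hj

end PlB2

open PlB2

section Fin
variable [Finite Γ] [Finite Ch] {i j k : ι} {p : ℕ}

theorem exists_Y (h : R.C i j * R.C j i = 1) : ∃ Y : Subgroup Γ,
    (∀ g, g ∈ Y ↔ g ∈ B.Lev {i, j} ∧ g ∈ B.Tv (B.a 1) j ∧
      ∃ x, B.δ (B.a 1) x ∈ R.WJ {j} ∧ g ∈ B.Tv x i) ∧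
    (B.Kr {i, j} (B.a 1)).relIndex Y = B.q i ^ 2 ∧
    ∀ M ≤ Y, (∀ h ∈ B.Lev {i, j}, B.δ (B.a 1) (h • B.a 1) ∈ R.WJ {j} → ∀ g ∈ M, h * g * h⁻¹ ∈ M) →
      M ≤ B.Kr {i, j} (B.a 1) ∨ ∀ y ∈ Y, ∃ m ∈ M, m⁻¹ * y ∈ B.Kr {i, j} (B.a 1) := by
  haveI : Fact (R.C i j * R.C j i = 1) := ⟨h⟩
  have hi : i ∈ ({i, j} : Set ι) := by simp
  have hj : j ∈ ({i, j} : Set ι) := by simp
  haveI : Finite (B.Aut {i, j} (B.Lev {i, j})) := Finite.of_surjective _ (rho_surj {i, j})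
  obtain ⟨T, hT, hc, hmin⟩ := exists_cen (isMoufang (B := B) (i := i) (j := j) le_rfl)
    (B.pt {i, j} j (base B {i, j}))
  have hYL : (T.comap (rho B {i, j})).map (B.Lev {i, j}).subtype ≤ B.Lev {i, j} :=
    Subgroup.map_subtype_le _
  have hY : ∀ g : B.Lev {i, j},
      g.1 ∈ (T.comap (rho B {i, j})).map (B.Lev {i, j}).subtype ↔ rho B {i, j} g ∈ T := fun g =>
    ⟨fun ⟨g', h1, h2⟩ => (Subtype.ext h2 : g' = g) ▸ h1, fun h1 => ⟨g, h1, rfl⟩⟩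
  refine ⟨(T.comap (rho B {i, j})).map (B.Lev {i, j}).subtype, fun g => ?_, ?_, fun M hM hn => ?_⟩
  · constructor
    · intro hg
      have h1 := (hT _).1 ((hY ⟨g, hYL hg⟩).1 hg)
      obtain ⟨h2, l, hl, h3⟩ := h1
      obtain ⟨x, hx, rfl⟩ := exists_flag hl
      exact ⟨hYL hg, (mem_Tv_rho hj ⟨g, hYL hg⟩ (base B _)).2 ((mem_centre_iff _ _).1 h2), x.1,
        pt_eq_iff.1 hx, (mem_Tv_rho hi ⟨g, hYL hg⟩ x).2 ((mem_axis_iff _ _).1 h3)⟩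
    · rintro ⟨h1, h2, x, hx, h3⟩
      refine (hY ⟨g, h1⟩).2 ((hT _).2 ⟨(mem_centre_iff _ _).2 ((mem_Tv_rho hj ⟨g, h1⟩ (base B _)).1 h2),
        B.ln {i, j} j i ⟨x, WJ_le hj hx⟩, ?_, (mem_axis_iff _ _).2
          ((mem_Tv_rho hi ⟨g, h1⟩ ⟨x, WJ_le hj hx⟩).1 h3)⟩)
      rw [(pt_eq_iff (x := base B _) (y := ⟨x, WJ_le hj hx⟩)).2 hx]
      exact pt_mem_ln j i _
  · rw [← (plane_order (B := B) (i := i) (j := j)).1, ← hc]
    set Y := (T.comap (rho B {i, j})).map (B.Lev {i, j}).subtype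
    let f : Y →* B.Aut {i, j} (B.Lev {i, j}) := (rho B {i, j}).comp (Subgroup.inclusion hYL)
    have hk : (B.Kr {i, j} (B.a 1)).subgroupOf Y = f.ker := by
      ext g
      rw [Subgroup.mem_subgroupOf, MonoidHom.mem_ker]
      exact (rho_eq_one (Subgroup.inclusion hYL g)).symm
    have hr : f.range = T := by
      ext σ
      constructor
      · rintro ⟨g, rfl⟩
        exact (hY (Subgroup.inclusion hYL g)).1 g.2
      · intro hσ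
        obtain ⟨g, rfl⟩ := rho_surj _ σ
        exact ⟨⟨g.1, (hY g).2 hσ⟩, rfl⟩
    rw [Subgroup.relIndex, hk, Subgroup.index_ker, hr]
  · have hML : M ≤ B.Lev {i, j} := hM.trans hYL
    rcases hmin ((M.subgroupOf (B.Lev {i, j})).map (rho B {i, j})) (by
      rintro _ ⟨g, hg, rfl⟩
      exact (hY g).1 (hM hg)) (by
      rintro σ hσ _ ⟨g, hg, rfl⟩
      obtain ⟨u, rfl⟩ := rho_surj _ σ
      refine ⟨u * g * u⁻¹, hn u.1 u.2 ?_ g.1 hg, by simp only [map_mul, map_inv]⟩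
      have h1 : (rho B {i, j} u).1 • B.pt {i, j} j (base B {i, j}) = B.pt {i, j} j (base B {i, j}) := hσ
      rw [B.smul_pt] at h1
      exact pt_eq_iff.1 h1.symm) with h1 | h1
    · left
      intro g hg
      refine (rho_eq_one ⟨g, hML hg⟩).1 ?_
      have : rho B {i, j} ⟨g, hML hg⟩ ∈ (M.subgroupOf (B.Lev {i, j})).map (rho B {i, j}) :=
        ⟨_, hg, rfl⟩
      rwa [h1, Subgroup.mem_bot] at this
    · right
      intro y hy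
      have h2 := (hY ⟨y, hYL hy⟩).1 hy
      rw [← h1] at h2
      obtain ⟨m, hm, h3⟩ := h2
      refine ⟨m.1, hm, (rho_eq_one (m⁻¹ * ⟨y, hYL hy⟩)).1 ?_⟩
      rw [map_mul, map_inv, h3, inv_mul_cancel]

theorem trOn_E (h : R.C i j * R.C j i = 1) :
    B.TrOn (B.Lev {i, j} ⊓ B.Tv (B.a 1) i ⊓ B.Tv (B.a 1) j) (B.a (R.s j)) i := by
  haveI : Fact (R.C i j * R.C j i = 1) := ⟨h⟩
  have hij : i ≠ j := (C_of_mul_eq_one h).1
  have hi : i ∈ ({i, j} : Set ι) := by simp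
  have hj : j ∈ ({i, j} : Set ι) := by simp
  intro y z hy hz
  have hD : B.δ (B.a 1) (B.a (R.s j)) ∈ R.WJ {i, j} := by rw [δ_a_one]; exact R.s_mem_WJ hj
  have hy' : B.δ (B.a 1) y ∈ R.WJ {i, j} := B.δ_mem_trans hD (by rw [hy]; exact R.s_mem_WJ hi)
  have hz' : B.δ (B.a 1) z ∈ R.WJ {i, j} := B.δ_mem_trans hD (by rw [hz]; exact R.s_mem_WJ hi)
  set C := base B {i, j}
  set D : B.Res {i, j} := ⟨_, hD⟩
  have hCD : B.pt {i, j} j C = B.pt {i, j} j D :=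
    pt_eq_iff.2 (by show B.δ (B.a 1) (B.a (R.s j)) ∈ _; rw [δ_a_one]; exact R.s_mem_WJ rfl)
  have hcm : B.pt {i, j} j C ∈ B.ln {i, j} j i D := hCD ▸ pt_mem_ln j i D
  have hml : B.ln {i, j} j i C ≠ B.ln {i, j} j i D := by
    intro e
    have h1 : B.δ (B.a 1) (B.a (R.s j)) ∈ R.WJ {i} := ln_eq_iff.1 e
    rw [δ_a_one, R.s_mem_WJ_iff] at h1
    exact hij h1.symm
  have key : ∀ u : B.Res {i, j}, B.δ (B.a (R.s j)) u.1 = R.s i →
      B.ln {i, j} j i D = B.ln {i, j} j i u ∧ B.pt {i, j} j u ∉ B.ln {i, j} j i C := by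
    intro u hu
    have h1 : B.ln {i, j} j i D = B.ln {i, j} j i u :=
      ln_eq_iff.2 (by show B.δ (B.a (R.s j)) u.1 ∈ _; rw [hu]; exact R.s_mem_WJ rfl)
    refine ⟨h1, fun h2 => ?_⟩
    have h3 : B.pt {i, j} j u = B.pt {i, j} j C :=
      pu hml h2 (h1 ▸ pt_mem_ln j i u) (pt_mem_ln j i C) hcm
    have h4 : B.δ (B.a (R.s j)) u.1 ∈ R.WJ {j} := pt_eq_iff.1 (hCD.symm.trans h3.symm)
    rw [hu, R.s_mem_WJ_iff] at h4
    exact hij h4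
  obtain ⟨h1, h2⟩ := key ⟨y, hy'⟩ hy
  obtain ⟨h3, h4⟩ := key ⟨z, hz'⟩ hz
  obtain ⟨σ, hσ, e⟩ := isMoufang (B := B) (i := i) (j := j) le_rfl (B.ln {i, j} j i C)
    (B.ln {i, j} j i D) (B.pt {i, j} j C) (B.pt {i, j} j ⟨y, hy'⟩) (B.pt {i, j} j ⟨z, hz'⟩)
    (pt_mem_ln j i C) hcm (h1 ▸ pt_mem_ln j i _) (h3 ▸ pt_mem_ln j i _) h2 h4
  obtain ⟨g, rfl⟩ := rho_surj _ σ
  refine ⟨g.1, ⟨⟨g.2, (mem_Tv_rho hi g C).2 ((mem_axis_iff _ _).1 hσ.2)⟩,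
    (mem_Tv_rho hj g C).2 ((mem_centre_iff _ _).1 hσ.1)⟩, ?_⟩
  have e1 : (rho B {i, j} g).1 • B.pt {i, j} j ⟨y, hy'⟩ = B.pt {i, j} j ⟨z, hz'⟩ := e
  have e2 : (rho B {i, j} g).1 • B.ln {i, j} j i D = B.ln {i, j} j i D := hσ.1 _ hcm
  have e3 : B.ln {i, j} j i ((rho B {i, j} g).1.1 ⟨y, hy'⟩) = B.ln {i, j} j i ⟨z, hz'⟩ :=
    (B.smul_ln _ _ _ _ _).symm.trans ((congrArg _ h1.symm).trans (e2.trans h3))
  exact congrArg Subtype.val (flag_ext hij ((B.smul_pt _ _ _ _).symm.trans e1) e3)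

theorem E_le_Br (h : R.C i j * R.C j i = 1) :
    B.Lev {i, j} ⊓ B.Tv (B.a 1) i ⊓ B.Tv (B.a 1) j ≤ B.Br (R.s j • R.simple i) := by
  rintro g ⟨⟨h1, h2⟩, h3⟩
  refine mem_Br_of_lev h1 (R.s_mem_WJ (by simp)) (by simp) (h3.2 _ (δ_a_one _)) ?_
  have : R.s j * R.s i * R.w0 {i, j} = R.s i := by
    rw [w0_A2 h]
    simp [mul_assoc]
  rw [this]
  exact h2.2 _ (δ_a_one _)

theorem start_A2 (h : R.C i j * R.C j i = 1) (hp : p.Prime) (hq : p ∣ B.q j) :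
    ∃ S : Subgroup Γ, IsPGroup p S ∧ S ≤ B.Br (R.s j • R.simple i) ∧ S ≤ B.Tv (B.a 1) i ∧
      S ≤ B.Tv (B.a 1) j ∧ B.TrOn S (B.a (R.s j)) i := by
  obtain ⟨e1, p', e, hp', -, he⟩ := q_pow (B := B) h
  have : p = p' := by
    rw [← e1, he] at hq
    exact (Nat.prime_dvd_prime_iff_eq hp hp').1 (hp.dvd_of_dvd_pow hq)
  subst this
  obtain ⟨S, hS, h1, h2⟩ := (trOn_E (B := B) h).sylow hp (fun g hg => hg.2.2 _ (δ_a_one _)) he
  exact ⟨S, h1, hS.trans (E_le_Br h), hS.trans (inf_le_left.trans inf_le_right),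
    hS.trans inf_le_right, h2⟩

end Fin

end Bld

end Cfsg.Lib.BLD
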