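import Cfsg.Agent.BLD.Prop
import Cfsg.Agent.BLD.B3a
import Cfsg.Agent.BLD.B3c
import Cfsg.Agent.BLD.PlB1
import Cfsg.Agent.BLD.PlB2

/-! # Finite thick buildings whose diagram is a tree are Moufang -/

set_option autoImplicit false
set_option linter.unusedSectionVars false
set_option linter.unusedVariables false

namespace Cfsg.Lib.BLD

open Cfsg.Lib.Chev

variable {ι A : Type} [Fintype ι] [DecidableEq ι] [DecidableEq A] {R : WeylData ι A}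

namespace Mouf

theorem j_ne_k (T : Tree R) : T.j₀ ≠ T.k₀ := fun h => by
  have := T.ρ_j
  rw [h, T.ρ_k] at this
  exact one_ne_zero this

theorem tri (T : Tree R) {l l' : ι} (h : T.ρ l' < T.ρ l) :
    (l = T.k₀ ∧ l' = T.j₀) ∨ (R.C l l' = -1 ∧ R.C l' l = -1) ∨ (R.C l l' = 0 ∧ R.C l' l = 0) := by
  by_cases hk : l = T.k₀
  · refine Or.inl ⟨hk, T.ρ_inj ?_⟩
    rw [hk, T.ρ_k] at h
    rw [T.ρ_j]
    omega
  · have hj : l ≠ T.j₀ := fun e => by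
      rw [e, T.ρ_j] at h
      omega
    by_cases hp : l' = T.par l
    · rw [hp]
      exact Or.inr (Or.inl (T.C_par l hj hk))
    · exact Or.inr (Or.inr (T.nadj l l' h hk hp))

theorem prod_aux (T : Tree R) {l l' : ι} (h : T.ρ l' < T.ρ l) :
    R.C l l' * R.C l' l ≤ 2 ∧ (R.C l l' * R.C l' l = 2 → l = T.k₀ ∧ l' = T.j₀) := by
  rcases tri T h with ⟨h1, h2⟩ | ⟨h1, h2⟩ | ⟨h1, h2⟩
  · refine ⟨?_, fun _ => ⟨h1, h2⟩⟩
    rw [h1, h2, T.C_jk]
    rcases T.C_kj with h3 | h3 <;> rw [h3] <;> norm_num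
  · rw [h1, h2]; norm_num
  · rw [h1, h2]; norm_num

theorem prod_le (T : Tree R) {l l' : ι} (h : l ≠ l') : R.C l l' * R.C l' l ≤ 2 := by
  rcases lt_or_gt_of_ne (T.ρ_inj.ne h) with h1 | h1
  · rw [mul_comm]; exact (prod_aux T h1).1
  · exact (prod_aux T h1).1

theorem prod_two (T : Tree R) {l l' : ι} (h : R.C l l' * R.C l' l = 2) :
    ({l, l'} : Set ι) = {T.j₀, T.k₀} := by
  have hne : l ≠ l' := fun e => by
    rw [e, R.C_diag] at h
    norm_num at h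
  rcases lt_or_gt_of_ne (T.ρ_inj.ne hne) with h1 | h1
  · obtain ⟨h2, h3⟩ := (prod_aux T h1).2 (by rw [mul_comm]; exact h)
    rw [h2, h3]
  · obtain ⟨h2, h3⟩ := (prod_aux T h1).2 h
    rw [h2, h3, Set.pair_comm]

theorem C_ik (T : Tree R) : R.C T.i₀ T.k₀ = 0 ∧ R.C T.k₀ T.i₀ = 0 := by
  refine T.nadj _ _ ?_ T.i_ne_k (by rw [T.par_i]; exact (j_ne_k T).symm)
  have h1 := T.ρ_inj.ne T.i_ne_j
  have h2 := T.ρ_inj.ne T.i_ne_k
  rw [T.ρ_j] at h1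
  rw [T.ρ_k] at h2 ⊢
  omega

theorem C_ij (T : Tree R) : R.C T.i₀ T.j₀ = -1 ∧ R.C T.j₀ T.i₀ = -1 := by
  have := T.C_par T.i₀ T.i_ne_j T.i_ne_k
  rwa [T.par_i] at this

theorem ind (T : Tree R) {P : ι → Prop} (hj : P T.j₀) (hk : P T.k₀)
    (h : ∀ l, R.C (T.par l) l * R.C l (T.par l) = 1 → P (T.par l) → P l) (l : ι) : P l := by
  induction hn : T.ρ l using Nat.strong_induction_on generalizing l with
  | _ n ih =>
    by_cases h1 : l = T.j₀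
    · rwa [h1]
    by_cases h2 : l = T.k₀
    · rwa [h2]
    obtain ⟨h3, h4⟩ := T.C_par l h1 h2
    exact h l (by rw [h3, h4]; norm_num) (ih _ (hn ▸ T.par_lt l h1 h2) _ rfl)

theorem rc_s (i : ι) {r : A} (hr : r ∈ R.Φ) :
    R.rc (R.s i • r) = R.rc r - R.a i (R.rc r) • Pi.single i 1 := by
  rw [R.s_smul i hr, R.rc_σ' i hr, R.sl_apply]

theorem rc_s_simple {i j : ι} (h : R.C j i = -1) :
    R.rc (R.s j • R.simple i) = Pi.single i 1 + Pi.single j 1 := by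
  rw [rc_s j (R.simple_mem i), R.rc_simple, R.a_single, h, neg_one_smul, sub_neg_eq_add]

theorem ne_simple {r : A} {a b : ι} (h : a ≠ b) (ha : R.rc r a ≠ 0) (hb : R.rc r b ≠ 0) (l : ι) :
    r ≠ R.simple l := by
  rintro rfl
  rw [R.rc_simple, Pi.single_apply] at ha hb
  exact h ((by simpa using ha : a = l).trans (by simpa using hb : b = l).symm)

/-- The facts about a root `β` with coordinate `1` at `i₀` and `j₀`. -/
theorem root_facts (T : Tree R) {β : A} (hβ : β ∈ R.Φ) (h1 : R.rc β T.i₀ = 1) (h2 : R.rc β T.j₀ = 1) :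
    R.Pos β ∧ (∀ l, R.Pos (R.s l • β)) ∧
      ∀ j k, R.C j k * R.C k j = 2 → ¬ R.InJ {j, k} β := by
  have hp : R.Pos β := R.pos_of_coord_pos hβ (j := T.i₀) (by rw [h1]; exact one_pos)
  refine ⟨hp, fun l => R.pos_s_smul hp
    (ne_simple T.i_ne_j (by rw [h1]; exact one_ne_zero) (by rw [h2]; exact one_ne_zero) l), ?_⟩
  intro j k h hJ
  rw [prod_two T h] at hJ
  have := hJ.2 T.i₀ (by simp [T.i_ne_j, T.i_ne_k])
  rw [h1] at this
  exact one_ne_zero this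

theorem root_ij (T : Tree R) : R.rc ((1 : R.W)⁻¹ • R.s T.j₀ • R.simple T.i₀) T.i₀ = 1 ∧
    R.rc ((1 : R.W)⁻¹ • R.s T.j₀ • R.simple T.i₀) T.j₀ = 1 := by
  rw [inv_one, one_smul, rc_s_simple (C_ij T).2]
  simp [T.i_ne_j, T.i_ne_j.symm]

theorem root_ijk (T : Tree R) : R.rc ((R.s T.i₀)⁻¹ • R.s T.j₀ • R.simple T.k₀) T.i₀ = 1 ∧
    R.rc ((R.s T.i₀)⁻¹ • R.s T.j₀ • R.simple T.k₀) T.j₀ = 1 := by
  rw [R.s_inv, rc_s _ (R.smul_mem _ (R.simple_mem _)), rc_s_simple T.C_jk, map_add, R.a_single,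
    R.a_single, (C_ik T).1, (C_ij T).1]
  simp [T.i_ne_j, T.i_ne_j.symm, T.i_ne_k, j_ne_k T]

variable {Γ Ch : Type*} [Group Γ] [MulAction Γ Ch] {B : Bld R Γ Ch} [Finite Γ] [Finite Ch] {p : ℕ}

theorem pow_eq_one {S : Subgroup Γ} (hS : IsPGroup p S) {g : Γ} (hg : g ∈ S) :
    ∃ n, g ^ p ^ n = 1 := by
  obtain ⟨n, hn⟩ := hS ⟨g, hg⟩
  exact ⟨n, by simpa using congrArg Subtype.val hn⟩

theorem hf_step {r : A} {w : R.W} {l : ι} (h : R.Pos (R.s l • w⁻¹ • r)) : Hf R r (w * R.s l) := by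
  unfold Hf
  rwa [mul_inv_rev, R.s_inv, mul_smul]

theorem le_U (T : Tree R) (hp : p.Prime) (hq : ∀ l, p ∣ B.q l) {S : Subgroup Γ} (hS : IsPGroup p S)
    {r : A} (hr : r ∈ R.Φ) {w : R.W} (h1 : R.rc (w⁻¹ • r) T.i₀ = 1) (h2 : R.rc (w⁻¹ • r) T.j₀ = 1)
    (hB : S ≤ B.Br r) (hj : S ≤ B.Tv (B.a w) T.j₀) (hk : S ≤ B.Tv (B.a w) T.k₀) :
    S ≤ B.UJ Set.univ r := by
  intro g hg
  obtain ⟨n, hn⟩ := pow_eq_one hS hg
  obtain ⟨f1, f2, f3⟩ := root_facts T (R.smul_mem _ hr) h1 h2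
  exact Bld.mem_UJ_of (fun j _ k _ h => prod_le T h) hp (fun j _ _ _ _ => hq j) hn (hB hg)
    (w₁ := w) (by simp) f1 (fun j _ k _ => f3 j k) fun l _ _ =>
      Bld.triv_all T hp (fun j _ _ => hq j) hn (fun l => hB hg _ (hf_step (f2 l))) (hj hg) (hk hg) l

theorem dvd_all (T : Tree R) (hj : p ∣ B.q T.j₀) (hk : p ∣ B.q T.k₀) (l : ι) : p ∣ B.q l :=
  ind T (P := fun l => p ∣ B.q l) hj hk (fun _ h h' => (Bld.q_pow (B := B) h).1 ▸ h') l

theorem mouf_jk (T : Tree R) : B.MoufJ Set.univ T.j₀ ∧ B.MoufJ Set.univ T.k₀ := by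
  obtain ⟨cij, cji⟩ := C_ij T
  obtain ⟨cik, cki⟩ := C_ik T
  have hij : R.C T.i₀ T.j₀ * R.C T.j₀ T.i₀ = 1 := by rw [cij, cji]; norm_num
  obtain ⟨hq, p, e, hp, he, hqe⟩ := Bld.q_pow (B := B) hij
  have hpi : p ∣ B.q T.i₀ := hqe ▸ dvd_pow_self p he.ne'
  have hpj : p ∣ B.q T.j₀ := hq ▸ hpi
  have hr : R.s T.j₀ • R.simple T.i₀ ∈ R.Φ := R.smul_mem _ (R.simple_mem _)
  obtain ⟨r1, r2⟩ := root_ij T
  obtain ⟨f1, f2, f3⟩ := root_facts T (R.smul_mem _ hr) r1 r2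
  rcases T.C_kj with ckj | ckj
  · have hjk : R.C T.j₀ T.k₀ * R.C T.k₀ T.j₀ = 1 := by rw [T.C_jk, ckj]; norm_num
    obtain ⟨S, hS, hB, -, hj, ht⟩ := Bld.start_A2 (B := B) hij hp hpj
    have hpk : p ∣ B.q T.k₀ := (Bld.q_pow (B := B) hjk).1 ▸ hpj
    have hk : S ≤ B.Tv (B.a 1) T.k₀ := fun g hg => by
      obtain ⟨n, hn⟩ := pow_eq_one hS hg
      exact Bld.la hjk hp hpj hn (hj hg) (Bld.δ_a_one _)
        (by simpa using hB hg _ (hf_step (f2 T.k₀)))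
    have hi : B.MoufJ Set.univ T.i₀ := Bld.moufJ_of_trOn (j := T.j₀) trivial
      (ht.mono (le_U T hp (dvd_all T hpj hpk) hS hr r1 r2 hB hj hk))
    have hj' : B.MoufJ Set.univ T.j₀ := Bld.mouf_bond trivial trivial hij hi
    exact ⟨hj', Bld.mouf_bond trivial trivial hjk hj'⟩
  · have h3 : B3 R T.i₀ T.j₀ T.k₀ := ⟨cij, cji, cik, cki, T.C_jk, ckj⟩
    obtain ⟨S, hS, hB, hi, hj, hk, ht⟩ := Bld.b3a (B := B) h3 hp hpj
    have hle : S ≤ B.UJ {T.i₀, T.j₀, T.k₀} (R.s T.j₀ • R.simple T.i₀) := by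
      intro g hg
      obtain ⟨n, hn⟩ := pow_eq_one hS hg
      refine Bld.mem_UJ_of (fun j _ k _ h => prod_le T h) hp ?_ hn (hB hg) (w₁ := 1) (one_mem _) f1
        (fun j _ k _ => f3 j k) ?_
      · rintro a (rfl | rfl | rfl) b hb hab
        · exact hpi
        · exact hpj
        · exfalso
          rcases hb with rfl | rfl | rfl
          · rw [cki] at hab; norm_num at hab
          · rw [ckj, T.C_jk] at hab; norm_num at hab
          · rw [R.C_diag] at hab; norm_num at hab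
      · rintro a (rfl | rfl | rfl) -
        exacts [hi hg, hj hg, hk hg]
    have hM : B.MoufJ {T.i₀, T.j₀, T.k₀} T.j₀ := Bld.mouf_bond (by simp) (by simp) hij
      (Bld.moufJ_of_trOn (j := T.j₀) (by simp) (ht.mono hle))
    obtain ⟨S', hS', hB', -, hj', hk', ht'⟩ := Bld.b3c (B := B) h3 hp hpj hM
    have hpk : p ∣ B.q T.k₀ := by
      obtain ⟨e', he', h'⟩ := ht'.q_pow hp (fun g hg => hB' hg _ (by
        unfold Hf
        rw [inv_smul_smul]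
        exact R.pos_simple _)) hS'
      exact h' ▸ dvd_pow_self p he'.ne'
    have hall := dvd_all T hpj hpk
    obtain ⟨s1, s2⟩ := root_ijk T
    exact ⟨Bld.mouf_bond trivial trivial hij (Bld.moufJ_of_trOn (j := T.j₀) trivial
        (ht.mono (le_U T hp hall hS hr r1 r2 hB hj hk))),
      Bld.moufJ_of_trOn (j := T.j₀) trivial (ht'.mono
        (le_U T hp hall hS' (R.smul_mem _ (R.simple_mem _)) s1 s2 hB' hj' hk'))⟩

theorem deep (T : Tree R) (l : ι) : ∃ j, j ≠ l ∧ R.C j l ≠ 0 := by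
  by_cases h1 : l = T.j₀
  · refine ⟨T.k₀, h1 ▸ (j_ne_k T).symm, ?_⟩
    rw [h1]
    rcases T.C_kj with h | h <;> rw [h] <;> norm_num
  by_cases h2 : l = T.k₀
  · exact ⟨T.j₀, h2 ▸ j_ne_k T, by rw [h2, T.C_jk]; norm_num⟩
  refine ⟨T.par l, fun e => ?_, by rw [(T.C_par l h1 h2).2]; norm_num⟩
  have := T.par_lt l h1 h2
  rw [e] at this
  exact lt_irrefl _ this

end Mouf

namespace Bld

variable {Γ Ch : Type*} [Group Γ] [MulAction Γ Ch] {B : Bld R Γ Ch}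
  {Γ' Ch' : Type*} [Group Γ'] [MulAction Γ' Ch'] {B' : Bld R Γ' Ch'}

section Fin
variable [Finite Γ] [Finite Ch] {i j k : ι} {p : ℕ}

theorem rg_of_tree (T : Tree R) (hB : ∀ g : Γ, (∀ x : Ch, g • x = x) → g = 1) : B.RG :=
  ⟨Mouf.ind T (Mouf.mouf_jk T).1 (Mouf.mouf_jk T).2
    fun _ h h' => mouf_bond trivial trivial h h', hB, Mouf.deep T⟩

end Fin

end Bld

end Cfsg.Lib.BLD
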