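import Cfsg.Agent.BLD.Defs2
import Cfsg.Agent.Chev.FeitHigmanNum

/-!
# The building of a BN-pair
-/

set_option autoImplicit false
set_option linter.unusedSectionVars false
set_option linter.unusedVariables false

namespace Cfsg.Lib.BLD

open Cfsg.Lib.Chev Cfsg.Lib.Perm.Plane Configuration

variable {ι A : Type} [Fintype ι] [DecidableEq ι] [DecidableEq A] {R : WeylData ι A}

namespace OfbnAux

open Cfsg.Lib.Chev.BN

theorem len_map_le {I I' W W' : Type*} [Group W] [Group W'] (C : PreCox I W) (C' : PreCox I' W')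
    (e : I → I') (φ : W →* W') (hφ : ∀ i, φ (C.s i) = C'.s (e i)) (w : W) :
    C'.len (φ w) ≤ C.len w := by
  obtain ⟨ω, h1, rfl⟩ := C.exists_red w
  have h2 : ∀ ω : List I, φ (C.wp ω) = C'.wp (ω.map e) := by
    intro ω
    induction ω with
    | nil => simp
    | cons i ω ih => simp [ih, hφ]
  rw [h1, h2, ← List.length_map e]
  exact C'.len_wp_le _

theorem exists_equiv {I I' W W' : Type*} [Group W] [Group W'] (C : PreCox I W) (C' : PreCox I' W')
    (e : I' ≃ I) (h : ∀ i j, orderOf (C.s (e i) * C.s (e j)) = orderOf (C'.s i * C'.s j)) :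
    ∃ φ : W ≃* W', (∀ i, φ (C.s (e i)) = C'.s i) ∧ ∀ i w, w ∈ C.P (e i) ↔ φ w ∈ C'.P i := by
  obtain ⟨φ, hφ⟩ := C.exists_monoidHom (fun i => C'.s (e.symm i)) fun i j => by
    have := h (e.symm i) (e.symm j)
    rw [e.apply_symm_apply, e.apply_symm_apply] at this
    rw [this, pow_orderOf_eq_one]
  obtain ⟨ψ, hψ⟩ := C'.exists_monoidHom (fun i => C.s (e i)) fun i j => by
    rw [← h, pow_orderOf_eq_one]
  have h1 : ψ.comp φ = MonoidHom.id _ := by
    refine MonoidHom.eq_of_eqOn_dense C.gen ?_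
    rintro _ ⟨i, rfl⟩
    simp [hφ, hψ]
  have h2 : φ.comp ψ = MonoidHom.id _ := by
    refine MonoidHom.eq_of_eqOn_dense C'.gen ?_
    rintro _ ⟨i, rfl⟩
    simp [hφ, hψ]
  have hl : ∀ w, C'.len (φ w) = C.len w := fun w => by
    refine le_antisymm (len_map_le C C' e.symm φ hφ w) ?_
    have := len_map_le C' C e ψ hψ (φ w)
    rwa [← MonoidHom.comp_apply, h1] at this
  refine ⟨MonoidHom.toMulEquiv φ ψ h1 h2, fun i => by simp [hφ], fun i w => ?_⟩
  change _ ↔ φ w ∈ C'.P i
  rw [C.mem_P_iff, C'.mem_P_iff, ← hl, ← hl (C.s (e i) * w), map_mul, hφ, e.symm_apply_apply]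

theorem thick {G : Type*} [Group G] (P : Cfsg.BNPair G) (i : P.S) (x : G ⧸ P.B) :
    ∃ y z, y ≠ z ∧ dist P x y = sg P i ∧ dist P x z = sg P i := by
  obtain ⟨g, rfl⟩ := QuotientGroup.mk_surjective x
  obtain ⟨b, hb, h⟩ := exists_sBs_mem_cell P i
  have hi := coe_mem_cell_sg P i
  refine ⟨((g * i : G) : G ⧸ P.B), ((g * (b * i) : G) : G ⧸ P.B), fun e => ?_, ?_, ?_⟩
  · have e2 := QuotientGroup.eq.1 e
    have e3 : (i : G) * b * i = (i : G) * i * ((g * i)⁻¹ * (g * (b * i))) := by group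
    rw [e3] at h
    have := (mem_cell_one P).2 (P.B.mul_mem (P.sq_mem i i.2) e2)
    exact sg_ne_one P i (eq_of_mem_cell h this)
  · rw [dist_mk_eq_iff]; simpa using hi
  · rw [dist_mk_eq_iff]; simpa using B_mul_mem_cell hb hi

theorem bw_eq {I M : Type*} [Ring M] (f : I → M) (i j : I) (k : ℕ) :
    FH.bw (f i) (f j) k = ((altWord j i k).map f).prod := by
  induction k with
  | zero => rfl
  | succ k ih => rw [FH.bw_succ, prod_map_altWord_succ, ih]

theorem prod_altWord_two_mul {I : Type*} (f : I → ℕ) (i j : I) (k : ℕ) :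
    ((altWord i j (2 * k)).map f).prod = (f i * f j) ^ k := by
  induction k with
  | zero => rfl
  | succ k ih =>
    rw [Nat.mul_succ, altWord_succ, altWord_succ, List.map_cons, List.map_cons, List.prod_cons,
      List.prod_cons, ih]; ring

end OfbnAux

open OfbnAux

theorem exists_bld {G : Type*} [Group G] (P : Cfsg.BNPair G) (e : ι ≃ P.S)
    (h : ∀ i j, bnM P (e i) (e j) = orderOf (R.s i * R.s j)) :
    ∃ B : Bld R G (G ⧸ P.B), ∀ i, B.q i = BN.param P (e i) := by
  let C' : PreCox ι R.W :=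
    { s := R.s
      sq := R.s_mul_self
      gen := R.closure_s
      inj := R.s_injective
      P := R.descent.P
      one_mem := R.descent.one_mem
      disj := R.descent.disj
      step := R.descent.exch }
  obtain ⟨φ, hφ, hP⟩ := exists_equiv (BN.preCox P) C' e h
  replace hφ : ∀ i, φ (BN.sg P (e i)) = R.s i := hφ
  replace hP : ∀ i w, w ∈ (BN.preCox P).P (e i) ↔ R.Pos ((φ w)⁻¹ • R.simple i) := hP
  have hs : ∀ {w i}, φ w = R.s i ↔ w = BN.sg P (e i) := fun {w i} => by
    rw [← hφ, φ.apply_eq_iff_eq]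
  choose n hn using BN.mk_surj P
  let B : Bld R G (G ⧸ P.B) :=
    { δ := fun x y => φ (BN.dist P x y)
      a := fun w => ((n (φ.symm w) : G) : G ⧸ P.B)
      δ_eq_one := fun {x y} => by rw [map_eq_one_iff φ φ.injective, BN.dist_eq_one_iff]
      δ_symm := fun x y => by rw [BN.dist_symm, map_inv]
      δ_step := fun x {y z i} h1 => by
        have h2 : BN.dist P z y = BN.sg P (e i) := by rw [BN.dist_symm, hs.1 h1, BN.sg_inv]
        rcases BN.dist_trans_left (z := x) h2 with h3 | h3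
        · left
          rw [BN.dist_symm z x, h3, mul_inv_rev, BN.sg_inv, ← BN.dist_symm, map_mul, hφ]
        · right
          rw [BN.dist_symm z x, h3, ← BN.dist_symm]
      δ_up := fun {x y z i} h1 h2 => by
        have h3 : BN.dist P z y = BN.sg P (e i) := by rw [BN.dist_symm, hs.1 h1, BN.sg_inv]
        have h4 := BN.dist_trans_of_mem_P (z := x) h3 ((hP _ _).2 (by
          rwa [← map_inv, ← BN.dist_symm]))
        rw [BN.dist_symm z x, h4, mul_inv_rev, BN.sg_inv, ← BN.dist_symm, map_mul, hφ]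
      δ_ex := fun x y i => by
        obtain ⟨z, h1, h2⟩ := BN.exists_dist_step y x (e i)
        refine ⟨z, hs.2 h1, ?_⟩
        rw [BN.dist_symm z x, h2, mul_inv_rev, BN.sg_inv, ← BN.dist_symm, map_mul, hφ]
      thick := fun x i => by
        obtain ⟨y, z, h1, h2, h3⟩ := OfbnAux.thick P (e i) x
        exact ⟨y, z, h1, hs.2 h2, hs.2 h3⟩
      δ_smul := fun g x y => by rw [BN.dist_smul]
      trans := fun h1 => BN.exists_smul_of_dist_eq (φ.injective h1)
      δ_a := fun v w => by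
        have : BN.dist P ((n (φ.symm v) : G) : G ⧸ P.B) ((n (φ.symm w) : G) : G ⧸ P.B) =
            (φ.symm v)⁻¹ * φ.symm w := by
          rw [BN.dist_mk_eq_iff]
          have := BN.self_mem_cell P ((n (φ.symm v))⁻¹ * n (φ.symm w))
          rwa [BN.mk_mul, BN.mk_inv, hn, hn] at this
        rw [this, map_mul, map_inv, φ.apply_symm_apply, φ.apply_symm_apply] }
  refine ⟨B, fun i => ?_⟩
  rw [← BN.card_dist_eq P (e i) (B.a 1)]
  exact Nat.card_congr (Equiv.subtypeEquivRight fun y => hs)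

theorem faithful_of_simple {G : Type*} [Group G] [IsSimpleGroup G] (P : Cfsg.BNPair G)
    (h : Nonempty P.S) (g : G) (hg : ∀ x : G ⧸ P.B, g • x = x) : g = 1 := by
  obtain ⟨s⟩ := h
  rcases (MonoidHom.normal_ker (MulAction.toPermHom G (G ⧸ P.B))).eq_bot_or_eq_top with h1 | h1
  · have : g ∈ (MulAction.toPermHom G (G ⧸ P.B)).ker := Equiv.ext hg
    rwa [h1] at this
  · have h2 : (s : G) ∈ (MulAction.toPermHom G (G ⧸ P.B)).ker := h1 ▸ Subgroup.mem_top _
    have h3 : (s : G) • ((1 : G) : G ⧸ P.B) = ((1 : G) : G ⧸ P.B) :=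
      DFunLike.congr_fun (MonoidHom.mem_ker.1 h2) ((1 : G) : G ⧸ P.B)
    rw [MulAction.Quotient.smul_mk, smul_eq_mul, mul_one, eq_comm, QuotientGroup.eq] at h3
    exact absurd (by simpa using h3) (BN.S_not_mem_B P s.2)

open Cfsg.Lib.Chev.BN in
theorem bnM_mem {G : Type*} [Group G] [Finite G] (P : Cfsg.BNPair G) {i j : P.S} (h : i ≠ j) :
    bnM P i j = 2 ∨ bnM P i j = 3 ∨ bnM P i j = 4 ∨ bnM P i j = 6 ∨ bnM P i j = 8 := by
  classical
  have := Fintype.ofFinite (G ⧸ P.B)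
  have hpos : 0 < orderOf ((preCox P).s i * (preCox P).s j) := orderOf_pos _
  have hne1 : orderOf ((preCox P).s i * (preCox P).s j) ≠ 1 :=
    (preCox P).coxeterMatrix.off_diagonal i j h
  obtain ⟨N, hN⟩ : ∃ N, orderOf ((preCox P).s i * (preCox P).s j) = N + 1 :=
    ⟨_, (Nat.succ_pred_eq_of_pos hpos).symm⟩
  have hN' : orderOf ((preCox P).s j * (preCox P).s i) = N + 1 := by
    rw [← hN, (preCox P).orderOf_s_mul_s_comm]
  have red1 : ∀ k ≤ N + 1, (preCox P).Red (altWord i j k) := fun k hk =>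
    (preCox P).red_altWord_of_le (by omega)
  have red2 : ∀ k ≤ N + 1, (preCox P).Red (altWord j i k) := fun k hk =>
    (preCox P).red_altWord_of_le (by omega)
  have hbr : (preCox P).wp (altWord i j (N + 1)) = (preCox P).wp (altWord j i (N + 1)) := by
    rw [PreCox.wp_altWord_eq_iff, ← hN, pow_orderOf_eq_one]
  have ne1 : ∀ {ω : List P.S}, (preCox P).Red ω → 0 < ω.length → (preCox P).wp ω ≠ 1 := by
    intro ω hω h0 h
    unfold PreCox.Red at hω
    rw [h, PreCox.len_one] at hω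
    omega
  let T : P.S → Matrix (G ⧸ P.B) (G ⧸ P.B) ℂ := fun k => heckeT P ℂ (sg P k)
  have e1 : ∀ k, T i * FH.bw (T i) (T j) k = ((altWord i j (k + 1)).map T).prod := by
    intro k; rw [bw_eq, altWord_succ, List.map_cons, List.prod_cons]
  let D : FH.Data (G ⧸ P.B) (param P i) (param P j) N :=
    { A := T i
      B := T j
      hA := heckeT_sq P ℂ i
      hB := heckeT_sq P ℂ j
      braid := by
        rw [e1, bw_eq, ← heckeT_wp P ℂ (red1 _ le_rfl), ← heckeT_wp P ℂ (red2 _ le_rfl), hbr]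
      hst := by
        rintro ⟨d, hd⟩
        have := prod_param_eq P (red1 _ le_rfl) (red2 _ le_rfl) hbr
        rw [hd, ← two_mul, altWord_succ, altWord_succ, List.map_cons, List.map_cons,
          List.prod_cons, List.prod_cons, prod_altWord_two_mul, prod_altWord_two_mul,
          mul_comm (param P j) (param P i)] at this
        have hi := two_le_param P i
        have hj := two_le_param P j
        exact Nat.eq_of_mul_eq_mul_right (by positivity) this
      tr1 := fun k h0 hk => by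
        rw [bw_eq, ← heckeT_wp P ℂ (red2 k (by omega))]
        exact trace_heckeT P ℂ (ne1 (red2 k (by omega)) (by simpa using h0))
      tr2 := fun k hk => by
        rw [e1, ← heckeT_wp P ℂ (red1 (k + 1) (by omega))]
        exact trace_heckeT P ℂ (ne1 (red1 (k + 1) (by omega)) (by simp)) }
  have := D.feit_higman (two_le_param P i) (two_le_param P j) (by omega)
  have e2 : bnM P i j = N + 1 := hN
  rwa [e2]

theorem bnM_conn {G : Type*} [Group G] [Finite G] (P : Cfsg.BNPair G) (h : P.Irreducible)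
    (J : Set P.S) (h1 : J.Nonempty) (h2 : Jᶜ.Nonempty) : ∃ i ∈ J, ∃ j ∉ J, 3 ≤ bnM P i j := by
  obtain ⟨j₀, hj₀⟩ := h2
  obtain ⟨_, ⟨i, hi, rfl⟩, s', ⟨hs', hj⟩, hc⟩ := h (Subtype.val '' J)
    (Subtype.coe_image_subset _ _) (h1.image _)
    ⟨j₀, j₀.2, fun ⟨k, hk, e⟩ => hj₀ (Subtype.ext e ▸ hk)⟩
  have hjJ : (⟨s', hs'⟩ : P.S) ∉ J := fun hk => hj ⟨_, hk, rfl⟩
  refine ⟨i, hi, ⟨s', hs'⟩, hjJ, ?_⟩
  have hne : i ≠ ⟨s', hs'⟩ := fun e => hjJ (e ▸ hi)
  have hm := bnM_mem P hne
  by_contra hlt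
  have h2 : bnM P i ⟨s', hs'⟩ = 2 := by omega
  have h3 : (BN.sg P i * BN.sg P ⟨s', hs'⟩) ^ 2 = 1 := h2 ▸ pow_orderOf_eq_one _
  have h4 : BN.sg P i * BN.sg P ⟨s', hs'⟩ * (BN.sg P i)⁻¹ * (BN.sg P ⟨s', hs'⟩)⁻¹ = 1 := by
    rw [BN.sg_inv, BN.sg_inv, ← h3, sq, mul_assoc]
  rw [BN.sg_def, BN.sg_def, ← BN.mk_inv, ← BN.mk_inv, ← BN.mk_mul, ← BN.mk_mul, ← BN.mk_mul,
    BN.mk_eq_one_iff] at h4
  exact hc h4

end Cfsg.Lib.BLD
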