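import Cfsg.Agent.BLD.Bas1
import Cfsg.Agent.BLD.Rt1

/-!
# Finite spherical buildings: relabelling along a diagram symmetry
-/

set_option autoImplicit false
set_option linter.unusedSectionVars false

namespace Cfsg.Lib.BLD

open Cfsg.Lib.Chev

variable {ι A : Type} [Fintype ι] [DecidableEq ι] [DecidableEq A] {R : WeylData ι A}

namespace RetypeAux

theorem hom_ext {H : Type*} [Group H] {f g : R.W →* H} (h : ∀ i, f (R.s i) = g (R.s i)) : f = g := by
  ext w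
  obtain ⟨ω, -, rfl⟩ := R.exists_reduced w
  rw [map_wprod, map_wprod]
  exact congrArg (fun t => wprod t ω) (funext h)

theorem exists_equiv (ε : ι ≃ ι)
    (hε : ∀ i j, orderOf (R.s (ε i) * R.s (ε j)) = orderOf (R.s i * R.s j)) :
    ∃ φ : R.W ≃* R.W, ∀ i, φ (R.s i) = R.s (ε i) := by
  obtain ⟨f, hf⟩ := R.descent.exists_hom (fun i => R.s (ε i)) (fun i => R.s_mul_self _)
    fun i j => by rw [← hε, pow_orderOf_eq_one]
  obtain ⟨g, hg⟩ := R.descent.exists_hom (fun i => R.s (ε.symm i)) (fun i => R.s_mul_self _)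
    fun i j => by
      have := hε (ε.symm i) (ε.symm j)
      rw [ε.apply_symm_apply, ε.apply_symm_apply] at this
      rw [this, pow_orderOf_eq_one]
  exact ⟨MonoidHom.toMulEquiv f g (hom_ext fun i => by simp [hf, hg])
    (hom_ext fun i => by simp [hf, hg]), hf⟩

theorem len_le (f : R.W →* R.W) (e : ι → ι) (h : ∀ i, f (R.s i) = R.s (e i)) (w : R.W) :
    R.len (f w) ≤ R.len w := by
  obtain ⟨ω, hl, rfl⟩ := R.exists_reduced w
  have : f (wprod R.s ω) = wprod R.s (ω.map e) := by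
    rw [map_wprod]
    simp only [wprod, List.map_map, h]
    rfl
  rw [this, ← hl, ← List.length_map e]
  exact R.len_wprod_le _

variable {ε : ι ≃ ι} {φ : R.W ≃* R.W} (hφ : ∀ i, φ (R.s i) = R.s (ε i))
include hφ

theorem symm_s (i : ι) : φ.symm (R.s i) = R.s (ε.symm i) := by
  rw [MulEquiv.symm_apply_eq, hφ, ε.apply_symm_apply]

theorem len_eq (w : R.W) : R.len (φ w) = R.len w := by
  refine le_antisymm (len_le φ.toMonoidHom ε hφ w) ?_
  simpa using len_le φ.symm.toMonoidHom ε.symm (symm_s hφ) (φ w)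

theorem pos_iff (w : R.W) (i : ι) : R.Pos (φ w • R.simple (ε i)) ↔ R.Pos (w • R.simple i) := by
  rw [← not_iff_not, ← R.len_mul_s_lt_iff, ← R.len_mul_s_lt_iff, ← hφ, ← map_mul, len_eq hφ,
    len_eq hφ]

theorem hf_iff (w : R.W) (i : ι) : Hf R (R.simple (ε i)) (φ w) ↔ Hf R (R.simple i) w := by
  rw [Hf, Hf, ← map_inv, pos_iff hφ]

theorem eq_s {w : R.W} {i : ι} : φ w = R.s (ε i) ↔ w = R.s i := by
  rw [← hφ, φ.apply_eq_iff_eq]

variable {Γ Ch : Type*} [Group Γ] [MulAction Γ Ch]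

/-- The relabelled building. -/
def bld (B : Bld R Γ Ch) : Bld R Γ Ch where
  δ x y := φ (B.δ x y)
  a w := B.a (φ.symm w)
  δ_eq_one := by simp [B.δ_eq_one]
  δ_symm x y := by rw [B.δ_symm, map_inv]
  δ_step x y z i h := by
    obtain ⟨i, rfl⟩ := ε.surjective i
    rw [← hφ, ← map_mul, φ.apply_eq_iff_eq, φ.apply_eq_iff_eq]
    exact B.δ_step x ((eq_s hφ).1 h)
  δ_up {x y z i} h h' := by
    obtain ⟨i, rfl⟩ := ε.surjective i
    rw [← hφ, ← map_mul, φ.apply_eq_iff_eq]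
    exact B.δ_up ((eq_s hφ).1 h) ((pos_iff hφ _ _).1 h')
  δ_ex x y i := by
    obtain ⟨i, rfl⟩ := ε.surjective i
    obtain ⟨z, h1, h2⟩ := B.δ_ex x y i
    exact ⟨z, (eq_s hφ).2 h1, by rw [h2, map_mul, hφ]⟩
  thick x i := by
    obtain ⟨i, rfl⟩ := ε.surjective i
    obtain ⟨y, z, h0, h1, h2⟩ := B.thick x i
    exact ⟨y, z, h0, (eq_s hφ).2 h1, (eq_s hφ).2 h2⟩
  δ_smul g x y := by rw [B.δ_smul]
  trans h := B.trans (φ.injective h)
  δ_a v w := by simp [B.δ_a]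

variable (B : Bld R Γ Ch)

theorem bld_δ (x y : Ch) : (bld hφ B).δ x y = φ (B.δ x y) := rfl

theorem bld_a (w : R.W) : (bld hφ B).a (φ w) = B.a w := congrArg B.a (φ.symm_apply_apply w)

theorem mem_Tv {g : Γ} {x : Ch} {i : ι} : g ∈ (bld hφ B).Tv x (ε i) ↔ g ∈ B.Tv x i := by
  simp only [Bld.mem_Tv, bld_δ, eq_s hφ]

theorem mem_Br {g : Γ} {i : ι} : g ∈ (bld hφ B).Br (R.simple (ε i)) ↔ g ∈ B.Br (R.simple i) := by
  rw [Bld.mem_Br, Bld.mem_Br, φ.surjective.forall]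
  simp only [hf_iff hφ, bld_a]

theorem mem_U {g : Γ} {i : ι} : g ∈ (bld hφ B).U (R.simple (ε i)) ↔ g ∈ B.U (R.simple i) := by
  rw [Bld.mem_U, Bld.mem_U, mem_Br, φ.surjective.forall]
  refine and_congr_right fun _ => forall_congr' fun w => ?_
  rw [ε.surjective.forall]
  refine forall_congr' fun j => ?_
  rw [← hφ j, ← map_mul, hf_iff hφ, hf_iff hφ, bld_a, mem_Tv]

theorem lifts {g : Γ} {w : R.W} (h : B.Lifts g w) : (bld hφ B).Lifts g (φ w) := fun v => by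
  obtain ⟨v, rfl⟩ := φ.surjective v
  rw [← map_mul, bld_a, bld_a, h]

theorem mem_U' {g : Γ} {j k : ι} :
    g ∈ (bld hφ B).U (R.s (ε k) • R.simple (ε j)) ↔ g ∈ B.U (R.s k • R.simple j) := by
  obtain ⟨n, hn⟩ := B.exists_lifts (R.s k)
  have hn' := lifts hφ B hn
  rw [hφ] at hn'
  have e : g = n * (n⁻¹ * g * n) * n⁻¹ := by group
  rw [e, hn.conj_U, hn'.conj_U, mem_U]

end RetypeAux

namespace Bld

variable {Γ Ch : Type*} [Group Γ] [MulAction Γ Ch]

theorem retype (B : Bld R Γ Ch) (ε : ι ≃ ι)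
    (hε : ∀ i j, orderOf (R.s (ε i) * R.s (ε j)) = orderOf (R.s i * R.s j)) :
    ∃ B₁ : Bld R Γ Ch, (∀ i, B₁.q (ε i) = B.q i) ∧ ∀ j k, (B₁.flag (ε j) (ε k) ↔ B.flag j k) := by
  obtain ⟨φ, hφ⟩ := RetypeAux.exists_equiv ε hε
  refine ⟨RetypeAux.bld hφ B, fun i => ?_, fun j k => ?_⟩
  · have h1 : (RetypeAux.bld hφ B).a 1 = B.a 1 := by rw [← RetypeAux.bld_a hφ B 1, map_one]
    simp only [q, h1, RetypeAux.bld_δ, RetypeAux.eq_s hφ]
  · simp only [flag, RetypeAux.mem_U, RetypeAux.mem_U']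

end Bld

end Cfsg.Lib.BLD
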