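import Cfsg.Agent.BLD.Defs2
import Cfsg.Agent.BLD.Typ

/-! # Standard root systems with their trees -/

set_option autoImplicit false

namespace Cfsg.Lib.BLD

open Cfsg.Lib.Chev

namespace StdAux

/-- A tree from numerical data. -/
theorem std_of {n : ℕ} {A : Type} [DecidableEq A] (R : WeylData (Fin n) A) {m : ℕ → ℕ → ℕ}
    (C : ℕ → ℕ → ℤ) (hC : ∀ i j : Fin n, R.C i j = C i j) (par ρ : ℕ → ℕ) {j₀ k₀ : ℕ} (i₀ : ℕ) {c : ℤ}
    (hm : ∀ i j, orderOf (R.s i * R.s j) = m i j)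
    (h0 : j₀ < n ∧ k₀ < n ∧ i₀ < n ∧ ρ j₀ = 0 ∧ ρ k₀ = 1 ∧ C j₀ k₀ = -1 ∧ C k₀ j₀ = c ∧
      (c = -1 ∨ c = -2) ∧ i₀ ≠ j₀ ∧ i₀ ≠ k₀ ∧ par i₀ = j₀)
    (h1 : ∀ l < n, par l < n ∧ (l ≠ j₀ → l ≠ k₀ → ρ (par l) < ρ l ∧ C l (par l) = -1 ∧
      C (par l) l = -1))
    (h4 : ∀ l < n, ∀ l' < n, ρ l = ρ l' → l = l')
    (h2 : ∀ l < n, ∀ l' < n, ρ l' < ρ l → l = k₀ ∨ l' = par l ∨ C l l' = 0 ∧ C l' l = 0)
    (h3 : ∀ l < n, ∀ l' < n, m l l' = 3 → C l l' = -1 ∧ C l' l = -1) : Std n m j₀ k₀ c := by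
  obtain ⟨a1, a2, a3, a4, a5, a6, a7, a8, a9, a10, a11⟩ := h0
  refine ⟨A, inferInstance, R, ⟨⟨j₀, a1⟩, ⟨k₀, a2⟩, ⟨i₀, a3⟩, fun l => ⟨par l, (h1 l l.2).1⟩,
    fun l => ρ l, fun l l' e => Fin.ext (h4 l l.2 l' l'.2 e), a4, a5, (hC _ _).trans a6,
    by rw [hC, a7]; exact a8, fun l h h' => ((h1 l l.2).2 (Fin.val_ne_of_ne h)
      (Fin.val_ne_of_ne h')).1, fun l h h' => ?_, fun l l' h h' h'' => ?_, Fin.ne_of_val_ne a9,
    Fin.ne_of_val_ne a10, Fin.ext a11⟩, hm, fun i j h => ?_, rfl, rfl, (hC _ _).trans a7⟩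
  · rw [hC, hC]; exact ((h1 l l.2).2 (Fin.val_ne_of_ne h) (Fin.val_ne_of_ne h')).2
  · rw [hC, hC]; exact ((h2 l l.2 l' l'.2 h).resolve_left (Fin.val_ne_of_ne h')).resolve_left
      (Fin.val_ne_of_ne h'')
  · rw [hC, hC, (h3 i i.2 j j.2 h).1, (h3 i i.2 j j.2 h).2]; rfl

end StdAux

open StdAux

theorem std_A {n : ℕ} (hn : 3 ≤ n) : Std n mA 1 0 (-1) :=
  std_of (Chev.typeA n).weyl (fun i j => if i = j then 2 else if j = i + 1 ∨ i = j + 1 then -1 else 0)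
    (fun i j => by simp only [typeA_C, Fin.ext_iff]) (· - 1)
    (fun l => if l = 0 then 1 else if l = 1 then 0 else l) 2 (ord_A n) (by simp; omega)
    (fun l _ => by split_ifs <;> omega) (fun l _ l' _ h => by split_ifs at h <;> omega)
    (fun l _ l' _ h => by split_ifs at h <;> omega) fun l _ l' _ h => by
      unfold mA at h; split_ifs at h <;> omega

theorem std_B {n : ℕ} (hn : 3 ≤ n) : Std n (mB n) (n - 2) (n - 1) (-2) :=
  std_of (typeB n).weyl (fun i j => if i = j then 2 else if j = i + 1 then -1 else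
      if i = j + 1 then (if i + 1 = n then -2 else -1) else 0)
    (fun i j => by simp only [Typ.typeB_C, Fin.ext_iff]) (fun l => min (l + 1) (n - 1))
    (fun l => if l + 2 = n then 0 else if l + 1 = n then 1 else n - 1 - l) (n - 3) (ord_B n)
    (by split_ifs <;> omega)
    (fun l _ => by split_ifs <;> omega) (fun l _ l' _ h => by split_ifs at h <;> omega)
    (fun l _ l' _ h => by split_ifs at h <;> omega) fun l _ l' _ h => by
      unfold mB at h; split_ifs at h <;> omega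

theorem std_D {n : ℕ} (hn : 4 ≤ n) : Std n (mD n) (n - 3) (n - 1) (-1) :=
  std_of (typeD n (by omega)).weyl (fun i j => if i = j then 2 else
      if (j = i + 1 ∧ j ≤ n - 2) ∨ (i = j + 1 ∧ i ≤ n - 2) ∨ (i + 3 = n ∧ j + 1 = n) ∨
        (j + 3 = n ∧ i + 1 = n) then -1 else 0)
    (fun i j => by simp only [typeD_C, Fin.ext_iff]) (fun l => min (l + 1) (n - 3))
    (fun l => if l + 3 = n then 0 else if l + 1 = n then 1 else n - l) (n - 2) (ord_D n _)
    (by split_ifs <;> omega)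
    (fun l _ => by split_ifs <;> omega) (fun l _ l' _ h => by split_ifs at h <;> omega)
    (fun l _ l' _ h => by split_ifs at h <;> omega) fun l _ l' _ h => by
      unfold mD at h; split_ifs at h <;> omega

theorem std_E6 : Std 6 mE 3 1 (-1) :=
  std_of (n := 6) rootE6.weyl (fun i j => (cartanE6.getD i []).getD j 0) (Typ.hasC_apply (hasC_E6 _))
    ([2, 3, 3, 0, 3, 4].getD · 0)
    ([3, 1, 2, 0, 4, 5].getD · 0) 2 (ord_E6 _) (by decide) (by decide) (by decide)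
    (by decide) (by decide)

theorem std_E7 : Std 7 mE 3 1 (-1) :=
  std_of (n := 7) rootE7.weyl (fun i j => (cartanE7.getD i []).getD j 0) (Typ.hasC_apply (hasC_E7 _))
    ([2, 3, 3, 0, 3, 4, 5].getD · 0)
    ([3, 1, 2, 0, 4, 5, 6].getD · 0) 2 (ord_E7 _) (by decide) (by decide) (by decide)
    (by decide) (by decide)

theorem std_E8 : Std 8 mE 3 1 (-1) :=
  std_of (n := 8) rootE8.weyl (fun i j => (cartanE8.getD i []).getD j 0) (Typ.hasC_apply (hasC_E8 _))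
    ([2, 3, 3, 0, 3, 4, 5, 6].getD · 0)
    ([3, 1, 2, 0, 4, 5, 6, 7].getD · 0) 2 (ord_E8 _) (by decide) (by decide) (by decide)
    (by decide) (by decide)

theorem std_F4 : Std 4 mF 2 1 (-2) :=
  std_of (n := 4) rootF4.weyl (fun i j => (cartanF4.getD i []).getD j 0) (Typ.hasC_apply (hasC_F4 _))
    ([1, 2, 0, 2].getD · 0)
    ([3, 1, 0, 2].getD · 0) 3 (ord_F4 _) (by decide) (by decide) (by decide)
    (by decide) (by decide)

end Cfsg.Lib.BLD
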