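import Cfsg.Agent.BLD.Match
import Cfsg.Agent.BLD.Mouf
import Cfsg.Agent.BLD.Retype
import Cfsg.Agent.BLD.Ofbn
import Cfsg.Agent.BLD.Cox1
import Cfsg.Agent.BLD.Cox2b
import Cfsg.Agent.BLD.Cox2c
import Cfsg.Agent.BLD.Std
import Cfsg.Agent.BLD.ModS
import Cfsg.Agent.BLD.ModO
import Cfsg.Agent.BLD.ModT
import Cfsg.Agent.BLD.ModU
import Cfsg.Agent.S0821

/-!
# Finite simple groups with an irreducible BN-pair of rank at least three
-/

set_option autoImplicit false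
set_option linter.unusedSectionVars false

namespace Cfsg.Lib.BLD

open Cfsg.Lib.Chev Cfsg.Lie

section Cmp

variable {ι A : Type} [Fintype ι] [DecidableEq ι] [DecidableEq A] {R : WeylData ι A}
  {Γ Ch : Type*} [Group Γ] [MulAction Γ Ch] [Finite Γ] [Finite Ch] {B : Bld R Γ Ch}
  {Γ' Ch' : Type*} [Group Γ'] [MulAction Γ' Ch'] [Finite Γ'] [Finite Ch'] {B' : Bld R Γ' Ch'}

theorem Bld.equiv_of [IsSimpleGroup Γ] [IsSimpleGroup Γ'] (T : Tree R) (hB : B.RG) (hB' : B'.RG)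
    (h1 : B.q T.j₀ = B'.q T.j₀) (h2 : B.q T.k₀ = B'.q T.k₀)
    (h3 : R.C T.k₀ T.j₀ = -2 → (B.flag T.j₀ T.k₀ ↔ B'.flag T.j₀ T.k₀)) : Nonempty (Γ ≃* Γ') :=
  haveI : Nonempty ι := ⟨T.j₀⟩
  Bld.nonempty_equiv T hB hB' hB.span_eq_top hB'.span_eq_top h1 h2 h3

theorem Bld.flag_det {i j k : ι} (hB : B.RG) (hB' : B'.RG) (h : B3 R i j k) (h1 : B.q j = B'.q j)
    (h2 : B.q k = B'.q k) (h3 : ¬ (B.q k = B.q j ∧ Odd (B.q j))) : B.flag j k ↔ B'.flag j k := by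
  have key : ∀ q t q₀ : ℕ, 2 ≤ q → (t = q ∨ t = q ^ 2) → q = q₀ ^ 2 → ¬ (t = q₀ ∨ t = q₀ ^ 3) := by
    rintro _ t q₀ hq ht rfl ht'
    have h0 : 1 < q₀ := by
      by_contra h
      have : q₀ = 0 ∨ q₀ = 1 := by omega
      rcases this with rfl | rfl <;> simp at hq
    have hi := Nat.pow_right_injective h0
    rw [← pow_mul] at ht
    rcases ht with rfl | rfl <;> rcases ht' with h | h
    · exact absurd (hi (h.trans (pow_one q₀).symm)) (by decide)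
    · exact absurd (hi h) (by decide)
    · exact absurd (hi (h.trans (pow_one q₀).symm)) (by decide)
    · exact absurd (hi h) (by decide)
  rcases hB.num h with ⟨a, b⟩ | ⟨_, b⟩ | ⟨a, q₀, b, c⟩
  · rcases hB'.num h with ⟨a', _⟩ | ⟨_, b'⟩ | ⟨_, q₀, b', c'⟩
    · exact iff_of_true a a'
    · exact absurd (by rwa [h1, h2]) h3
    · exact absurd (by rw [h2]; exact c'.imp id And.left) (key _ _ q₀ (B.two_le_q j) b (h1.trans b'))
  · exact absurd b h3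
  · rcases hB'.num h with ⟨_, b'⟩ | ⟨a', _⟩ | ⟨a', _⟩
    · exact absurd (by rw [← h2]; exact c.imp id And.left)
        (key _ _ q₀ (B'.two_le_q j) b' (h1.symm.trans b))
    · exact iff_of_false a a'
    · exact iff_of_false a a'

end Cmp

section Pat

variable {n : ℕ} {m : ℕ → ℕ → ℕ} {A : Type} [DecidableEq A] {R : WeylData (Fin n) A}

theorem exists_rg (T : Tree R) (hR : ∀ i j, orderOf (R.s i * R.s j) = m i j) {G : Type*} [Group G]
    [Finite G] [IsSimpleGroup G] (P : Cfsg.BNPair G) (e : Fin n ≃ P.S)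
    (he : ∀ i j, bnM P (e i) (e j) = m i j) :
    ∃ B : Bld R G (G ⧸ P.B), B.RG ∧ ∀ i, B.q i = BN.param P (e i) := by
  obtain ⟨B, hB⟩ := exists_bld (R := R) P e fun i j => (he i j).trans (hR i j).symm
  exact ⟨B, Bld.rg_of_tree T (faithful_of_simple P ⟨e T.j₀⟩), hB⟩

theorem Model.exists_rg (T : Tree R) (hR : ∀ i j, orderOf (R.s i * R.s j) = m i j) {q : ℕ → ℕ}
    {H : Type*} [Group H] (h : Model n m q H) :
    ∃ (K : Type) (_ : Group K) (_ : Finite K) (_ : IsSimpleGroup K) (Ch : Type) (_ : MulAction K Ch)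
      (_ : Finite Ch) (B : Bld R K Ch), Nonempty (K ≃* H) ∧ B.RG ∧ ∀ i, B.q i = q i := by
  obtain ⟨K, _, _, _, P, e, hK, he, hq⟩ := h
  obtain ⟨B, h1, h2⟩ := BLD.exists_rg T hR P e he
  exact ⟨K, _, ‹_›, ‹_›, _, _, inferInstance, B, hK, h1, fun i => (h2 i).trans (hq i)⟩

variable {Γ Ch : Type*} [Group Γ] [MulAction Γ Ch] [Finite Γ] [Finite Ch] [IsSimpleGroup Γ]
  {B : Bld R Γ Ch}

theorem Model.equiv (T : Tree R) (hR : ∀ i j, orderOf (R.s i * R.s j) = m i j) {q : ℕ → ℕ}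
    {H : Type*} [Group H] (h : Model n m q H) (hB : B.RG) (h1 : B.q T.j₀ = q T.j₀)
    (h2 : B.q T.k₀ = q T.k₀)
    (h3 : R.C T.k₀ T.j₀ = -2 → ¬ (B.q T.k₀ = B.q T.j₀ ∧ Odd (B.q T.j₀))) : Nonempty (Γ ≃* H) := by
  obtain ⟨K, _, _, _, Ch', _, _, B', ⟨e⟩, hB', hq⟩ := h.exists_rg T hR
  have h1' := h1.trans (hq _).symm
  have h2' := h2.trans (hq _).symm
  obtain ⟨f⟩ := Bld.equiv_of T hB hB' h1' h2' fun hc =>
    Bld.flag_det hB hB' (T.b3 hc) h1' h2' (h3 hc)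
  exact ⟨f.trans e⟩

omit [IsSimpleGroup Γ] in
theorem primePow_q (T : Tree R) (B : Bld R Γ Ch) : IsPrimePow (B.q T.j₀) := by
  have h := T.C_par _ T.i_ne_j T.i_ne_k
  rw [T.par_i] at h
  obtain ⟨h1, p, e, hp, he, h2⟩ := Bld.q_pow (B := B) (i := T.i₀) (j := T.j₀) (by rw [h.1, h.2]; rfl)
  exact ⟨p, e, hp.prime, he, by rw [← h1, h2]⟩

theorem exists_field {q : ℕ} (h : IsPrimePow q) :
    ∃ (F : Type) (_ : Field F) (_ : Fintype F), Fintype.card F = q := by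
  obtain ⟨p, e, hp, he, rfl⟩ := h
  have : Fact p.Prime := ⟨hp.nat_prime⟩
  let _ : Fintype (GaloisField p e) := Fintype.ofFinite _
  exact ⟨GaloisField p e, inferInstance, inferInstance,
    by rw [← Nat.card_eq_fintype_card, GaloisField.card p e he.ne']⟩

end Pat

variable {G : Type*} [Group G] [Finite G] [IsSimpleGroup G] (P : Cfsg.BNPair G)

theorem laced {n j₀ k₀ : ℕ} {m : ℕ → ℕ → ℕ} (hS : Std n m j₀ k₀ (-1)) (hP : HasPat (bnM P) n m) :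
    ∃ (F : Type) (_ : Field F) (_ : Fintype F), ∀ (H : Type) [Group H],
      Model n m (fun _ => Fintype.card F) H → Nonempty (G ≃* H) := by
  obtain ⟨A, _, R, T, hR, -, -, -, hc⟩ := hS
  obtain ⟨e, he⟩ := hP
  obtain ⟨B, hB, -⟩ := exists_rg T hR P e he
  obtain ⟨F, _, _, hF⟩ := exists_field (primePow_q T B)
  have h := (Bld.q_pow (B := B) (i := T.k₀) (j := T.j₀) (by rw [hc, T.C_jk]; rfl)).1
  exact ⟨F, inferInstance, inferInstance, fun H _ hH => hH.equiv T hR hB hF.symm (h.trans hF.symm) fun h' => by omega⟩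

theorem caseB {n : ℕ} (hn : 3 ≤ n) (hP : HasPat (bnM P) n (mB n)) :
    IsPSp G ∨ IsPSU G ∨ IsPOmegaOdd G ∨ IsPOmegaMinus G := by
  obtain ⟨A, _, R, T, hR, -, hj, hk, hc⟩ := std_B hn
  obtain ⟨e, he⟩ := hP
  obtain ⟨B, hB, -⟩ := exists_rg T hR P e he
  obtain ⟨F, _, _, hF⟩ := exists_field (primePow_q T B)
  have h2 := B.two_le_q T.j₀
  have hj' : ¬ T.j₀.val + 1 = n := by omega
  have hk' : T.k₀.val + 1 = n := by omega
  have hsp : Nonempty (G ≃* PSp n F) → IsPSp G := fun h => ⟨F, inferInstance, inferInstance, n, by omega, by omega, h⟩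
  by_cases h : B.q T.k₀ = B.q T.j₀ ∧ Odd (B.q T.j₀)
  · have ho : Odd (Fintype.card F) := hF ▸ h.2
    obtain ⟨K, _, _, _, Ch, _, _, B₁, ⟨e₁⟩, hB₁, hq₁⟩ := (mod_C F hn).exists_rg T hR
    obtain ⟨K', _, _, _, Ch', _, _, B₂, ⟨e₂⟩, hB₂, hq₂⟩ := (mod_B F hn ho).exists_rg T hR
    by_cases h₁ : B.flag T.j₀ T.k₀ ↔ B₁.flag T.j₀ T.k₀
    · obtain ⟨f⟩ := Bld.equiv_of T hB hB₁ (by rw [hq₁, hF]) (by rw [hq₁, hF, h.1]) fun _ => h₁
      exact Or.inl (hsp ⟨f.trans e₁⟩)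
    by_cases h₂ : B.flag T.j₀ T.k₀ ↔ B₂.flag T.j₀ T.k₀
    · obtain ⟨f⟩ := Bld.equiv_of T hB hB₂ (by rw [hq₂, hF]) (by rw [hq₂, hF, h.1]) fun _ => h₂
      exact Or.inr (Or.inr (Or.inl ⟨F, inferInstance, inferInstance, n, hn, ho, ⟨f.trans e₂⟩⟩))
    obtain ⟨f⟩ := Bld.equiv_of T hB₁ hB₂ (by rw [hq₁, hq₂]) (by rw [hq₁, hq₂]) fun _ => by tauto
    exact ((Cfsg.Agent.S0821.result ho n hn).false (e₁.symm.trans (f.trans e₂))).elim
  rcases hB.num (T.b3 hc) with ⟨-, h1 | h1⟩ | ⟨-, h1⟩ | ⟨-, q₀, h1, h3 | ⟨h3, -⟩⟩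
  · exact Or.inl (hsp ((mod_C F hn).equiv T hR hB hF.symm (h1.trans hF.symm) fun _ => h))
  · obtain ⟨a, b, hab, hM⟩ := mod_Dm F hn
    exact Or.inr (Or.inr (Or.inr ⟨F, inferInstance, inferInstance, n + 1, a, b, by omega, hab,
      hM.equiv T hR hB (by simp [hj', hF]) (by simp [hk', hF, h1]) fun _ => h⟩))
  · exact absurd h1 h
  · exact Or.inr (Or.inl ⟨F, inferInstance, inferInstance, 2 * n, q₀, hF.trans h1, by omega, by omega,
      (mod_Ue F (hF.trans h1) hn).equiv T hR hB (by simp [hj', h1]) (by simp [hk', h3]) fun _ => h⟩)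
  · exact Or.inr (Or.inl ⟨F, inferInstance, inferInstance, 2 * n + 1, q₀, hF.trans h1, by omega, by omega,
      (mod_Uo F (hF.trans h1) hn).equiv T hR hB (by simp [hj', h1]) (by simp [hk', h3]) fun _ => h⟩)

theorem caseF (hP : HasPat (bnM P) 4 mF) : IsoF4 G ∨ Iso2E6 G := by
  obtain ⟨A, _, R, T, hR, hC, hj, hk, hc⟩ := std_F4
  obtain ⟨e, he⟩ := hP
  obtain ⟨B, hB, -⟩ := exists_rg T hR P e he
  obtain ⟨B₁, hq, hf⟩ := B.retype Fin.revPerm fun i j => by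
    rw [hR, hR]; revert i j; decide
  have hB₁ : B₁.RG := Bld.rg_of_tree T hB.faith
  have ej : Fin.revPerm T.k₀ = T.j₀ := Fin.ext (by simp [Fin.val_rev, hj, hk])
  have ek : Fin.revPerm T.j₀ = T.k₀ := Fin.ext (by simp [Fin.val_rev, hj, hk])
  have hqj : B₁.q T.j₀ = B.q T.k₀ := ej ▸ hq T.k₀
  have hqk : B₁.q T.k₀ = B.q T.j₀ := ek ▸ hq T.j₀
  have hfl : B₁.flag T.j₀ T.k₀ ↔ B.flag T.k₀ T.j₀ := by simpa only [ej, ek] using hf T.k₀ T.j₀
  have tw : ∀ B : Bld R G (G ⧸ P.B), B.RG → B.q T.k₀ = B.q T.j₀ ^ 2 → Iso2E6 G := fun B hB h => by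
    have hp := primePow_q T B
    obtain ⟨F, _, _, hF⟩ := exists_field (hp.pow two_ne_zero)
    have h2 := B.two_le_q T.j₀
    exact ⟨F, inferInstance, inferInstance, _, hp, hF, (mod_2E6 F hp hF).equiv T hR hB (by simp [hj]) (by simp [hk, h])
      fun _ h' => by nlinarith [h'.1]⟩
  obtain ⟨F, _, _, hF⟩ := exists_field (primePow_q T B)
  by_cases h : B.q T.k₀ = B.q T.j₀ ∧ Odd (B.q T.j₀)
  · obtain ⟨K, _, _, _, Ch, _, _, B₂, ⟨e₂⟩, hB₂, hq₂⟩ := (mod_F4 F).exists_rg T hR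
    by_cases h₁ : B.flag T.j₀ T.k₀ ↔ B₂.flag T.j₀ T.k₀
    · obtain ⟨f⟩ := Bld.equiv_of T hB hB₂ (by rw [hq₂, hF]) (by rw [hq₂, hF, h.1]) fun _ => h₁
      exact Or.inl ⟨F, inferInstance, inferInstance, ⟨f.trans e₂⟩⟩
    have h₂ := hB.flag_odd (T.b3 hc) h.1 h.2
    obtain ⟨f⟩ := Bld.equiv_of T hB₁ hB₂ (by rw [hq₂, hF, hqj, h.1]) (by rw [hq₂, hF, hqk])
      fun _ => by tauto
    exact Or.inl ⟨F, inferInstance, inferInstance, ⟨f.trans e₂⟩⟩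
  rcases hB.num (T.b3 hc) with ⟨-, h1 | h1⟩ | ⟨-, h1⟩ | ⟨-, q₀, h1, h3 | ⟨-, x, hx, y, hy, h3⟩⟩
  · exact Or.inl ⟨F, inferInstance, inferInstance, (mod_F4 F).equiv T hR hB hF.symm (h1.trans hF.symm) fun _ => h⟩
  · exact Or.inr (tw B hB h1)
  · exact absurd h1 h
  · exact Or.inr (tw B₁ hB₁ (by rw [hqj, hqk, h1, h3]))
  · obtain ⟨F', _, _, e', -, he'⟩ := hB.exists_a2c (hC 0 T.k₀ (by rw [hk]; rfl))
    obtain ⟨t, rfl⟩ := he'.surj 1 2 (by decide) x hx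
    obtain ⟨u, rfl⟩ := he'.surj 1 2 (by decide) y hy
    exact absurd (he'.st.commute 1 2 1 2 (by decide) (by decide) (by decide) (by decide) t u) h3

omit [IsSimpleGroup G] in
theorem pat_bnM (h3 : 3 ≤ P.rank) (hirr : P.Irreducible) : Pat (bnM P) := by
  have hM : CoxM (bnM P) :=
    ⟨fun i => by rw [bnM, BN.sg_sq, orderOf_one], (BN.preCox P).orderOf_s_mul_s_comm,
      fun _ _ => bnM_mem P, pd_of_preCox (BN.preCox P) fun _ _ h => bnM_mem P h⟩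
  obtain ⟨k, c, hk, hc, h1, h2, h | ⟨v, p, hv, h4, hp, hp', h5, h6, h7⟩⟩ :=
    hM.shape h3 (bnM_conn P hirr)
  · exact hM.pat_chain hc hk h1 h2 h
  · exact hM.pat_fork hc h1 hv h4 hp hp' h5 h6 h7

theorem main (h3 : 3 ≤ P.rank) (hirr : P.Irreducible) :
    IsPSL G ∨ IsPSp G ∨ IsPSU G ∨ IsPOmegaOdd G ∨ IsPOmegaPlus G ∨ IsPOmegaMinus G ∨
      IsExceptionalLieType G := by
  unfold IsExceptionalLieType
  rcases pat_bnM P h3 hirr with ⟨n, hn, h⟩ | ⟨n, hn, h⟩ | ⟨n, hn, h⟩ | h | h | h | h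
  · obtain ⟨F, _, _, hF⟩ := laced P (std_A hn) h
    exact Or.inl ⟨F, inferInstance, inferInstance, n + 1, by omega, by omega, hF _ (mod_A F hn)⟩
  · have := caseB P hn h
    tauto
  · obtain ⟨F, _, _, hF⟩ := laced P (std_D hn) h
    have : IsPOmegaPlus G := ⟨F, inferInstance, inferInstance, n, hn, hF _ (mod_D F hn)⟩
    tauto
  · obtain ⟨F, _, _, hF⟩ := laced P std_E6 h
    have : IsoChevE6 G := ⟨F, inferInstance, inferInstance, hF _ (mod_E6 F)⟩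
    tauto
  · obtain ⟨F, _, _, hF⟩ := laced P std_E7 h
    have : IsoE7 G := ⟨F, inferInstance, inferInstance, hF _ (mod_E7 F)⟩
    tauto
  · obtain ⟨F, _, _, hF⟩ := laced P std_E8 h
    have : IsoE8 G := ⟨F, inferInstance, inferInstance, hF _ (mod_E8 F)⟩
    tauto
  · have := caseF P h
    tauto

end Cfsg.Lib.BLD
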