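import Cfsg.Agent.BLD.Defs
import Cfsg.Agent.Known.QuadNormal

/-!
Anisotropic quadratic spaces over finite fields.
-/

set_option autoImplicit false
set_option linter.unusedSectionVars false

namespace Cfsg.Lib.BLD.PQ

open Module QuadraticMap Cfsg.Lib.Known

namespace Pq1

variable {F S F' S' : Type*} [Field F] [Group S] [Field F'] [Group S'] {Q : PQ F S} {Q' : PQ F' S'}

theorem c_one (Q : PQ F S) : Q.c 1 = 0 := by
  rw [← Q.sm_zero 1, Q.c_sm, zero_mul, zero_mul]

theorem τ_id (hz : ∀ u, Q.z u = 1) (u : F) : Q.τ u = u := by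
  have h := Q.c_z u
  rw [hz, c_one, eq_comm, sub_eq_zero] at h
  exact h.symm

theorem σ_id (hz : ∀ u, Q.z u = 1) (u : F) : Q.σ u = u := by
  have h := Q.τ_mul u 1
  rwa [τ_id hz, τ_id hz, mul_one, mul_one, eq_comm] at h

theorem comm (hz : ∀ u, Q.z u = 1) (s s' : S) : s * s' = s' * s := by
  have h := Q.sm_hom (1 + 1) s s'
  simp only [Q.sm_add, hz, Q.sm_one, mul_one, mul_assoc] at h
  have h1 := mul_left_cancel h
  rw [← mul_assoc, ← mul_assoc] at h1
  exact (mul_right_cancel h1).symm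

/-- The underlying vector space. -/
def Vs (Q : PQ F S) (_hz : ∀ u, Q.z u = 1) : Type _ := Additive S
theorem Vs_eq_1' : type_of% @Vs.eq_1 := @Vs.eq_1

instance acg (hz : ∀ u, Q.z u = 1) : AddCommGroup (Vs Q hz) :=
  { (inferInstance : AddGroup (Additive S)) with add_comm := fun a b : S => comm hz a b }

instance smu (hz : ∀ u, Q.z u = 1) : SMul F (Vs Q hz) := ⟨Q.sm⟩

theorem sm_add (hz : ∀ u, Q.z u = 1) (t t' : F) (s : S) :
    Q.sm (t + t') s = Q.sm t s * Q.sm t' s := by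
  rw [Q.sm_add, hz, mul_one, comm hz]

theorem c_sm (hz : ∀ u, Q.z u = 1) (t : F) (s : S) : Q.c (Q.sm t s) = t * t * Q.c s := by
  rw [Q.c_sm, σ_id hz]

theorem f_sm (hz : ∀ u, Q.z u = 1) (t : F) (s s' : S) : Q.f (Q.sm t s) s' = t * Q.f s s' := by
  rw [Q.f_symm, τ_id hz, Q.f_sm, Q.f_symm s s', τ_id hz]

instance md (hz : ∀ u, Q.z u = 1) : Module F (Vs Q hz) :=
  Module.ofMinimalAxioms Q.sm_hom (sm_add (Q := Q) hz) Q.sm_mul Q.sm_one

instance fin (hz : ∀ u, Q.z u = 1) [Finite S] : Finite (Vs Q hz) := ‹_›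

/-- The quadratic form. -/
def qf (hz : ∀ u, Q.z u = 1) : QuadraticForm F (Vs Q hz) where
  toFun := Q.c
  toFun_smul := c_sm (Q := Q) hz
  exists_companion' := ⟨LinearMap.mk₂ F Q.f Q.f_mul_left (f_sm (Q := Q) hz) Q.f_mul_right Q.f_sm,
    Q.c_mul⟩
theorem qf_eq_1' : type_of% @qf.eq_1 := @qf.eq_1

theorem an (hz : ∀ u, Q.z u = 1) (v : Vs Q hz) (h : qf hz v = 0) : v = 0 := Q.c_eq_zero v h

theorem sim_of (hz : ∀ u, Q.z u = 1) (hz' : ∀ u, Q'.z u = 1) (φ : F ≃+* F')
    (g : Vs Q hz ≃+ Vs Q' hz') {l : F'} (hl : l ≠ 0) (h1 : ∀ (t : F) v, g (t • v) = φ t • g v)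
    (h2 : ∀ v, qf hz' (g v) = l * φ (qf hz v)) : Q.Sim Q' := by
  let ψ : S ≃* S' := ⟨g.toEquiv, g.map_add⟩
  have h3 : ∀ s, Q'.c (ψ s) = l * φ (Q.c s) := h2
  refine ⟨φ, ψ, l, hl, h1, h3, fun s s' => ?_, fun t u => by rw [hz, hz', map_one]⟩
  have h4 := h3 (s * s')
  rw [map_mul, Q.c_mul, Q'.c_mul, h3, h3, map_add, map_add] at h4
  linear_combination h4

theorem nondeg {V : Type*} [AddCommGroup V] [Module F V] [Finite F] {q : QuadraticForm F V}
    (h0 : ∀ v, q v = 0 → v = 0) (hV : finrank F V = 2) : (polarBilin q).Nondegenerate := by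
  refine Class.polarBilin_nondegenerate_of q fun u hu => by_contra fun h1 => ?_
  have h2 : q u ≠ 0 := fun e => h1 (h0 u e)
  have h3 : (2 : F) = 0 := by
    have := hu u
    rw [polar_self, two_nsmul, ← two_mul] at this
    exact (mul_eq_zero.1 this).resolve_right h2
  have : finrank F V ≤ 1 := finrank_le_one u fun v => by
    obtain ⟨x, hx⟩ := FiniteField.isSquare_of_char_two (ringChar.eq_iff.2
      (CharTwo.of_one_ne_zero_of_two_eq_zero one_ne_zero h3)) (q v / q u)
    refine ⟨x, sub_eq_zero.1 (h0 _ ?_)⟩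
    have h4 := hu (-v)
    rw [sub_eq_add_neg, QuadraticMap.map_add q, polar_smul_left, h4, QuadraticMap.map_smul,
      QuadraticMap.map_neg, ← hx, smul_eq_mul, div_mul_cancel₀ _ h2, smul_zero, add_zero, ← two_mul,
      h3, zero_mul]
  omega

theorem rank [Finite F] [Finite S] [Nontrivial S] (hz : ∀ u, Q.z u = 1) :
    (finrank F (Vs Q hz) = 1 ∨ finrank F (Vs Q hz) = 2) ∧
      Nat.card S = Nat.card F ^ finrank F (Vs Q hz) := by
  have : Nontrivial (Vs Q hz) := ‹_›
  have h1 := finrank_le_two_of_anisotropic (qf hz) (an hz)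
  have h2 := finrank_pos (R := F) (M := Vs Q hz)
  exact ⟨by omega, Module.natCard_eq_pow_finrank (K := F) (V := Vs Q hz)⟩

end Pq1

open Pq1

variable {F S F' S' : Type*} [Field F] [Group S] [Field F'] [Group S'] [Finite F] [Finite S]
  [Finite F'] [Finite S'] [Nontrivial S] [Nontrivial S'] (Q : PQ F S) (Q' : PQ F' S')

theorem num_quad (hz : ∀ u, Q.z u = 1) :
    Nat.card S = Nat.card F ∨ Nat.card S = Nat.card F ^ 2 := by
  obtain ⟨h | h, e⟩ := rank hz <;> rw [h] at e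
  exacts [Or.inl (e.trans (pow_one _)), Or.inr e]

theorem f_ne_quad (hz : ∀ u, Q.z u = 1) (h : Odd (Nat.card F)) : ¬ ∀ s s', Q.f s s' = 0 := by
  intro h0
  obtain ⟨s, hs⟩ := exists_ne (1 : S)
  have h1 := Q.f_self s
  have := Fintype.ofFinite F
  rw [h0, τ_id hz, ← two_mul, eq_comm, mul_eq_zero] at h1
  exact h1.elim (Class.two_ne_zero_of_odd_card (Nat.card_eq_fintype_card (α := F) ▸ h))
    fun e => hs (Q.c_eq_zero s e)

theorem sim_quad (hz : ∀ u, Q.z u = 1) (hz' : ∀ u, Q'.z u = 1) (hF : Nat.card F = Nat.card F')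
    (hS : Nat.card S = Nat.card S') : Q.Sim Q' := by
  obtain ⟨h1, e⟩ := rank hz
  have h2 : finrank F' (Vs Q' hz') = finrank F (Vs Q hz) := by
    rw [hS, (rank hz').2, hF] at e
    exact Nat.pow_right_injective Finite.one_lt_card e
  have := Fintype.ofFinite F
  have := Fintype.ofFinite F'
  obtain ⟨φ⟩ : Nonempty (F ≃+* F') := ⟨FiniteField.ringEquivOfCardEq (by
    rwa [← Nat.card_eq_fintype_card, ← Nat.card_eq_fintype_card])⟩
  rcases h1 with h1 | h1 <;> rw [h1] at h2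
  · have a : F ≃ₗ[F] Vs Q hz := LinearEquiv.ofFinrankEq _ _ (by rw [h1, finrank_self])
    have b : F' ≃ₗ[F'] Vs Q' hz' := LinearEquiv.ofFinrankEq _ _ (by rw [h2, finrank_self])
    have ha : qf hz (a 1) ≠ 0 := fun e => one_ne_zero (a.map_eq_zero_iff.1 (an hz _ e))
    have hb : qf hz' (b 1) ≠ 0 := fun e => one_ne_zero (b.map_eq_zero_iff.1 (an hz' _ e))
    have ha' : φ (qf hz (a 1)) ≠ 0 := (map_ne_zero φ).2 ha
    refine sim_of hz hz' φ (a.symm.toAddEquiv.trans (φ.toAddEquiv.trans b.toAddEquiv))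
      (div_ne_zero hb ha') (fun t v => ?_) fun v => ?_
    · change b (φ (a.symm (t • v))) = φ t • b (φ (a.symm v))
      rw [map_smul, smul_eq_mul, map_mul, ← smul_eq_mul, map_smul]
    · obtain ⟨x, rfl⟩ := a.surjective v
      change qf hz' (b (φ (a.symm (a x)))) = _
      rw [a.symm_apply_apply, show a x = x • a 1 by rw [← map_smul, smul_eq_mul, mul_one],
        show b (φ x) = φ x • b 1 by rw [← map_smul, smul_eq_mul, mul_one], QuadraticMap.map_smul,
        QuadraticMap.map_smul]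
      simp only [smul_eq_mul, map_mul]
      field_simp
  · obtain ⟨ζ, hζ⟩ := exists_no_root F
    obtain ⟨a, ha⟩ := exists_aniso_equiv (nondeg (an hz) h1) h1 (an hz) ((aniso_one_iff ζ).2 hζ)
    obtain ⟨b, hb⟩ := exists_aniso_equiv (nondeg (an hz') h2) h2 (an hz')
      ((aniso_one_iff (φ ζ)).2 fun t h => by
        obtain ⟨t, rfl⟩ := φ.surjective t
        exact hζ t (φ.injective (by rw [map_add, map_add, map_pow, h, map_zero])))
    refine sim_of hz hz' φ (a.symm.toAddEquiv.trans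
      ((AddEquiv.piCongrRight fun _ => φ.toAddEquiv).trans b.toAddEquiv)) one_ne_zero
      (fun t v => ?_) fun v => ?_
    · change b (fun i => φ (a.symm (t • v) i)) = φ t • b fun i => φ (a.symm v i)
      rw [map_smul a.symm, ← map_smul b]
      exact congrArg b (funext fun i => map_mul φ _ _)
    · obtain ⟨x, rfl⟩ := a.surjective v
      change qf hz' (b fun i => φ (a.symm (a x) i)) = _
      rw [a.symm_apply_apply, ha, hb]
      simp only [map_add, map_mul, map_pow, one_mul]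

end Cfsg.Lib.BLD.PQ
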