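import Cfsg.Agent.BLD.Defs
import Cfsg.Agent.Class.HermField

/-!
# Anisotropic pseudo-quadratic spaces of hermitian or symplectic type over finite fields
-/

set_option autoImplicit false
set_option linter.unusedSectionVars false
set_option linter.unusedVariables false

namespace Cfsg.Lib.BLD

namespace PQ

namespace Pq2

section Basic

variable {F S F' S' : Type*} [Field F] [Group S] [Field F'] [Group S'] (Q : PQ F S) (Q' : PQ F' S')

theorem f_one_left (s : S) : Q.f 1 s = 0 := by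
  have := Q.f_mul_left 1 1 s
  rw [mul_one] at this
  linear_combination -this

theorem f_one_right (s : S) : Q.f s 1 = 0 := by
  have := Q.f_mul_right s 1 1
  rw [mul_one] at this
  linear_combination -this

theorem c_one : Q.c 1 = 0 := by
  have := Q.c_mul 1 1
  rw [mul_one, f_one_left] at this
  linear_combination -this

theorem f_inv_left (s s' : S) : Q.f s⁻¹ s' = -Q.f s s' := by
  have := Q.f_mul_left s⁻¹ s s'
  rw [inv_mul_cancel, f_one_left] at this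
  linear_combination -this

theorem f_inv_right (s s' : S) : Q.f s s'⁻¹ = -Q.f s s' := by
  have := Q.f_mul_right s s'⁻¹ s'
  rw [inv_mul_cancel, f_one_right] at this
  linear_combination -this

theorem c_inv (s : S) : Q.c s⁻¹ = Q.f s s - Q.c s := by
  have := Q.c_mul s⁻¹ s
  rw [inv_mul_cancel, c_one, f_inv_left] at this
  linear_combination -this

theorem f_sm_left (t : F) (s s' : S) : Q.f (Q.sm t s) s' = Q.σ t * Q.f s s' := by
  rw [Q.f_symm, Q.f_sm, Q.τ_mul, ← Q.f_symm]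

theorem f_z_left (u : F) (s : S) : Q.f (Q.z u) s = 0 := by
  rw [Q.f_symm, Q.f_z, map_zero]

theorem τ_eq (t : F) : Q.τ t = Q.σ t * Q.τ 1 := by rw [← Q.τ_mul, mul_one]

theorem τ_f_self (s : S) : Q.τ (Q.f s s) = Q.f s s := (Q.f_symm s s).symm

theorem c_mul_z (s : S) (v : F) : Q.c (s * Q.z v) = Q.c s + (v - Q.τ v) := by
  rw [Q.c_mul, Q.f_z, Q.c_z, add_zero]

theorem sm_one' (t : F) : Q.sm t 1 = 1 := by
  have := Q.sm_hom t 1 1
  rw [mul_one] at this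
  simpa using this

theorem eq_of_c {s r : S} (h1 : Q.c s = Q.c r) (h2 : Q.f s s = Q.f s r) : s = r := by
  refine inv_mul_eq_one.1 (Q.c_eq_zero _ ?_)
  rw [Q.c_mul, c_inv, f_inv_left]
  linear_combination h2 - h1

/-- `s₀` generates the space modulo the elements `z v`. -/
def Gen (s₀ : S) : Prop := ∀ s, ∃ t v, s = Q.sm t s₀ * Q.z v

theorem Gen_eq_1' : type_of% @Gen.eq_1 := @Gen.eq_1

variable {Q} in
theorem Gen.ext {s₀ s r : S} (h : Gen Q s₀) (h1 : Q.c s = Q.c r) (h2 : Q.f s₀ s = Q.f s₀ r) : s = r := by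
  refine eq_of_c Q h1 ?_
  obtain ⟨t, v, e⟩ := h s
  have : ∀ x, Q.f s x = Q.σ t * Q.f s₀ x := fun x => by
    rw [e, Q.f_mul_left, f_sm_left, f_z_left, add_zero]
  rw [this, this, h2]

variable {Q}

theorem exists_η (hz : ¬ ∀ u, Q.z u = 1) : ∃ u, u - Q.τ u ≠ 0 := by
  push Not at hz
  obtain ⟨u, hu⟩ := hz
  exact ⟨u, fun e => hu (Q.c_eq_zero _ (by rw [Q.c_z, e]))⟩

theorem τ_of_id (hz : ¬ ∀ u, Q.z u = 1) (hσ : ∀ t, Q.σ t = t) : (∀ u, Q.τ u = -u) ∧ (2 : F) ≠ 0 := by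
  obtain ⟨u, hu⟩ := exists_η hz
  have h1 := Q.τ_τ 1
  rw [τ_eq, hσ] at h1
  have h2 : Q.τ 1 ≠ 1 := fun e => hu (by rw [τ_eq, hσ, e, mul_one, sub_self])
  have h3 : Q.τ 1 = -1 := (mul_self_eq_one_iff.1 h1).resolve_left h2
  refine ⟨fun u => by rw [τ_eq, hσ, h3, mul_neg_one], fun e => h2 ?_⟩
  linear_combination h3 - e

theorem exists_half (hz : ¬ ∀ u, Q.z u = 1) : ∃ t, t + Q.σ t = 1 := by
  have : ∃ a, a + Q.σ a ≠ 0 := by
    by_contra h
    push Not at h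
    have h1 := h 1
    rw [map_one] at h1
    exact (τ_of_id hz fun t => by linear_combination h t - t * h1).2 (by linear_combination h1)
  obtain ⟨a, ha⟩ := this
  refine ⟨a / (a + Q.σ a), ?_⟩
  rw [map_div₀, map_add, Q.σ_σ, add_comm (Q.σ a) a, ← add_div, div_self ha]

theorem exists_sub (hz : ¬ ∀ u, Q.z u = 1) {w : F} (hw : w + Q.τ w = 0) : ∃ v, w = v - Q.τ v := by
  obtain ⟨t, ht⟩ := exists_half hz
  refine ⟨t * w, ?_⟩
  rw [Q.τ_mul]
  linear_combination -w * ht + Q.σ t * hw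

theorem exists_z (hz : ¬ ∀ u, Q.z u = 1) {s : S} (h : Q.f s s = 0) : ∃ v, s = Q.z v := by
  obtain ⟨v, hv⟩ := exists_sub hz ((Q.f_self s).symm.trans h)
  exact ⟨v, eq_of_c Q (by rw [Q.c_z, hv]) (by rw [h, Q.f_z])⟩

theorem gen_one (hz : ¬ ∀ u, Q.z u = 1) (h : ∀ s, Q.f s s = 0) : Gen Q 1 := fun s => by
  obtain ⟨v, hv⟩ := exists_z hz (h s)
  exact ⟨0, v, by rw [sm_one', one_mul, hv]⟩

theorem f_self_of_id (hz : ¬ ∀ u, Q.z u = 1) (hσ : ∀ t, Q.σ t = t) (s : S) : Q.f s s = 0 := by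
  rw [Q.f_self, (τ_of_id hz hσ).1, add_neg_cancel]

theorem fixed_div {a b : F} (ha : Q.τ a = a) (hb : Q.τ b = b) (h0 : b ≠ 0) : Q.σ (a / b) = a / b := by
  have := Q.τ_mul (a / b) b
  rw [div_mul_cancel₀ _ h0, ha, hb] at this
  rw [eq_div_iff h0, ← this]

theorem ne_id (hσ : ¬ ∀ t, Q.σ t = t) : (Q.σ : F →+* F) ≠ RingHom.id F := fun e =>
  hσ fun t => DFunLike.congr_fun e t

theorem exists_norm [Finite F] (hσ : ¬ ∀ t, Q.σ t = t) {x : F} (hx : Q.σ x = x) :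
    ∃ a, Q.σ a * a = x :=
  Class.Form.exists_norm_eq (σ := (Q.σ : F →+* F)) (ne_id hσ) Q.σ_σ hx

theorem gen_of_ne [Finite F] (hz : ¬ ∀ u, Q.z u = 1) {s₀ : S} (h : Q.f s₀ s₀ ≠ 0) : Gen Q s₀ := fun s => by
  have hσ : ¬ ∀ t, Q.σ t = t := fun e => h (f_self_of_id hz e s₀)
  obtain ⟨r, hr⟩ : ∃ r, r = (Q.sm (Q.f s₀ s / Q.f s₀ s₀) s₀)⁻¹ * s := ⟨_, rfl⟩
  have h1 : Q.f s₀ r = 0 := by
    rw [hr, Q.f_mul_right, f_inv_right, Q.f_sm, div_mul_cancel₀ _ h, neg_add_cancel]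
  have h2 : Q.f r s₀ = 0 := by rw [Q.f_symm, h1, map_zero]
  obtain ⟨a, ha⟩ := exists_norm hσ (x := -(Q.f r r / Q.f s₀ s₀))
    (by rw [map_neg, fixed_div (τ_f_self Q r) (τ_f_self Q s₀) h])
  have h3 : Q.σ a * a * Q.f s₀ s₀ = -Q.f r r := by rw [ha, neg_mul, div_mul_cancel₀ _ h]
  obtain ⟨v, hv⟩ := exists_z hz (s := r * Q.sm a s₀) (by
    simp only [Q.f_mul_left, Q.f_mul_right, Q.f_sm, f_sm_left, h1, h2]
    linear_combination h3)
  have h4 := congrArg (Q.f s₀) hv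
  rw [Q.f_mul_right, h1, Q.f_sm, Q.f_z, zero_add, mul_eq_zero, or_iff_left h] at h4
  rw [h4, Q.sm_zero, mul_one] at hv
  exact ⟨_, v, by rw [← hv, hr, mul_inv_cancel_left]⟩

theorem exists_fixed (hz : ¬ ∀ u, Q.z u = 1) {u : F} (hu : u - Q.τ u ≠ 0) (v : F) :
    ∃ x, Q.σ x = x ∧ Q.z v = Q.z (x * u) := by
  have h1 : Q.σ ((v - Q.τ v) / (u - Q.τ u)) = (v - Q.τ v) / (u - Q.τ u) := by
    have := Q.τ_mul ((v - Q.τ v) / (u - Q.τ u)) (u - Q.τ u)
    rw [div_mul_cancel₀ _ hu, map_sub, map_sub, Q.τ_τ, Q.τ_τ] at this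
    rw [eq_div_iff hu]
    linear_combination this
  refine ⟨_, h1, eq_of_c Q ?_ (by rw [Q.f_z, Q.f_z])⟩
  rw [Q.c_z, Q.c_z, Q.τ_mul, h1, ← mul_sub, div_mul_cancel₀ _ hu]

theorem z_inj {u x y : F} (hu : u - Q.τ u ≠ 0) (hx : Q.σ x = x) (hy : Q.σ y = y)
    (h : Q.z (x * u) = Q.z (y * u)) : x = y := by
  have := congrArg Q.c h
  rw [Q.c_z, Q.c_z, Q.τ_mul, Q.τ_mul, hx, hy, ← mul_sub, ← mul_sub] at this
  exact mul_right_cancel₀ hu this

theorem card_A (hz : ¬ ∀ u, Q.z u = 1) (h : ∀ s, Q.f s s = 0) :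
    Nat.card S = Nat.card {x : F // Q.σ x = x} := by
  obtain ⟨u, hu⟩ := exists_η hz
  refine (Nat.card_congr (Equiv.ofBijective (fun x : {x : F // Q.σ x = x} => Q.z (x.1 * u))
    ⟨fun x y e => Subtype.ext (z_inj hu x.2 y.2 e), fun s => ?_⟩)).symm
  obtain ⟨v, rfl⟩ := exists_z hz (h s)
  obtain ⟨x, hx, e⟩ := exists_fixed hz hu v
  exact ⟨⟨x, hx⟩, e.symm⟩

theorem card_B [Finite F] (hz : ¬ ∀ u, Q.z u = 1) {s₀ : S} (h : Q.f s₀ s₀ ≠ 0) :
    Nat.card S = Nat.card F * Nat.card {x : F // Q.σ x = x} := by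
  obtain ⟨u, hu⟩ := exists_η hz
  rw [← Nat.card_prod]
  refine (Nat.card_congr (Equiv.ofBijective
    (fun x : F × {x : F // Q.σ x = x} => Q.sm x.1 s₀ * Q.z (x.2.1 * u))
    ⟨fun x y e => ?_, fun s => ?_⟩)).symm
  · have h1 := congrArg (Q.f s₀) e
    simp only [Q.f_mul_right, Q.f_sm, Q.f_z, add_zero] at h1
    have h2 := mul_right_cancel₀ h h1
    simp only [h2, mul_right_inj] at e
    exact Prod.ext h2 (Subtype.ext (z_inj hu x.2.2 y.2.2 e))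
  · obtain ⟨t, v, rfl⟩ := gen_of_ne hz h s
    obtain ⟨x, hx, e⟩ := exists_fixed hz hu v
    exact ⟨⟨t, x, hx⟩, by rw [e]⟩

theorem card_fix_id (hσ : ∀ t, Q.σ t = t) : Nat.card {x : F // Q.σ x = x} = Nat.card F :=
  Nat.card_congr (Equiv.subtypeUnivEquiv hσ)

theorem card_fix [Finite F] (hσ : ¬ ∀ t, Q.σ t = t) :
    Nat.card F = Nat.card {x : F // Q.σ x = x} ^ 2 ∧
      ∀ x, Q.σ x = x ^ Nat.card {x : F // Q.σ x = x} := by
  have := Fintype.ofFinite F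
  obtain ⟨q, h1, h2⟩ := Class.Form.exists_card_eq_sq (σ := (Q.σ : F →+* F)) (ne_id hσ) Q.σ_σ
  have h3 : ∀ x, Q.σ x = x ^ q := h2
  have h4 : Nat.card {x : F // Q.σ x = x} = q := by
    simp only [h3]
    exact Class.Form.card_pow_eq_self h1
  rw [h4, Nat.card_eq_fintype_card]
  exact ⟨h1, h3⟩

variable {Q'}

theorem sim_of [Finite S'] (hS : Nat.card S = Nat.card S') (φ : F ≃+* F') {l : F'} (hl : l ≠ 0)
    (hσ : ∀ t, Q'.σ (φ t) = φ (Q.σ t)) (hτ : ∀ u, Q'.τ (l * φ u) = l * φ (Q.τ u)) {s₀ : S} {s₀' : S'}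
    (h : Gen Q s₀) (h' : Gen Q' s₀') (hc : Q'.c s₀' = l * φ (Q.c s₀)) : Q.Sim Q' := by
  have hf : Q'.f s₀' s₀' = l * φ (Q.f s₀ s₀) := by
    rw [Q'.f_self, Q.f_self, hc, hτ, map_add, mul_add]
  choose t v e using h
  let ψ : S → S' := fun s => Q'.sm (φ (t s)) s₀' * Q'.z (l * φ (v s))
  have h1 : ∀ s, Q'.c (ψ s) = l * φ (Q.c s) := fun s => by
    conv_rhs => rw [e s]
    simp only [ψ, c_mul_z, Q'.c_sm, Q.c_sm, hc, hσ, hτ, map_add, map_mul, map_sub]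
    ring
  have h2 : ∀ s, Q'.f s₀' (ψ s) = l * φ (Q.f s₀ s) := fun s => by
    conv_rhs => rw [e s]
    simp only [ψ, Q'.f_mul_right, Q.f_mul_right, Q'.f_sm, Q.f_sm, Q'.f_z, Q.f_z, hf, add_zero, map_mul]
    ring
  have h3 : ∀ s r, Q'.f (ψ s) (ψ r) = l * φ (Q.f s r) := fun s r => by
    conv_rhs => rw [e s]
    conv_lhs => rw [show ψ s = Q'.sm (φ (t s)) s₀' * Q'.z (l * φ (v s)) from rfl]
    simp only [Q'.f_mul_left, Q.f_mul_left, f_sm_left, f_z_left, h2, hσ, add_zero, map_mul]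
    ring
  clear_value ψ
  have h4 : ∀ s r, ψ (s * r) = ψ s * ψ r := fun s r => h'.ext
    (by rw [Q'.c_mul, h1, h1, h1, h3, Q.c_mul, map_add, map_add]; ring)
    (by rw [Q'.f_mul_right, h2, h2, h2, Q.f_mul_right, map_add]; ring)
  have h5 : Function.Injective (MonoidHom.mk' ψ h4) := (injective_iff_map_eq_one _).2 fun s hs => by
    have := h1 s
    rw [show ψ s = 1 from hs, c_one, eq_comm, mul_eq_zero, or_iff_right hl, map_eq_zero] at this
    exact Q.c_eq_zero _ this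
  refine ⟨φ, MulEquiv.ofBijective (MonoidHom.mk' ψ h4) (h5.bijective_of_nat_card_le hS.ge), l, hl,
    fun a s => ?_, h1, h3, fun a u => ?_⟩
  · change ψ _ = Q'.sm _ (ψ s)
    refine h'.ext ?_ ?_
    · rw [h1, Q'.c_sm, Q.c_sm, h1, hσ, map_mul, map_mul]; ring
    · rw [h2, Q'.f_sm, Q.f_sm, h2, map_mul]; ring
  · change ψ _ = _
    refine h'.ext ?_ ?_
    · rw [h1, Q'.c_z, Q.c_z, hσ, mul_left_comm, ← map_mul, hτ, map_sub, mul_sub]
    · rw [h2, Q'.f_z, Q.f_z, map_zero, mul_zero]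

theorem exists_l (hz : ¬ ∀ u, Q.z u = 1) (hz' : ¬ ∀ u, Q'.z u = 1) (φ : F ≃+* F')
    (hσ : ∀ t, Q'.σ (φ t) = φ (Q.σ t)) : ∃ l, l ≠ 0 ∧ ∀ u, Q'.τ (l * φ u) = l * φ (Q.τ u) := by
  obtain ⟨a, ha⟩ := exists_η hz
  obtain ⟨b, hb⟩ := exists_η hz'
  obtain ⟨η, hη⟩ : ∃ η, η = a - Q.τ a := ⟨_, rfl⟩
  obtain ⟨η', hη'⟩ : ∃ η, η = b - Q'.τ b := ⟨_, rfl⟩
  have h1 : Q.τ η = -η := by rw [hη, map_sub, Q.τ_τ, neg_sub]
  have h2 : Q'.τ η' = -η' := by rw [hη', map_sub, Q'.τ_τ, neg_sub]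
  rw [← hη] at ha
  rw [← hη'] at hb
  have h3 : φ η ≠ 0 := (map_ne_zero φ).2 ha
  refine ⟨η' / φ η, div_ne_zero hb h3, fun u => ?_⟩
  obtain ⟨x, rfl⟩ : ∃ x, u = x * η := ⟨u / η, (div_mul_cancel₀ _ ha).symm⟩
  rw [show η' / φ η * φ (x * η) = φ x * η' by rw [map_mul]; field_simp, Q'.τ_mul, Q.τ_mul, h1, h2,
    hσ, map_mul, map_neg]
  field_simp

theorem not_id [Finite F] [Finite F'] (hz : ¬ ∀ u, Q.z u = 1) (hz' : ¬ ∀ u, Q'.z u = 1)
    (hF : Nat.card F = Nat.card F') (hS : Nat.card S = Nat.card S') (hσ : ∀ t, Q.σ t = t) :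
    ∀ t, Q'.σ t = t := by
  by_contra hσ'
  have h1 := card_A hz (f_self_of_id hz hσ)
  rw [card_fix_id hσ, hF, hS] at h1
  have h2 := (card_fix hσ').1
  have h3 : 1 < Nat.card F' := Finite.one_lt_card
  by_cases h : ∀ s, Q'.f s s = 0
  · rw [card_A hz' h] at h1
    rw [h1] at h2
    nlinarith
  · push Not at h
    obtain ⟨s, hs⟩ := h
    rw [card_B hz' hs] at h1
    have h4 : Nat.card {x : F' // Q'.σ x = x} = 1 := by
      rcases Nat.lt_trichotomy (Nat.card {x : F' // Q'.σ x = x}) 1 with h | h | h <;> nlinarith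
    rw [h4] at h2
    omega

theorem σ_compat [Finite F] [Finite F'] (hz : ¬ ∀ u, Q.z u = 1) (hz' : ¬ ∀ u, Q'.z u = 1)
    (hF : Nat.card F = Nat.card F') (hS : Nat.card S = Nat.card S') (φ : F ≃+* F') (t : F) :
    Q'.σ (φ t) = φ (Q.σ t) := by
  by_cases hσ : ∀ t, Q.σ t = t
  · rw [hσ, not_id hz hz' hF hS hσ]
  · have hσ' : ¬ ∀ t, Q'.σ t = t := fun e => hσ (not_id hz' hz hF.symm hS.symm e)
    obtain ⟨h1, h2⟩ := card_fix hσ
    obtain ⟨h3, h4⟩ := card_fix hσ'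
    rw [h2, h4, map_pow, Nat.pow_left_injective two_ne_zero (h1.symm.trans (hF.trans h3))]

end Basic

end Pq2

open Pq2

variable {F S F' S' : Type*} [Field F] [Group S] [Field F'] [Group S'] [Finite F] [Finite S]
  [Finite F'] [Finite S'] [Nontrivial S] [Nontrivial S'] (Q : PQ F S) (Q' : PQ F' S')

theorem num_herm (hz : ¬ ∀ u, Q.z u = 1) :
    (Nat.card S = Nat.card F ∧ Odd (Nat.card F) ∧ ∀ s s', Q.f s s' = 0) ∨
      ∃ q₀, Nat.card F = q₀ ^ 2 ∧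
        (Nat.card S = q₀ ∨ (Nat.card S = q₀ ^ 3 ∧ ∃ s s' : S, ¬ Commute s s')) := by
  by_cases hσ : ∀ t, Q.σ t = t
  · refine Or.inl ⟨(card_A hz (f_self_of_id hz hσ)).trans (card_fix_id hσ), ?_, fun s s' => ?_⟩
    · have := Fintype.ofFinite F
      rw [Nat.card_eq_fintype_card, Nat.odd_iff]
      refine FiniteField.odd_card_of_char_ne_two fun e => (τ_of_id hz hσ).2 ?_
      have := ringChar.Nat.cast_ringChar (R := F)
      rwa [e] at this
    · obtain ⟨v, rfl⟩ := exists_z hz (f_self_of_id hz hσ s')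
      exact Q.f_z s v
  · refine Or.inr ⟨_, (card_fix hσ).1, ?_⟩
    by_cases h : ∀ s, Q.f s s = 0
    · exact Or.inl (card_A hz h)
    · push Not at h hσ
      obtain ⟨s, hs⟩ := h
      obtain ⟨t, ht⟩ := hσ
      refine Or.inr ⟨?_, s, Q.sm t s, fun e => ht ?_⟩
      · rw [card_B hz hs]
        conv_lhs => rw [(card_fix fun e => ht (e t)).1]
        ring
      · have := congrArg Q.c e.eq
        rw [Q.c_mul, Q.c_mul, Q.f_sm, f_sm_left] at this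
        exact mul_right_cancel₀ hs (by linear_combination -this)

theorem sim_herm (hz : ¬ ∀ u, Q.z u = 1) (hz' : ¬ ∀ u, Q'.z u = 1) (hF : Nat.card F = Nat.card F')
    (hS : Nat.card S = Nat.card S') : Q.Sim Q' := by
  have := Fintype.ofFinite F
  have := Fintype.ofFinite F'
  let φ : F ≃+* F' := FiniteField.ringEquivOfCardEq (by simpa using hF)
  have hσ := σ_compat hz hz' hF hS φ
  obtain ⟨l, hl, hτ⟩ := exists_l hz hz' φ hσ
  have h0 : Nat.card {x : F // Q.σ x = x} = Nat.card {x : F' // Q'.σ x = x} :=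
    Nat.card_congr (φ.toEquiv.subtypeEquiv fun x => by
      change _ ↔ Q'.σ (φ x) = φ x
      rw [hσ, φ.injective.eq_iff])
  have h1 : 0 < Nat.card {x : F' // Q'.σ x = x} := Nat.card_pos_iff.2 ⟨⟨0, map_zero _⟩, inferInstance⟩
  have h2 : 1 < Nat.card F' := Finite.one_lt_card
  by_cases h : ∀ s, Q.f s s = 0 <;> by_cases h' : ∀ s, Q'.f s s = 0
  · exact sim_of hS φ hl hσ hτ (gen_one hz h) (gen_one hz' h') (by rw [c_one, c_one, map_zero, mul_zero])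
  · push Not at h'
    obtain ⟨s, hs⟩ := h'
    rw [card_A hz h, card_B hz' hs, h0] at hS
    nlinarith
  · push Not at h
    obtain ⟨s, hs⟩ := h
    rw [card_A hz' h', card_B hz hs, h0, hF] at hS
    nlinarith
  · push Not at h h'
    obtain ⟨s, hs⟩ := h
    obtain ⟨r, hr⟩ := h'
    have h3 : Q'.τ (l * φ (Q.f s s)) = l * φ (Q.f s s) := by rw [hτ, τ_f_self]
    obtain ⟨a, ha⟩ := exists_norm (fun e => hr (f_self_of_id hz' e r))
      (fixed_div h3 (τ_f_self Q' r) hr)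
    have h4 : Q'.f (Q'.sm a r) (Q'.sm a r) = l * φ (Q.f s s) := by
      rw [Q'.f_sm, f_sm_left, ← mul_assoc, mul_comm a, ha, div_mul_cancel₀ _ hr]
    obtain ⟨v, hv⟩ := exists_sub hz' (w := l * φ (Q.c s) - Q'.c (Q'.sm a r)) (by
      rw [Q'.f_self, Q.f_self, map_add] at h4
      rw [map_sub, hτ]
      linear_combination -h4)
    refine sim_of hS φ hl hσ hτ (gen_of_ne hz hs) (gen_of_ne (s₀ := Q'.sm a r * Q'.z v) hz' ?_) ?_
    · rw [Q'.f_mul_left, Q'.f_mul_right, f_z_left, Q'.f_z, h4, add_zero, add_zero]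
      exact mul_ne_zero hl ((map_ne_zero φ).2 hs)
    · rw [c_mul_z, ← hv, add_sub_cancel]

end PQ

end Cfsg.Lib.BLD
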