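import Cfsg.Agent.BLD.Rt2
import Cfsg.Agent.BLD.Grd1
import Cfsg.Agent.BLD.Grd2
import Cfsg.Agent.BLD.Grd3
import Cfsg.Agent.BLD.A2c

/-!
# The `B₃` configuration of root groups
-/

set_option autoImplicit false
set_option linter.unusedSectionVars false

namespace Cfsg.Lib.BLD

open Cfsg.Lib.Chev

variable {ι A : Type} [Fintype ι] [DecidableEq ι] [DecidableEq A] {R : WeylData ι A}

namespace T3b

theorem cone_symm (r s : A) : (cox R).cone r s = (cox R).cone s r := by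
  ext β
  rw [mem_cone, mem_cone]
  exact ⟨fun ⟨a, b, c, d⟩ => ⟨a, c, b, fun w => ⟨fun x y => (d w).1 y x, fun x y => (d w).2 y x⟩⟩,
    fun ⟨a, b, c, d⟩ => ⟨a, c, b, fun w => ⟨fun x y => (d w).1 y x, fun x y => (d w).2 y x⟩⟩⟩

theorem stW_swap {F G : Type*} [Field F] [Group G] {e : Fin 3 → Fin 3 → F → G} (h : StA e) {ν : F}
    (hν : ν ≠ 0) : stW e 1 0 ν = stW e 0 1 (-ν⁻¹) := by
  have ht : -ν⁻¹ ≠ 0 := neg_ne_zero.2 (inv_ne_zero hν)
  have e1 := h.stW_ab (a := 0) (b := 1) (c := 2) (by decide) (by decide) (by decide) ht (-ν⁻¹)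
  have e2 := h.stW_ba (a := 0) (b := 1) (c := 2) (by decide) (by decide) (by decide) ht (-(-ν⁻¹)⁻¹)
  rw [show -(-ν⁻¹)⁻¹ ^ 2 * -ν⁻¹ = ν by field_simp] at e1
  rw [show -(-ν⁻¹) ^ 2 * -(-ν⁻¹)⁻¹ = -ν⁻¹ by field_simp] at e2
  rw [stW, ← e2]
  nth_rw 1 [← e1]
  rw [← e1, conj_mul, conj_mul, ← stW, mul_inv_cancel_right]

theorem mem_sup {G : Type*} [Group G] {X Y : Subgroup G} (h : ∀ a ∈ X, ∀ y ∈ Y, Commute a y) {g : G}
    (hg : g ∈ X ⊔ Y) : ∃ a ∈ X, ∃ y ∈ Y, g = a * y := by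
  have e : X ≤ Subgroup.centralizer Y := fun a ha b hb => (h a ha b hb).eq.symm
  obtain ⟨a, ha, y, hy, rfl⟩ := (Subgroup.coe_mul_of_left_le_normalizer_right _ _
    (e.trans (Subgroup.centralizer_le_normalizer _))).le hg
  exact ⟨a, ha, y, hy, rfl⟩

end T3b

namespace Bld

variable {Γ Ch : Type*} [Group Γ] [MulAction Γ Ch] {B : Bld R Γ Ch}
  [Finite Γ] [Finite Ch] {i j k : ι}

theorem RG.exists_T3 (hB : B.RG) (h : B3 R i j k) :
    ∃ (F : Type) (_ : Field F) (_ : Finite F) (T : T3 F Γ), Nat.card F = B.q j ∧ B.IsT3 i j k T := by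
  have h2 : R.C j k * R.C k j = 2 := by rw [h.jk, h.kj]; rfl
  have h2' : R.C k j * R.C j k = 2 := by rw [h.jk, h.kj]; rfl
  obtain ⟨F, _, _, e, hF, he⟩ := hB.exists_a2c (i := i) (j := j) (by rw [h.ij, h.ji]; rfl)
  obtain ⟨m, hm, lm⟩ := hB.exists_n k
  have ln := he.lift_j 1 one_ne_zero
  have m12 : ∀ t, e 1 2 t ∈ B.U (R.simple j) := he.mem 1 2 (by decide)
  have m01 : ∀ t, e 0 1 t ∈ B.U (R.simple i) := he.mem 0 1 (by decide)
  have m10 : ∀ t, e 1 0 t ∈ B.U (R.neg (R.simple i)) := he.mem 1 0 (by decide)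
  obtain ⟨nd, pβ, pγ⟩ := ne_B2 h2
  simp only [List.nodup_cons, List.mem_cons, List.not_mem_nil, or_false, not_or] at nd
  obtain ⟨⟨n1, n2, n3⟩, ⟨n4, n5⟩, n6, -⟩ := nd
  have pα := R.pos_simple j
  have pδ := R.pos_simple k
  obtain ⟨c1, c2, c3, c4, c5, c6⟩ := cone_B2 h2
  have ci : ∀ {a}, a ∈ B.U (R.simple k) ⊔ B.U (R.neg (R.simple k)) →
      ∀ t, Commute a (e 0 1 t) ∧ Commute a (e 1 0 t) := fun ha t =>
    ⟨hB.commute_C0 h.ki ha (Subgroup.mem_sup_left (m01 t)),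
      hB.commute_C0 h.ki ha (Subgroup.mem_sup_right (m10 t))⟩
  have cxA : ∀ x ∈ B.U (R.simple j), ∀ a ∈ B.U (R.s j • R.simple k), Commute x a := fun x hx a ha =>
    hB.commute_of_cone pα.mem pβ.mem n1 (Rt2.ne_neg pα pβ) c4 hx ha
  have cAY : ∀ a ∈ B.U (R.s j • R.simple k), ∀ y ∈ B.U (R.s k • R.simple j), Commute a y := fun a ha y hy =>
    hB.commute_of_cone pβ.mem pγ.mem n4 (Rt2.ne_neg pβ pγ) c5 ha hy
  have uq : ∀ x ∈ B.U (R.simple j), ∀ a ∈ B.U (R.s j • R.simple k), ∀ y ∈ B.U (R.s k • R.simple j),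
      ∀ s ∈ B.U (R.simple k), x * a * y * s = 1 → x = 1 ∧ a = 1 ∧ y = 1 ∧ s = 1 := by
    intro x hx a ha y hy s hs e
    have f1 : Hf R (R.simple j) (R.s k) := by rwa [Hf, R.s_inv]
    have f2 : Hf R (R.s j • R.simple k) (R.s k) := by rwa [Hf, R.s_inv, s_s_B2 h2']
    have f3 : Hf R (R.s k • R.simple j) (R.s k) := by rwa [Hf, inv_smul_smul]
    have f4 : Hf R (R.s j • R.simple k) (R.s j) := by rwa [Hf, inv_smul_smul]
    have f5 : Hf R (R.s k • R.simple j) (R.s j) := by rwa [Hf, R.s_inv, s_s_B2 h2]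
    have f6 : Hf R (R.s k • R.simple j) (R.s j * R.s k) := by
      rwa [Hf, mul_inv_rev, mul_smul, R.s_inv j, s_s_B2 h2, inv_smul_smul]
    obtain rfl : s = 1 := hB.semireg hs (hf_one.2 pδ) Grd1.hf_s (δ_a_one _) (by
      rw [eq_inv_of_mul_eq_one_right e, inv_smul_eq_iff, mul_smul, mul_smul, hy.1 _ f3, ha.1 _ f2, hx.1 _ f1])
    rw [mul_one, mul_assoc] at e
    obtain rfl : x = 1 := hB.semireg hx (hf_one.2 pα) Grd1.hf_s (δ_a_one _) (by
      rw [eq_inv_of_mul_eq_one_left e, inv_smul_eq_iff, mul_smul, hy.1 _ f5, ha.1 _ f4])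
    rw [one_mul] at e
    obtain rfl : a = 1 := hB.semireg ha f4 (hf_smul_simple _ _).2 (Grd1.δ_adj _ _) (by
      rw [eq_inv_of_mul_eq_one_left e, inv_smul_eq_iff, hy.1 _ f6])
    exact ⟨rfl, rfl, by rwa [one_mul] at e, rfl⟩
  refine ⟨F, _, ‹_›, ⟨e, B.U (R.simple k), B.U (R.s j • R.simple k), B.U (R.s k • R.simple j), m, he.st,
    fun c => ?_, fun s => ln.conj_U.symm, fun a => ?_, fun y => ?_, fun y => ⟨fun hy => ?_, ?_⟩,
    fun ν hν a ha => ?_, fun s hs => ci (Subgroup.mem_sup_left hs), ci hm, fun t => cxA _ (m12 t), cAY,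
    fun y hy s hs => hB.commute_of_cone pγ.mem pδ.mem n6 (Rt2.ne_neg pγ pδ) c6 hy hs, fun t s hs => ?_,
    fun t y hy => ⟨_, ?_, (inv_mul_cancel_right _ y).symm⟩,
    fun s hs a ha => ⟨_, ?_, (mul_inv_cancel_left a _).symm⟩, fun t a ha y hy s hs c => ?_, fun s hs ha => ?_⟩,
    hF, he, rfl, rfl, rfl⟩
  · obtain ⟨a, ha, h1⟩ := hB.nontriv pδ.mem
    exact h1 (Subgroup.mem_bot.1 (c ▸ ha))
  · rw [← ln.conj_U, Rt2.s_s_smul]
  · rw [← ln.conj_U, s_s_B2 h2]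
  · obtain ⟨u, hu⟩ := he.surj 1 2 (by decide) (m⁻¹ * y * m)
      ((lm.conj_U (r := R.simple j)).1 (by simpa [mul_assoc] using hy))
    exact ⟨u, by rw [hu]; group⟩
  · rintro ⟨u, rfl⟩
    exact lm.conj_U.2 (m12 u)
  · rw [T3b.stW_swap he.st hν, T3b.stW_swap he.st one_ne_zero]
    have := ((he.lift_i _ (neg_ne_zero.2 (inv_ne_zero hν))).mul
      (he.lift_i _ (neg_ne_zero.2 (inv_ne_zero one_ne_zero))).inv).conj_U.2 ha
    rwa [mul_inv_cancel, one_smul] at this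
  · have := spanX_mono _ c1 (hB.comm pα.mem pδ.mem n3 (Rt2.ne_neg pα pδ) (inv_mem (m12 t)) (inv_mem hs))
    rw [spanX_insert, spanX_singleton, inv_inv, inv_inv] at this
    obtain ⟨a, ha, y, hy, c⟩ := T3b.mem_sup cAY this
    exact ⟨a, ha, y, hy, eq_mul_of_mul_inv_eq c⟩
  · have := spanX_mono _ c2 (hB.comm pα.mem pγ.mem n2 (Rt2.ne_neg pα pγ) (inv_mem (m12 t)) (inv_mem hy))
    rwa [spanX_singleton, inv_inv, inv_inv] at this
  · have := spanX_mono _ c3 (hB.comm pβ.mem pδ.mem n5 (Rt2.ne_neg pβ pδ) ha (inv_mem hs))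
    rwa [spanX_singleton, inv_inv, mul_assoc, mul_assoc, ← mul_assoc s] at this
  · have := uq _ (m12 t) a ha y hy s hs c
    exact ⟨he.inj 1 2 (by decide) t this.1, this.2⟩
  · by_contra c
    obtain ⟨v, hv, v', hv', lv⟩ := hB.rank_one' hs c
    have mδ := R.neg_mem _ pδ.mem
    have d1 : (cox R).cone (R.neg (R.simple k)) (R.simple j) = ∅ := Set.eq_empty_iff_forall_notMem.2 fun b hb => by
      have := (cone_smul (R.s k)).2 hb
      rw [R.s_smul_neg_simple, T3b.cone_symm, c6] at this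
      exact this
    have d2 : (cox R).cone (R.neg (R.simple k)) (R.s j • R.simple k) ⊆ {R.simple j} := fun b hb => by
      have := (cone_smul (R.s k)).2 hb
      rw [R.s_smul_neg_simple, s_s_B2 h2', T3b.cone_symm] at this
      exact MulAction.injective (R.s k) (c3 this)
    have k1 : ∀ v ∈ B.U (R.neg (R.simple k)), Commute v (e 1 2 1) := fun v hv =>
      hB.commute_of_cone mδ pα.mem (Rt2.ne_neg pδ pα).symm (by rwa [R.neg_neg pδ.mem]) d1 hv (m12 1)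
    have k2 := spanX_mono _ d2 (hB.comm mδ pβ.mem (Rt2.ne_neg pδ pβ).symm (by rwa [R.neg_neg pδ.mem])
      (inv_mem hv) ha)
    rw [spanX_singleton, inv_inv] at k2
    have k3 := (uq _ (mul_mem k2 (m12 1)) _ (inv_mem ha) _ (inv_mem (lv.conj_U.2 (m12 1))) 1 (one_mem _) (by
      rw [mul_assoc _ (e 1 2 1), (cxA _ (m12 1) _ ha).inv_right.eq,
        show v * s * v' * e 1 2 1 * (v * s * v')⁻¹ = v * s * (v' * e 1 2 1 * v'⁻¹) * s⁻¹ * v⁻¹ by group,
        (k1 v' hv').eq, mul_inv_cancel_right]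
      have := (k1 v hv).inv_left.eq
      generalize e 1 2 1 = x at this
      calc _ = v * s * x * s⁻¹ * (x⁻¹ * (v⁻¹ * x)) * (v * s * x * s⁻¹ * v⁻¹)⁻¹ := by group
        _ = 1 := by rw [this]; group)).2.2.1
    exact one_ne_zero (he.inj 1 2 (by decide) 1 (conj_eq_one_iff.1 (inv_eq_one.1 k3)))

end Bld

end Cfsg.Lib.BLD
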