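import Cfsg.Agent.BLD.Defs

/-! # Similar pseudo-quadratic spaces give a graph subgroup -/

set_option autoImplicit false

namespace Cfsg.Lib.BLD

open Cfsg.Lib.Chev Subgroup

namespace T3g

variable {H : Type*} [Group H]

theorem le_nm {X K L M : Subgroup H} (e : K ⊔ L = M) (h : ∀ x ∈ X, ∀ k ∈ K, x * k * x⁻¹ ∈ M)
    (h' : ∀ x ∈ X, ∀ k ∈ L, x * k * x⁻¹ ∈ M) : X ≤ normalizer (M : Set H) := by
  have k : ∀ x ∈ X, ∀ k ∈ M, x * k * x⁻¹ ∈ M := fun x hx =>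
    e.ge.trans (sup_le (c := M.comap (MulAut.conj x).toMonoidHom) (h x hx) (h' x hx))
  exact fun x hx => mem_normalizer_iff.2 fun m =>
    ⟨k x hx m, fun hk => by simpa [mul_assoc] using k x⁻¹ (inv_mem hx) _ hk⟩

theorem dec {X A Y S : Subgroup H} (c1 : ∀ a ∈ A, ∀ y ∈ Y, Commute a y)
    (c2 : ∀ y ∈ Y, ∀ s ∈ S, Commute y s) (c3 : ∀ x ∈ X, ∀ a ∈ A, Commute x a)
    (r1 : ∀ x ∈ X, ∀ s ∈ S, x * s * x⁻¹ ∈ A ⊔ Y ⊔ S) (r2 : ∀ x ∈ X, ∀ y ∈ Y, x * y * x⁻¹ ∈ A ⊔ Y)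
    (r3 : ∀ s ∈ S, ∀ a ∈ A, s * a * s⁻¹ ∈ A ⊔ Y) {d : H} (hd : d ∈ X ⊔ (A ⊔ Y ⊔ S)) :
    ∃ x ∈ X, ∃ a ∈ A, ∃ y ∈ Y, ∃ s ∈ S, d = x * a * y * s := by
  have k1 : ∀ y ∈ Y, ∀ a ∈ A, y * a * y⁻¹ ∈ A := fun y hy a ha => by
    rwa [← (c1 a ha y hy).eq, mul_inv_cancel_right]
  have n1 := le_nm (sup_idem A) k1 k1
  have n2 : S ≤ _ := le_nm rfl r3 fun s hs y hy => by
    rw [← (c2 y hy s hs).eq, mul_inv_cancel_right]; exact mem_sup_right hy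
  have n3 : X ≤ _ := le_nm rfl (fun x hx k hk => mem_sup_left ((mem_normalizer_iff.1 (le_nm rfl
    (fun x hx a ha => by rw [(c3 x hx a ha).eq, mul_inv_cancel_right]; exact mem_sup_left ha) r2 hx)
      k).1 hk)) r1
  rw [← SetLike.mem_coe, coe_mul_of_left_le_normalizer_right _ _ n3,
    coe_mul_of_right_le_normalizer_left _ _ n2, coe_mul_of_right_le_normalizer_left _ _ n1] at hd
  obtain ⟨x, hx, _, ⟨_, ⟨a, ha, y, hy, rfl⟩, s, hs, rfl⟩, rfl⟩ := hd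
  exact ⟨x, hx, a, ha, y, hy, s, hs, by simp only [mul_assoc]⟩

variable {F G : Type*} [Field F] [Group G] (T : T3 F G)

theorem x_add (t u : F) : T.e 1 2 (t + u) = T.e 1 2 t * T.e 1 2 u := (T.st.add 1 2 (by decide) t u).symm

theorem x_zero : T.e 1 2 0 = 1 := by simpa using x_add T 0 0

theorem y_add (t u : F) : T.y (t + u) = T.y t * T.y u := by rw [T3.y, x_add, ← conj_mul]; rfl

theorem y_zero : T.y 0 = 1 := by simp [T3.y, x_zero]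

theorem α_mul (s s' : G) : T.α (s * s') = T.α s * T.α s' := conj_mul.symm

theorem α_mem (s : T.S) : T.α s ∈ T.Ar := (T.n_S s).1 s.2

theorem y_mem (u : F) : T.y u ∈ T.Y := (T.mem_Y _).2 ⟨u, rfl⟩

theorem α_surj {a : G} (ha : a ∈ T.Ar) : ∃ s : T.S, T.α s = a := by
  have e : T.α ((stW T.e 1 2 1)⁻¹ * a * stW T.e 1 2 1) = a := by rw [T3.α]; group
  exact ⟨⟨_, (T.n_S _).2 (e.symm ▸ ha : T.α _ ∈ _)⟩, e⟩

theorem y_eq_one {u : F} (h : T.y u = 1) : u = 0 :=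
  (T.uniq u 1 (one_mem _) 1 (one_mem _) 1 (one_mem _) (by simpa using conj_eq_one_iff.1 h)).1

theorem uniq {t u : F} {p q : T.S} (h : T.e 1 2 t * T.α p * T.y u * q = 1) :
    t = 0 ∧ p = 1 ∧ u = 0 ∧ q = 1 := by
  obtain ⟨h1, h2, h3, h4⟩ := T.uniq t _ (α_mem T p) _ (y_mem T u) _ q.2 h
  exact ⟨h1, Subtype.ext (conj_eq_one_iff.1 h2), y_eq_one T h3, Subtype.ext h4⟩

end T3g

open T3g

theorem T3.exists_graph {F G F' G' : Type*} [Field F] [Group G] [Field F'] [Group G'] (T : T3 F G)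
    (T' : T3 F' G') {Q : PQ F T.S} {Q' : PQ F' T'.S} (h : T.Coord Q) (h' : T'.Coord Q')
    (hs : Q.Sim Q') : ∃ D : Subgroup (G × G'), (∀ d ∈ D, d.1 = 1 ↔ d.2 = 1) ∧
      (∀ t, ∃ t', (T.e 1 2 t, T'.e 1 2 t') ∈ D) ∧ (∀ t', ∃ t, (T.e 1 2 t, T'.e 1 2 t') ∈ D) ∧
      (∀ a ∈ T.Ar, ∃ a' ∈ T'.Ar, (a, a') ∈ D) ∧ (∀ a' ∈ T'.Ar, ∃ a ∈ T.Ar, (a, a') ∈ D) ∧
      (∀ a ∈ T.Y, ∃ a' ∈ T'.Y, (a, a') ∈ D) ∧ (∀ a' ∈ T'.Y, ∃ a ∈ T.Y, (a, a') ∈ D) ∧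
      (∀ a ∈ T.S, ∃ a' ∈ T'.S, (a, a') ∈ D) ∧ (∀ a' ∈ T'.S, ∃ a ∈ T.S, (a, a') ∈ D) := by
  obtain ⟨φ, ψ, l, l0, e1, e2, e3, e4⟩ := hs
  let x : Multiplicative F →* G × G' := MonoidHom.mk'
    (fun t => (T.e 1 2 t.toAdd, T'.e 1 2 (φ t.toAdd))) fun t u => by simp [x_add]
  let y : Multiplicative F →* G × G' := MonoidHom.mk'
    (fun t => (T.y t.toAdd, T'.y (l * φ t.toAdd))) fun t u => by simp [y_add, mul_add]
  let a : T.S →* G × G' := MonoidHom.mk' (fun p => (T.α p, T'.α (ψ p))) fun p q => by simp [α_mul]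
  let s : T.S →* G × G' := MonoidHom.mk' (fun p => (p, ψ p)) fun p q => by simp
  have mx : ∀ t, (T.e 1 2 t, T'.e 1 2 (φ t)) ∈ x.range := fun t => ⟨.ofAdd t, rfl⟩
  have my : ∀ t, (T.y t, T'.y (l * φ t)) ∈ y.range := fun t => ⟨.ofAdd t, rfl⟩
  have ma : ∀ p : T.S, (T.α p, T'.α (ψ p)) ∈ a.range := fun p => ⟨p, rfl⟩
  have ms : ∀ p : T.S, ((p : G), (ψ p : G')) ∈ s.range := fun p => ⟨p, rfl⟩
  have da := fun p => mem_sup_right (S := x.range) (mem_sup_left (T := s.range)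
    (mem_sup_left (T := y.range) (ma p)))
  have dy := fun u => mem_sup_right (S := x.range) (mem_sup_left (T := s.range)
    (mem_sup_right (S := a.range) (my u)))
  have ds := fun p => mem_sup_right (S := x.range) (mem_sup_right (S := a.range ⊔ y.range) (ms p))
  refine ⟨x.range ⊔ (a.range ⊔ y.range ⊔ s.range), fun d hd => ?_,
    fun t => ⟨_, mem_sup_left (mx t)⟩, fun t => ?_, fun b hb => ?_, fun b hb => ?_, fun b hb => ?_,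
    fun b hb => ?_, fun b hb => ⟨_, (ψ ⟨b, hb⟩).2, ds ⟨b, hb⟩⟩, fun b hb => ?_⟩
  · refine (dec ?_ ?_ ?_ ?_ ?_ ?_ hd).elim ?_
    rotate_right
    · rintro _ ⟨⟨t, rfl⟩, _, ⟨p, rfl⟩, _, ⟨u, rfl⟩, _, ⟨q, rfl⟩, rfl⟩
      have k : t.toAdd = 0 → p = 1 → u.toAdd = 0 → q = 1 → x t * a p * y u * s q = 1 :=
        fun h1 h2 h3 h4 => by simp [toAdd_eq_zero.1 h1, h2, toAdd_eq_zero.1 h3, h4]
      refine ⟨fun e => ?_, fun e => ?_⟩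
      · obtain ⟨h1, h2, h3, h4⟩ := T3g.uniq T e
        rw [k h1 h2 h3 h4]; rfl
      · obtain ⟨h1, h2, h3, h4⟩ := T3g.uniq T' e
        rw [k (by simpa using h1) (by simpa using h2) (by simpa [l0] using h3) (by simpa using h4)]
        rfl
    · rintro _ ⟨p, rfl⟩ _ ⟨u, rfl⟩
      exact Prod.ext (T.c_AY _ (α_mem T p) _ (y_mem T _)) (T'.c_AY _ (α_mem T' _) _ (y_mem T' _))
    · rintro _ ⟨u, rfl⟩ _ ⟨p, rfl⟩
      exact Prod.ext (T.c_YS _ (y_mem T _) _ p.2) (T'.c_YS _ (y_mem T' _) _ (ψ p).2)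
    · rintro _ ⟨t, rfl⟩ _ ⟨p, rfl⟩
      exact Prod.ext (T.c_xA _ _ (α_mem T p)) (T'.c_xA _ _ (α_mem T' _))
    · rintro _ ⟨t, rfl⟩ _ ⟨p, rfl⟩
      convert mul_mem_sup (mul_mem_sup (ma (Q.sm t.toAdd p)) (my (t.toAdd * Q.c p))) (ms p) using 1
      exact Prod.ext (h.xS _ p) ((h'.xS _ (ψ p)).trans (by
        rw [e1, e2, map_mul, mul_left_comm]; rfl))
    · rintro _ ⟨t, rfl⟩ _ ⟨u, rfl⟩
      convert mul_mem_sup (ma (Q.z (Q.σ t.toAdd * u.toAdd))) (my u.toAdd) using 1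
      exact Prod.ext (h.xY _ _) ((h'.xY _ _).trans (by rw [e4]; rfl))
    · rintro _ ⟨p, rfl⟩ _ ⟨q, rfl⟩
      convert mul_mem_sup (ma q) (my (Q.f p q)) using 1
      exact Prod.ext (h.SA p q) ((h'.SA (ψ p) (ψ q)).trans (by rw [e3]; rfl))
  · obtain ⟨t, rfl⟩ := φ.surjective t
    exact ⟨t, mem_sup_left (mx t)⟩
  · obtain ⟨p, rfl⟩ := α_surj T hb
    exact ⟨_, α_mem T' _, da p⟩
  · obtain ⟨p, rfl⟩ := α_surj T' hb
    obtain ⟨p, rfl⟩ := ψ.surjective p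
    exact ⟨_, α_mem T p, da p⟩
  · obtain ⟨u, rfl⟩ := (T.mem_Y b).1 hb
    exact ⟨_, y_mem T' _, dy u⟩
  · obtain ⟨u, rfl⟩ := (T'.mem_Y b).1 hb
    refine ⟨_, y_mem T (φ.symm (l⁻¹ * u)), ?_⟩
    simpa [l0, T3.y] using dy (φ.symm (l⁻¹ * u))
  · exact ⟨_, (ψ.symm ⟨b, hb⟩).2, by simpa using ds (ψ.symm ⟨b, hb⟩)⟩

theorem T3.Coord.z_iff {F G : Type*} [Field F] [Group G] {T : T3 F G} {Q : PQ F T.S} (h : T.Coord Q) :
    (∀ u, Q.z u = 1) ↔ ∀ t, ∀ y ∈ T.Y, Commute (T.e 1 2 t) y := by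
  refine ⟨fun k t y hy => ?_, fun k u => ?_⟩
  · obtain ⟨u, rfl⟩ := (T.mem_Y y).1 hy
    have := h.xY t u
    rw [k, mul_inv_eq_iff_eq_mul] at this
    simpa [T3.α, T3.y, Commute, SemiconjBy] using this
  · have := h.xY 1 u
    rw [(k 1 _ (y_mem T u)).eq, mul_inv_cancel_right, map_one, one_mul, right_eq_mul] at this
    exact Subtype.ext (conj_eq_one_iff.1 this)

theorem T3.Coord.f_iff {F G : Type*} [Field F] [Group G] {T : T3 F G} {Q : PQ F T.S} (h : T.Coord Q) :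
    (∀ s s', Q.f s s' = 0) ↔ ∀ s ∈ T.S, ∀ a ∈ T.Ar, Commute s a := by
  refine ⟨fun k s hs a ha => ?_, fun k s s' => ?_⟩
  · obtain ⟨p, rfl⟩ := α_surj T ha
    have := h.SA ⟨s, hs⟩ p
    rwa [k, y_zero, mul_one, mul_inv_eq_iff_eq_mul] at this
  · have := h.SA s s'
    rw [(k _ s.2 _ (α_mem T s')).eq, mul_inv_cancel_right, left_eq_mul] at this
    exact y_eq_one T this

end Cfsg.Lib.BLD
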