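import Cfsg.Agent.BLD.T3a
import Cfsg.Agent.BLD.T3b
import Cfsg.Agent.BLD.T3g
import Cfsg.Agent.BLD.Pq1
import Cfsg.Agent.BLD.Pq2
import Cfsg.Agent.BLD.Ri
import Cfsg.Agent.BLD.Grd1
import Cfsg.Agent.BLD.Rt2

/-!
# Numerical invariants and isomorphism of residues of type `B₂`
-/

set_option autoImplicit false
set_option linter.unusedSectionVars false

namespace Cfsg.Lib.BLD

open Cfsg.Lib.Chev

variable {ι A : Type} [Fintype ι] [DecidableEq ι] [DecidableEq A] {R : WeylData ι A}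

namespace Bld

variable {Γ Ch : Type*} [Group Γ] [MulAction Γ Ch] {B : Bld R Γ Ch}
  {Γ' Ch' : Type*} [Group Γ'] [MulAction Γ' Ch'] {B' : Bld R Γ' Ch'}
  [Finite Γ] [Finite Ch] [Finite Γ'] [Finite Ch'] {i j k : ι}

namespace Numh

variable {F : Type} [Field F] {T : T3 F Γ} {Q : PQ F T.S}

theorem mem (h : B.IsT3 i j k T) (t : F) : T.e 1 2 t ∈ B.U (R.simple j) :=
  h.a2c.mem 1 2 (by decide) t

theorem surj (h : B.IsT3 i j k T) {g : Γ} (hg : g ∈ B.U (R.simple j)) : ∃ t, T.e 1 2 t = g :=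
  h.a2c.surj 1 2 (by decide) g hg

theorem card (hB : B.RG) (h : B.IsT3 i j k T) : Nat.card T.S = B.q k := by
  rw [h.S_eq, hB.card_U]

theorem z_iff (h : B.IsT3 i j k T) (hQ : T.Coord Q) : B.flag j k ↔ ∀ u, Q.z u = 1 := by
  rw [hQ.z_iff, h.Y_eq]
  refine ⟨fun e t => e _ (mem h t), fun e x hx => ?_⟩
  obtain ⟨t, rfl⟩ := surj h hx
  exact e t

theorem f_iff (h : B.IsT3 i j k T) (hQ : T.Coord Q) : B.flag k j ↔ ∀ s s', Q.f s s' = 0 := by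
  rw [hQ.f_iff, h.Ar_eq]
  exact ⟨fun e s hs => e s (h.S_eq ▸ hs), fun e s hs => e s (h.S_eq.symm ▸ hs)⟩

end Numh

open Numh

theorem RG.num (hB : B.RG) (h : B3 R i j k) :
    (B.flag j k ∧ (B.q k = B.q j ∨ B.q k = B.q j ^ 2)) ∨ (¬ B.flag j k ∧ B.q k = B.q j ∧ Odd (B.q j)) ∨
      (¬ B.flag j k ∧ ∃ q₀, B.q j = q₀ ^ 2 ∧ (B.q k = q₀ ∨ (B.q k = q₀ ^ 3 ∧
        ∃ x ∈ B.U (R.simple k), ∃ y ∈ B.U (R.simple k), ¬ Commute x y))) := by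
  obtain ⟨F, _, _, T, hF, hT⟩ := hB.exists_T3 h
  obtain ⟨Q, hQ⟩ := T.exists_coord
  have := (Subgroup.nontrivial_iff_ne_bot _).2 T.ne_bot
  rw [z_iff hT hQ, ← hF, ← card hB hT]
  by_cases hz : ∀ u, Q.z u = 1
  · exact Or.inl ⟨hz, Q.num_quad hz⟩
  rcases Q.num_herm hz with ⟨h1, h2, -⟩ | ⟨q₀, h1, h2⟩
  · exact Or.inr (Or.inl ⟨hz, h1, h2⟩)
  · exact Or.inr (Or.inr ⟨hz, q₀, h1, h2.imp_right fun ⟨h3, s, s', h4⟩ => ⟨h3, s, hT.S_eq ▸ s.2, s',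
      hT.S_eq ▸ s'.2, fun e => h4 (Subtype.ext e)⟩⟩)

theorem RG.flag_odd (hB : B.RG) (h : B3 R i j k) (h1 : B.q k = B.q j) (h2 : Odd (B.q j)) :
    B.flag j k ↔ ¬ B.flag k j := by
  obtain ⟨F, _, _, T, hF, hT⟩ := hB.exists_T3 h
  obtain ⟨Q, hQ⟩ := T.exists_coord
  have := (Subgroup.nontrivial_iff_ne_bot _).2 T.ne_bot
  rw [← hF, ← card hB hT] at h1
  rw [z_iff hT hQ, f_iff hT hQ]
  refine ⟨fun hz => Q.f_ne_quad hz (hF ▸ h2), fun h3 => by_contra fun hz => ?_⟩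
  have h4 : 1 < Nat.card F := Finite.one_lt_card
  rcases Q.num_herm hz with ⟨-, -, h5⟩ | ⟨q₀, h5, h6⟩
  · exact h3 h5
  · rw [h1, h5] at h6
    have h7 : 2 ≤ q₀ := by
      rw [h5] at h4
      exact (Nat.one_lt_pow_iff two_ne_zero).1 h4
    rcases h6 with h6 | ⟨h6, -⟩
    · exact absurd (Nat.pow_right_injective h7 (h6.trans (pow_one _).symm)) (by decide)
    · exact absurd (Nat.pow_right_injective h7 h6) (by decide)

theorem RG.exists_rIso_B2 (hB : B.RG) (hB' : B'.RG) (h : B3 R i j k) (h1 : B.q j = B'.q j)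
    (h2 : B.q k = B'.q k) (h3 : B.flag j k ↔ B'.flag j k) : ∃ φ, B.RIso B' {j, k} φ := by
  obtain ⟨F, _, _, T, hF, hT⟩ := hB.exists_T3 h
  obtain ⟨F', _, _, T', hF', hT'⟩ := hB'.exists_T3 h
  obtain ⟨Q, hQ⟩ := T.exists_coord
  obtain ⟨Q', hQ'⟩ := T'.exists_coord
  have := (Subgroup.nontrivial_iff_ne_bot _).2 T.ne_bot
  have := (Subgroup.nontrivial_iff_ne_bot _).2 T'.ne_bot
  rw [← hF, ← hF'] at h1
  rw [← card hB hT, ← card hB' hT'] at h2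
  rw [z_iff hT hQ, z_iff hT' hQ'] at h3
  have hs : Q.Sim Q' := by
    by_cases hz : ∀ u, Q.z u = 1
    exacts [Q.sim_quad Q' hz (h3.1 hz) h1 h2, Q.sim_herm Q' hz (mt h3.2 hz) h1 h2]
  obtain ⟨D, d0, d1, d2, d3, d4, d5, d6, d7, d8⟩ := T.exists_graph T' hQ hQ' hs
  rw [hT.Ar_eq, hT'.Ar_eq] at d3 d4
  rw [hT.Y_eq, hT'.Y_eq] at d5 d6
  rw [hT.S_eq, hT'.S_eq] at d7 d8
  have hC : R.C j k * R.C k j = 2 := by rw [h.jk, h.kj]; rfl
  have hD : B.Graph B' {j, k} D := by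
    refine ⟨fun r r1 r2 => ?_, fun r r1 r2 => ?_, d0⟩ <;>
      rcases pos_inJ_B2 hC r1 r2 with rfl | rfl | rfl | rfl
    · intro g hg
      obtain ⟨t, rfl⟩ := surj hT hg
      obtain ⟨t', e⟩ := d1 t
      exact ⟨_, mem hT' t', e⟩
    · exact d3
    · exact d5
    · exact d7
    · intro g hg
      obtain ⟨t', rfl⟩ := surj hT' hg
      obtain ⟨t, e⟩ := d2 t'
      exact ⟨_, mem hT t, e⟩
    · exact d4
    · exact d6
    · exact d8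
  exact (hD.exists_rIso hB hB').imp fun _ e => e.1

end Bld

end Cfsg.Lib.BLD
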