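import Cfsg.Agent.BLD.Rt1
import Cfsg.Agent.BLD.Ext2
import Cfsg.Agent.BLD.Num
import Cfsg.Agent.BLD.Fib1
import Cfsg.Agent.BLD.Fib2

/-!
# Two Moufang buildings with the same tree data
-/

set_option autoImplicit false
set_option linter.unusedSectionVars false

namespace Cfsg.Lib.BLD

open Cfsg.Lib.Chev

theorem Match.dc {ι α : Type*} (ρ : ι → ℕ) (par : ι → ι) (root : ι → Prop)
    (hpar : ∀ l, ¬ root l → ρ (par l) < ρ l) (P : ι → α → Prop) (Q : ι → α → α → Prop) (a₀ : α)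
    (h0 : ∀ l, root l → P l a₀) (hs : ∀ l, ¬ root l → ∀ b, P (par l) b → ∃ a, P l a ∧ Q l a b) :
    ∃ θ : ι → α, (∀ l, root l → θ l = a₀) ∧ ∀ l, ¬ root l → Q l (θ l) (θ (par l)) := by
  classical
  have : Nonempty α := ⟨a₀⟩
  choose! f hf using hs
  have wf : WellFounded fun a b => ρ a < ρ b := InvImage.wf ρ wellFounded_lt
  obtain ⟨θ, e⟩ : ∃ θ : ι → α, ∀ l, θ l = if h : root l then a₀ else f l (θ (par l)) :=
    ⟨wf.fix fun l g => if h : root l then a₀ else f l (g (par l) (hpar l h)), fun l => wf.fix_eq _ l⟩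
  have hP : ∀ l, P l (θ l) := fun l => wf.induction (C := fun l => P l (θ l)) l fun l ih => by
    rw [e]
    split_ifs with c
    exacts [h0 l c, (hf l c _ (ih _ (hpar l c))).1]
  refine ⟨θ, fun l c => by rw [e, dif_pos c], fun l c => ?_⟩
  rw [e l, dif_neg c]
  exact (hf l c _ (hP _)).2

variable {ι A : Type} [Fintype ι] [DecidableEq ι] [DecidableEq A] {R : WeylData ι A}

namespace Bld

variable {Γ Ch : Type*} [Group Γ] [MulAction Γ Ch] {B : Bld R Γ Ch}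
  {Γ' Ch' : Type*} [Group Γ'] [MulAction Γ' Ch'] {B' : Bld R Γ' Ch'}
  [Finite Γ] [Finite Ch] [Finite Γ'] [Finite Ch'] {i j k : ι}

theorem _root_.Cfsg.Lib.BLD.Tree.b3 (T : Tree R) (h : R.C T.k₀ T.j₀ = -2) : B3 R T.i₀ T.j₀ T.k₀ := by
  have h1 := T.C_par _ T.i_ne_j T.i_ne_k
  rw [T.par_i] at h1
  have n1 := T.ρ_inj.ne T.i_ne_j
  have n2 := T.ρ_inj.ne T.i_ne_k
  have a := T.ρ_j
  have b := T.ρ_k
  have h2 := T.nadj T.i₀ T.k₀ (by omega) T.i_ne_k fun e => by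
    rw [e, T.par_i] at b
    omega
  exact ⟨h1.1, h1.2, h2.1, h2.2, T.C_jk, h⟩

theorem nonempty_equiv (T : Tree R) (hB : B.RG) (hB' : B'.RG) (h : spanX B.U {β | β ∈ R.Φ} = ⊤)
    (h' : spanX B'.U {β | β ∈ R.Φ} = ⊤) (h1 : B.q T.j₀ = B'.q T.j₀) (h2 : B.q T.k₀ = B'.q T.k₀)
    (h3 : R.C T.k₀ T.j₀ = -2 → (B.flag T.j₀ T.k₀ ↔ B'.flag T.j₀ T.k₀)) : Nonempty (Γ ≃* Γ') := by
  obtain ⟨φ, hφ⟩ : ∃ φ, B.RIso B' {T.j₀, T.k₀} φ := by
    rcases T.C_kj with c | c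
    · rw [Set.pair_comm]
      exact ext_base hB hB' (by rw [c, T.C_jk]; rfl) h1
    · exact hB.exists_rIso_B2 hB' (T.b3 c) h1 h2 (h3 c)
  have a := T.ρ_j
  have b := T.ρ_k
  have n : T.j₀ ≠ T.k₀ := fun e => by
    rw [e] at a
    omega
  obtain ⟨θ, t1, t2⟩ := Match.dc T.ρ T.par (fun l => l = T.j₀ ∨ l = T.k₀)
    (fun l c => T.par_lt l (not_or.1 c).1 (not_or.1 c).2)
    (fun l ψ => ∃ k, l ≠ k ∧ R.C l k ≠ 0 ∧ B.RIso B' {l, k} ψ)
    (fun l ψ χ => B.RIso B' {l, T.par l} ψ ∧ ∀ x, B.δ (B.a 1) x ∈ R.WJ {T.par l} → ψ x = χ x) φ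
    (by
      rintro l (rfl | rfl)
      · exact ⟨_, n, by rw [T.C_jk]; decide, hφ⟩
      · exact ⟨_, n.symm, by rcases T.C_kj with c | c <;> rw [c] <;> decide, Set.pair_comm _ _ ▸ hφ⟩)
    (by
      rintro l c χ ⟨k, k1, k2, k3⟩
      obtain ⟨c1, c2⟩ := T.C_par l (not_or.1 c).1 (not_or.1 c).2
      obtain ⟨ψ, e⟩ := ext_step hB hB' (i := l) (by rw [c1, c2]; rfl) k1 k2 k3
      exact ⟨ψ, ⟨_, fun d => (T.par_lt l (not_or.1 c).1 (not_or.1 c).2).ne (congrArg T.ρ d.symm),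
        by rw [c1]; decide, e.1⟩, e⟩)
  have key : ∀ i j, T.ρ j < T.ρ i → R.C i j ≠ 0 → ∃ φ, B.RIso B' {i, j} φ ∧
      (∀ x, B.δ (B.a 1) x ∈ R.WJ {i} → φ x = θ i x) ∧ ∀ x, B.δ (B.a 1) x ∈ R.WJ {j} → φ x = θ j x := by
    intro i j lt c
    by_cases e : i = T.k₀
    · obtain rfl : j = T.j₀ := T.ρ_inj (by rw [e] at lt; omega)
      subst e
      exact ⟨φ, Set.pair_comm _ _ ▸ hφ, fun x _ => by rw [t1 _ (.inr rfl)], fun x _ => by rw [t1 _ (.inl rfl)]⟩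
    · obtain rfl : j = T.par i := by_contra fun d => c (T.nadj i j lt e d).1
      have := t2 i (not_or.2 ⟨fun d => by rw [d] at lt; omega, e⟩)
      exact ⟨θ i, this.1, fun _ _ => rfl, this.2⟩
  obtain ⟨L, hL⟩ := exists_pair hB hB' θ fun i j ij c => by
    rcases lt_or_gt_of_ne (T.ρ_inj.ne ij) with lt | lt
    · obtain ⟨ψ, e1, e2, e3⟩ := key j i lt fun d => c (C_eq_zero_symm d)
      exact ⟨ψ, Set.pair_comm _ _ ▸ e1, e3, e2⟩
    · exact key i j lt c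
  exact hL.nonempty_equiv hB hB' h h'

end Bld

end Cfsg.Lib.BLD
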