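import Cfsg.Agent.BLD.Res
import Cfsg.Agent.BLD.Bas2
import Cfsg.Agent.BLD.Rt2

/-!
# Residues of type `A₂` are projective planes
-/

set_option autoImplicit false
set_option linter.unusedSectionVars false

namespace Cfsg.Lib.BLD

open Cfsg.Lib.Chev Cfsg.Lib.Perm.Plane Configuration

namespace Pl0

/-- A projective plane from joins, meets and thickness. -/
@[reducible] noncomputable def mkPlane {P L : Type*} [Membership P L] (p₀ : P) (l₀ : L)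
    (join : ∀ p q : P, ∃ l : L, p ∈ l ∧ q ∈ l) (meet : ∀ l m : L, ∃ p : P, p ∈ l ∧ p ∈ m)
    (uq : ∀ {p₁ p₂ : P} {l₁ l₂ : L}, p₁ ∈ l₁ → p₂ ∈ l₁ → p₁ ∈ l₂ → p₂ ∈ l₂ → p₁ = p₂ ∨ l₁ = l₂)
    (h3 : ∀ (p : P) (l m : L), ∃ k : L, p ∈ k ∧ k ≠ l ∧ k ≠ m)
    (h3' : ∀ (l : L) (p q : P), ∃ r : P, r ∈ l ∧ r ≠ p ∧ r ≠ q) : ProjectivePlane P L where
  exists_point l := by
    obtain ⟨p, hp, -⟩ := h3' l p₀ p₀
    obtain ⟨m, hm, hml, -⟩ := h3 p l l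
    obtain ⟨q, hq, hqp, -⟩ := h3' m p p
    exact ⟨q, fun h => (uq hq hm h hp).elim hqp hml⟩
  exists_line p := by
    obtain ⟨l, hl, -⟩ := h3 p l₀ l₀
    obtain ⟨q, hq, hqp, -⟩ := h3' l p p
    obtain ⟨m, hm, hml, -⟩ := h3 q l l
    exact ⟨m, fun h => (uq hm h hq hl).elim hqp hml⟩
  eq_or_eq := uq
  mkPoint {l m} _ := (meet l m).choose
  mkPoint_ax {l m} _ := (meet l m).choose_spec
  mkLine {p q} _ := (join p q).choose
  mkLine_ax {p q} _ := (join p q).choose_spec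
  exists_config := by
    obtain ⟨l₂, h₂, -⟩ := h3 p₀ l₀ l₀
    obtain ⟨l₃, h₃, h₃₂, -⟩ := h3 p₀ l₂ l₂
    obtain ⟨m, hm, hm₂, hm₃⟩ := h3 p₀ l₂ l₃
    obtain ⟨p₃, k₃, k₃₀, -⟩ := h3' l₂ p₀ p₀
    obtain ⟨p₁, k₁, k₁₀, -⟩ := h3' m p₀ p₀
    obtain ⟨q, hq, hq₀, hq₃⟩ := h3' l₂ p₀ p₃
    obtain ⟨l₁, h₁, h₁₂, -⟩ := h3 q l₂ l₂
    exact ⟨p₁, p₀, p₃, l₁, l₂, l₃, fun h => (uq k₁ hm h h₂).elim k₁₀ hm₂,
      fun h => (uq k₁ hm h h₃).elim k₁₀ hm₃, fun h => (uq h₁ h hq h₂).elim hq₀ h₁₂, h₂, h₃,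
      fun h => (uq h₁ h hq k₃).elim hq₃ h₁₂, k₃, fun h => (uq h h₃ k₃ h₂).elim k₃₀ h₃₂⟩

theorem exists_ne_ne {X : Type*} {p : X → Prop} {a b c : X} (ha : p a) (hb : p b) (hc : p c)
    (hab : a ≠ b) (hac : a ≠ c) (hbc : b ≠ c) (l m : X) : ∃ k, p k ∧ k ≠ l ∧ k ≠ m := by
  by_cases h1 : a ≠ l ∧ a ≠ m
  · exact ⟨a, ha, h1⟩
  by_cases h2 : b ≠ l ∧ b ≠ m
  · exact ⟨b, hb, h2⟩
  refine ⟨c, hc, ?_⟩
  simp only [ne_eq, not_and_or, not_not] at h1 h2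
  rcases h1 with rfl | rfl <;> rcases h2 with rfl | rfl
  · exact absurd rfl hab
  · exact ⟨hac.symm, hbc.symm⟩
  · exact ⟨hbc.symm, hac.symm⟩
  · exact absurd rfl hab

variable {ι A : Type} [Fintype ι] [DecidableEq ι] [DecidableEq A] {R : WeylData ι A}
  {Γ Ch : Type*} [Group Γ] [MulAction Γ Ch] {B : Bld R Γ Ch} {J : Set ι} {a b : ι}

open Bld

theorem s_mem (a : ι) : R.s a ∈ R.WJ {a} := R.s_mem_WJ rfl

theorem δ_res (x y : B.Res J) : B.δ x.1 y.1 ∈ R.WJ J := B.δ_mem_trans (B.δ_mem_symm x.2) y.2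

/-- A neighbour of a chamber of the residue. -/
def nb (ha : a ∈ J) (x : B.Res J) (y : Ch) (h : B.δ x.1 y = R.s a) : B.Res J :=
  ⟨y, B.δ_mem_trans x.2 (h ▸ R.s_mem_WJ ha)⟩

theorem δ_eq_s {x y : B.Res J} (h : B.δ x.1 y.1 ∈ R.WJ {a}) (hne : x ≠ y) : B.δ x.1 y.1 = R.s a :=
  (δ_mem_single.1 h).resolve_left fun e => hne (Subtype.ext e)

theorem split (hJ : J = {a, b}) (hC : R.C a b * R.C b a = 1) (x y : B.Res J) :
    ∃ x' y' : B.Res J, B.δ x.1 x'.1 ∈ R.WJ {b} ∧ B.δ x'.1 y'.1 ∈ R.WJ {a} ∧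
      B.δ y'.1 y.1 ∈ R.WJ {b} := by
  have hC' : R.C b a * R.C a b = 1 := by rw [mul_comm, hC]
  have ha : a ∈ J := by simp [hJ]
  have hb : b ∈ J := by simp [hJ]
  have h1 : ∀ (z : Ch) (c : ι), B.δ z z ∈ R.WJ {c} := fun z c => by
    rw [B.δ_self]; exact one_mem _
  have l1 := len_A2 hC
  have l2 := len_A2 hC'
  have hd : B.δ x.1 y.1 ∈ R.WJ {a, b} := hJ ▸ δ_res x y
  rcases (mem_WJ_A2 hC).1 hd with e | e | e | e | e | e
  · exact ⟨x, x, h1 _ _, h1 _ _, by rw [e]; exact one_mem _⟩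
  · exact ⟨x, y, h1 _ _, e ▸ s_mem a, h1 _ _⟩
  · exact ⟨x, x, h1 _ _, h1 _ _, e ▸ s_mem b⟩
  · obtain ⟨z, e1, e2⟩ := exists_mid e (by rw [l1.1, R.len_s, R.len_s])
    exact ⟨x, nb ha x z e1, h1 _ _, e1 ▸ s_mem a, e2 ▸ s_mem b⟩
  · obtain ⟨z, e1, e2⟩ := exists_mid e (by rw [l2.1, R.len_s, R.len_s])
    exact ⟨nb hb x z e1, y, e1 ▸ s_mem b, e2 ▸ s_mem a, h1 _ _⟩
  · rw [braid_A2 hC] at e
    obtain ⟨z, e1, e2⟩ := exists_mid e (by rw [l2.1, l2.2, R.len_s])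
    obtain ⟨z', e3, e4⟩ := exists_mid e1 (by rw [l2.1, R.len_s, R.len_s])
    exact ⟨nb hb x z' e3, nb ha (nb hb x z' e3) z e4, e3 ▸ s_mem b, e4 ▸ s_mem a, e2 ▸ s_mem b⟩

theorem not_comm (hC : R.C a b * R.C b a = 1) : R.s a * R.s b ≠ R.s b * R.s a := fun e => by
  have h : (R.s a * R.s b) ^ 2 = 1 := by
    rw [pow_two]
    nth_rewrite 1 [e]
    rw [mul_assoc, ← mul_assoc (R.s a), R.s_mul_self, one_mul, R.s_mul_self]
  have := orderOf_dvd_of_pow_eq_one h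
  rw [orderOf_A2 hC] at this
  omega

theorem uq (hC : R.C a b * R.C b a = 1) {p₁ p₂ : B.Pan J b} {l₁ l₂ : B.Ln J b a} (h₁ : p₁ ∈ l₁)
    (h₂ : p₂ ∈ l₁) (h₃ : p₁ ∈ l₂) (h₄ : p₂ ∈ l₂) : p₁ = p₂ ∨ l₁ = l₂ := by
  by_contra hne
  obtain ⟨hp, hl⟩ := not_or.1 hne
  have hC' : R.C b a * R.C a b = 1 := by rw [mul_comm, hC]
  obtain ⟨x₁, e₁, f₁⟩ := exists_flag h₁
  obtain ⟨x₂, e₂, f₂⟩ := exists_flag h₂
  obtain ⟨x₃, e₃, f₃⟩ := exists_flag h₃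
  obtain ⟨x₄, e₄, f₄⟩ := exists_flag h₄
  have d12 := δ_eq_s (ln_eq_iff.1 (f₁.symm.trans f₂)) fun e => hp (by rw [e₁, e₂, e])
  have d24 := δ_eq_s (pt_eq_iff.1 (e₂.symm.trans e₄)) fun e => hl (by rw [f₂, f₄, e])
  have d13 := δ_eq_s (pt_eq_iff.1 (e₁.symm.trans e₃)) fun e => hl (by rw [f₁, f₃, e])
  have d34 := δ_eq_s (ln_eq_iff.1 (f₃.symm.trans f₄)) fun e => hp (by rw [e₃, e₄, e])
  exact not_comm hC ((δ_mul d12 d24 (by rw [(len_A2 hC).1, R.len_s, R.len_s])).symm.trans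
    (δ_mul d13 d34 (by rw [(len_A2 hC').1, R.len_s, R.len_s])))

theorem three (ha : a ∈ J) (x : B.Res J) : ∃ y z : B.Res J, x ≠ y ∧ x ≠ z ∧ y ≠ z ∧
    B.δ x.1 y.1 ∈ R.WJ {a} ∧ B.δ x.1 z.1 ∈ R.WJ {a} := by
  obtain ⟨y, z, hyz, hy, hz⟩ := B.thick x.1 a
  have h : ∀ y, B.δ x.1 y = R.s a → x.1 ≠ y := fun y hy e => by
    have := congrArg R.len hy
    rw [← e, B.δ_self, R.len_one, R.len_s] at this
    exact zero_ne_one this
  exact ⟨nb ha x y hy, nb ha x z hz, fun e => h y hy (congrArg Subtype.val e),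
    fun e => h z hz (congrArg Subtype.val e), fun e => hyz (congrArg Subtype.val e),
    hy ▸ s_mem a, hz ▸ s_mem a⟩

theorem three_lns (hab : a ≠ b) (hb : b ∈ J) (p : B.Pan J b) (l m : B.Ln J b a) :
    ∃ k : B.Ln J b a, p ∈ k ∧ k ≠ l ∧ k ≠ m := by
  obtain ⟨x, rfl⟩ := B.pt_surjective J b p
  obtain ⟨y, z, hxy, hxz, hyz, hy, hz⟩ := three hb x
  have e1 := pt_eq_iff.2 hy
  have e2 := pt_eq_iff.2 hz
  exact exists_ne_ne (p := fun k : B.Ln J b a => B.pt J b x ∈ k) (pt_mem_ln b a x)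
    (e1 ▸ pt_mem_ln b a y) (e2 ▸ pt_mem_ln b a z) (fun e => hxy (flag_ext hab e1 e))
    (fun e => hxz (flag_ext hab e2 e)) (fun e => hyz (flag_ext hab (e1.symm.trans e2) e)) l m

theorem three_pts (hab : a ≠ b) (ha : a ∈ J) (l : B.Ln J b a) (p q : B.Pan J b) :
    ∃ r : B.Pan J b, r ∈ l ∧ r ≠ p ∧ r ≠ q := by
  obtain ⟨x, rfl⟩ := B.ln_surjective J b a l
  obtain ⟨y, z, hxy, hxz, hyz, hy, hz⟩ := three ha x
  have e1 : B.ln J b a x = B.ln J b a y := ln_eq_iff.2 hy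
  have e2 : B.ln J b a x = B.ln J b a z := ln_eq_iff.2 hz
  exact exists_ne_ne (p := fun r : B.Pan J b => r ∈ B.ln J b a x) (pt_mem_ln b a x)
    (e1 ▸ pt_mem_ln b a y) (e2 ▸ pt_mem_ln b a z) (fun e => hxy (flag_ext hab e e1))
    (fun e => hxz (flag_ext hab e e2)) (fun e => hyz (flag_ext hab e (e1.symm.trans e2))) p q

theorem join (hC : R.C a b * R.C b a = 1) (p q : B.Pan {a, b} b) :
    ∃ l : B.Ln {a, b} b a, p ∈ l ∧ q ∈ l := by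
  obtain ⟨x, rfl⟩ := B.pt_surjective _ b p
  obtain ⟨y, rfl⟩ := B.pt_surjective _ b q
  obtain ⟨x', y', h1, h2, h3⟩ := split rfl hC x y
  refine ⟨B.ln _ b a x', pt_eq_iff.2 h1 ▸ pt_mem_ln b a x', ?_⟩
  rw [← pt_eq_iff.2 h3, ln_eq_iff.2 h2]
  exact pt_mem_ln b a y'

theorem meet (hC : R.C a b * R.C b a = 1) (l m : B.Ln {a, b} b a) :
    ∃ p : B.Pan {a, b} b, p ∈ l ∧ p ∈ m := by
  obtain ⟨x, rfl⟩ := B.ln_surjective _ b a l
  obtain ⟨y, rfl⟩ := B.ln_surjective _ b a m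
  obtain ⟨x', y', h1, h2, h3⟩ := split (Set.pair_comm a b) (by rw [mul_comm, hC]) x y
  refine ⟨B.pt _ b x', ?_, ?_⟩
  · rw [ln_eq_iff.2 h1]
    exact pt_mem_ln b a x'
  · rw [← ln_eq_iff.2 h3, pt_eq_iff.2 h2]
    exact pt_mem_ln b a y'

/-- The base chamber in the residue. -/
def base (B : Bld R Γ Ch) (J : Set ι) : B.Res J := ⟨B.a 1, by rw [B.δ_self]; exact one_mem _⟩

theorem exists_pair (hC : R.C a b * R.C b a = 1) {p q : B.Pan {a, b} b} (h : p ≠ q) :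
    ∃ x y, p = B.pt _ b x ∧ q = B.pt _ b y ∧ B.δ x.1 y.1 = R.s a := by
  obtain ⟨l, hp, hq⟩ := join hC p q
  obtain ⟨x, e₁, f₁⟩ := exists_flag hp
  obtain ⟨y, e₂, f₂⟩ := exists_flag hq
  exact ⟨x, y, e₁, e₂, δ_eq_s (ln_eq_iff.1 (f₁.symm.trans f₂)) fun e => h (by rw [e₁, e₂, e])⟩

theorem mkPlane_eq_1' : type_of% @mkPlane.eq_1 := @mkPlane.eq_1
theorem nb_eq_1' : type_of% @nb.eq_1 := @nb.eq_1
theorem base_eq_1' : type_of% @base.eq_1 := @base.eq_1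

end Pl0

variable {ι A : Type} [Fintype ι] [DecidableEq ι] [DecidableEq A] {R : WeylData ι A}

namespace Bld

variable {Γ Ch : Type*} [Group Γ] [MulAction Γ Ch] {B : Bld R Γ Ch}

section Pl0
variable {i j : ι} [hA : Fact (R.C i j * R.C j i = 1)]

noncomputable instance plane : ProjectivePlane (B.Pan {i, j} j) (B.Ln {i, j} j i) :=
  Pl0.mkPlane (B.pt _ j (Pl0.base B _)) (B.ln _ j i (Pl0.base B _)) (Pl0.join hA.out) (Pl0.meet hA.out)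
    (Pl0.uq hA.out) (Pl0.three_lns (C_of_mul_eq_one hA.out).1 (by simp))
    (Pl0.three_pts (C_of_mul_eq_one hA.out).1 (by simp))

theorem plane_eq_1' : type_of% (plane.eq_1 (B := B) (i := i) (j := j)) := plane.eq_1

theorem plane_order [Finite Ch] :
    ProjectivePlane.order (B.Pan {i, j} j) (B.Ln {i, j} j i) = B.q i ∧ B.q i = B.q j := by
  have hij := (C_of_mul_eq_one hA.out).1
  have h1 := ncard_pts (B := B) (J := {i, j}) hij (by simp) (B.ln _ j i (Pl0.base B _))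
  have h2 := ncard_lns (B := B) (J := {i, j}) hij (by simp) (B.pt _ j (Pl0.base B _))
  rw [Perm.Plane.ncard_pts] at h1
  rw [Perm.Plane.ncard_lns] at h2
  omega

instance cg (K : Subgroup (B.Iso {i, j})) : CG K (B.Pan {i, j} j) (B.Ln {i, j} j i) where
  smul_mem g p l := smul_mem_iff g.1 p l
  faithful g h := by
    have hij := (C_of_mul_eq_one hA.out).1
    have hl : ∀ l : B.Ln {i, j} j i, g.1 • l = l := fun l => by
      obtain ⟨p, hp, -⟩ := Pl0.three_pts hij (by simp) l (B.pt _ j (Pl0.base B _)) (B.pt _ j (Pl0.base B _))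
      obtain ⟨q, hq, hqp, -⟩ := Pl0.three_pts hij (by simp) l p p
      have h1 : ∀ p : B.Pan {i, j} j, p ∈ l → p ∈ g.1 • l := fun p hp => by
        have := (smul_mem_iff g.1 p l).2 hp
        rwa [show g.1 • p = p from h p] at this
      exact (Pl0.uq hA.out (h1 q hq) (h1 p hp) hq hp).resolve_left hqp
    exact Subtype.ext (Subtype.ext (Equiv.ext fun x => (fix_iff hij g.1).2 ⟨h _, hl _⟩))

theorem mem_centre_iff [Finite Ch] {K : Subgroup (B.Iso {i, j})} (σ : K) (x : B.Res {i, j}) :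
    σ ∈ centre K (B.Ln {i, j} j i) (B.pt {i, j} j x) ↔
      ∀ y : B.Res {i, j}, B.δ x.1 y.1 ∈ R.WJ {j} → σ.1.1 y = y := by
  rw [← fix_lns_iff (C_of_mul_eq_one hA.out).1]
  exact ⟨fun h => ⟨centre_fix (G := K) h, h⟩, fun h => h.2⟩

theorem mem_axis_iff [Finite Ch] {K : Subgroup (B.Iso {i, j})} (σ : K) (x : B.Res {i, j}) :
    σ ∈ axis K (P := B.Pan {i, j} j) (B.ln {i, j} j i x) ↔
      ∀ y : B.Res {i, j}, B.δ x.1 y.1 ∈ R.WJ {i} → σ.1.1 y = y := by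
  rw [← fix_pts_iff (C_of_mul_eq_one hA.out).1]
  exact ⟨fun h => ⟨axis_fix (G := K) h, h⟩, fun h => h.2⟩

theorem isMoufang [Finite Ch] {K : Subgroup Γ} (hK : B.Lev {i, j} ≤ K) :
    IsMoufang (B.Aut {i, j} K) (B.Pan {i, j} j) (B.Ln {i, j} j i) := by
  refine isMoufang_of_twoTrans fun p₁ p₂ q₁ q₂ hp hq => ?_
  obtain ⟨x, y, rfl, rfl, h1⟩ := Pl0.exists_pair hA.out hp
  obtain ⟨x', y', rfl, rfl, h2⟩ := Pl0.exists_pair hA.out hq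
  obtain ⟨g, hg, e1, e2⟩ := lev_trans x.2 y.2 x'.2 y'.2 (h1.trans h2.symm)
  refine ⟨⟨B.res _ ⟨g, hg.1⟩, mem_Aut.2 ⟨⟨g, hg.1⟩, hK hg, rfl⟩⟩, ?_, ?_⟩
  · exact (B.smul_pt _ j _ x).trans (congrArg _ (Subtype.ext e1))
  · exact (B.smul_pt _ j _ y).trans (congrArg _ (Subtype.ext e2))

end Pl0

end Bld

end Cfsg.Lib.BLD
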