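import Cfsg.Agent.BLD.Walk
import Cfsg.Agent.BLD.PlB1
import Cfsg.Agent.BLD.Bas2
import Cfsg.Agent.BLD.Rt2

/-! # Propagation of triviality on panels -/

set_option autoImplicit false
set_option linter.unusedSectionVars false

namespace Cfsg.Lib.BLD

open Cfsg.Lib.Chev

variable {ι A : Type} [Fintype ι] [DecidableEq ι] [DecidableEq A] {R : WeylData ι A}

namespace Bld

variable {Γ Ch : Type*} [Group Γ] [MulAction Γ Ch] {B : Bld R Γ Ch}

theorem PropAux.δ_aa (w u : R.W) : B.δ (B.a w) (B.a (w * u)) = u := by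
  rw [B.δ_a, inv_mul_cancel_left]

open PropAux

section Fin
variable [Finite Γ] [Finite Ch] {i j k : ι} {p : ℕ}

theorem mem_UJ_of {J : Set ι} (hb : ∀ j ∈ J, ∀ k ∈ J, j ≠ k → R.C j k * R.C k j ≤ 2) (hp : p.Prime)
    (hq : ∀ j ∈ J, ∀ k ∈ J, R.C j k * R.C k j = 1 → p ∣ B.q j) {g : Γ} {n : ℕ} (hg : g ^ p ^ n = 1)
    {r : A} (hr : g ∈ B.Br r) {w₁ : R.W} (h₁ : w₁ ∈ R.WJ J) (h₂ : Hf R r w₁)
    (h₃ : ∀ j ∈ J, ∀ k ∈ J, R.C j k * R.C k j = 2 → ¬ R.InJ {j, k} (w₁⁻¹ • r))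
    (h₄ : ∀ j ∈ J, Hf R r (w₁ * R.s j) → g ∈ B.Tv (B.a w₁) j) : g ∈ B.UJ J r := by
  refine ⟨hr, fun w hw j hj h1 => walk (P := fun w => ∀ j ∈ J, Hf R r (w * R.s j) → g ∈ B.Tv (B.a w) j)
    (fun w _ k hk h1 h2 h3 ih j hj h4 => ?_) h₁ h₂ h₃ h₄ w hw h1 j hj⟩
  have tk : g ∈ B.Tv (B.a (w * R.s k)) k :=
    Tv_panel (ih k hk h2) (by rw [δ_aa]; exact R.s_mem_WJ rfl)
  by_cases e : j = k
  · exact e ▸ tk
  have c0 := mul_nonneg_of_nonpos_of_nonpos (C_nonpos (R := R) e) (C_nonpos (R := R) (Ne.symm e))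
  have c2 := hb j hj k hk e
  obtain c | c | c : R.C j k * R.C k j = 0 ∨ R.C j k * R.C k j = 1 ∨ R.C j k * R.C k j = 2 := by
    omega
  · have c1 : R.C j k = 0 := (mul_eq_zero.1 c).elim id C_eq_zero_symm
    refine triv_comm c1 (ih j hj (by_contra fun h5 => ?_)) (δ_aa _ _) (hr _ h2)
    rw [eq_of_hf_of_not_hf h1 h5, mul_assoc, Hf, mul_inv_rev, mul_smul, inv_smul_smul, mul_inv_rev,
      R.s_inv, R.s_inv, mul_smul, R.s_smul k (R.simple_mem j),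
      R.σ_simple_of_eq_zero (C_eq_zero_symm c1)] at h4
    exact R.not_pos_s_smul_simple j h4
  · rw [mul_comm] at c
    exact la c hp (hq k hk j hj c) hg tk (δ_aa _ _) (hr _ h4)
  · have hf : ∀ u ∈ R.WJ {j, k}, Hf R r (w * u) := fun u hu => by
      rw [Hf, mul_inv_rev, mul_smul]
      exact R.pos_smul_of_not_inJ (inv_mem hu) h1 (h3 j hj c h4)
    have := mem_Kr_of (δ_aa w (R.w0 {j, k})) (hr _ h1) (by
      rintro l (rfl | rfl)
      exacts [ih l hj (hf _ (R.s_mem_WJ (.inl rfl))), ih l hk h2]) (hr _ (hf _ (R.w0_mem _)))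
    rw [Kr_eq (y := B.a (w * R.s k)) (by rw [δ_aa]; exact R.s_mem_WJ (.inr rfl))] at this
    exact Kr_le_Tv (.inl rfl) this

theorem triv_all (T : Tree R) (hp : p.Prime) (hq : ∀ j k, R.C j k * R.C k j = 1 → p ∣ B.q j)
    {g : Γ} {n : ℕ} (hg : g ^ p ^ n = 1) {w : R.W} (hw : ∀ l, g • B.a (w * R.s l) = B.a (w * R.s l))
    (h1 : g ∈ B.Tv (B.a w) T.j₀) (h2 : g ∈ B.Tv (B.a w) T.k₀) (l : ι) : g ∈ B.Tv (B.a w) l := by
  induction hn : T.ρ l using Nat.strong_induction_on generalizing l with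
  | _ m ih =>
    by_cases a : l = T.j₀
    · exact a ▸ h1
    by_cases b : l = T.k₀
    · exact b ▸ h2
    have c : R.C (T.par l) l * R.C l (T.par l) = 1 := by
      rw [(T.C_par l a b).1, (T.C_par l a b).2]; rfl
    exact la c hp (hq _ _ c) hg (ih _ (hn ▸ T.par_lt l a b) _ rfl) (δ_aa _ _) (hw l)

omit [Finite Γ] [Finite Ch] in
theorem moufJ_of_trOn {J : Set ι} (hj : j ∈ J)
    (h : B.TrOn (B.UJ J (R.s j • R.simple i)) (B.a (R.s j)) i) : B.MoufJ J i := by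
  obtain ⟨n, hn⟩ := B.exists_lifts (R.s j)
  have := h.conj (S' := B.UJ J (R.simple i)) n fun g hg => by
    simpa only [smul_smul, R.s_mul_self, one_smul] using (hn.conj_UJ (R.s_mem_WJ hj)).2 hg
  rwa [hn, R.s_mul_self] at this

omit [Finite Γ] [Finite Ch] in
theorem mouf_bond {J : Set ι} (hi : i ∈ J) (hj : j ∈ J) (h : R.C i j * R.C j i = 1)
    (hM : B.MoufJ J i) : B.MoufJ J j := by
  obtain ⟨n, hn⟩ := B.exists_lifts (R.s i * R.s j)
  have := TrOn.conj hM (S' := B.UJ J (R.simple j)) n fun g hg =>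
    s_s_A2 h ▸ (hn.conj_UJ (mul_mem (R.s_mem_WJ hi) (R.s_mem_WJ hj))).2 hg
  rw [hn, mul_one] at this
  exact trOn_par (s_s_A2 h) (δ_a_one _) (fun g hg => ⟨hg.1 _ (hf_one.2 (R.pos_simple j)),
    hg.1 _ (s_s_A2 h ▸ (hf_smul_simple _ i).1)⟩) this

end Fin

end Bld

end Cfsg.Lib.BLD
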