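import Cfsg.Agent.BLD.Defs

/-!
# The root groups of a `B₃` configuration give a pseudo-quadratic space
-/

set_option autoImplicit false
set_option linter.unusedSectionVars false
set_option linter.unusedVariables false

namespace Cfsg.Lib.BLD

open Cfsg.Lib.Chev

namespace T3aAux

variable {F G : Type*} [Field F] [Group G] (T : T3 F G)

theorem x_add (t u : F) : T.e 1 2 t * T.e 1 2 u = T.e 1 2 (t + u) := T.st.add 1 2 (by decide) t u

theorem x_zero : T.e 1 2 0 = 1 := T.st.zero (by decide)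

theorem x_inv (t : F) : (T.e 1 2 t)⁻¹ = T.e 1 2 (-t) := T.st.inv (by decide) t

theorem w_inv (t : F) : (T.e 2 1 t)⁻¹ = T.e 2 1 (-t) := T.st.inv (by decide) t

theorem y_add (u v : F) : T.y u * T.y v = T.y (u + v) := by
  simp only [T3.y, ← x_add]; group

theorem y_zero : T.y 0 = 1 := by simp [T3.y, x_zero]

theorem y_inv (u : F) : (T.y u)⁻¹ = T.y (-u) := by
  rw [inv_eq_iff_mul_eq_one, y_add, add_neg_cancel, y_zero]

theorem y_mem (u : F) : T.y u ∈ T.Y := (T.mem_Y _).2 ⟨u, rfl⟩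

theorem y_eq_one {u : F} (h : T.y u = 1) : u = 0 := by
  have h1 : T.e 1 2 u = 1 := by simpa [T3.y] using h
  exact (T.uniq u 1 (one_mem _) 1 (one_mem _) 1 (one_mem _) (by simpa using h1)).1

theorem y_inj {u v : F} (h : T.y u = T.y v) : u = v :=
  sub_eq_zero.1 (y_eq_one T (by rw [sub_eq_add_neg, ← y_add, ← y_inv, h, mul_inv_cancel]))

theorem α_mem (s : T.S) : T.α s ∈ T.Ar := (T.n_S _).1 s.2

theorem α_mul (s s' : G) : T.α (s * s') = T.α s * T.α s' := by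
  simp only [T3.α]; group

theorem α_one : T.α 1 = 1 := by simp [T3.α]

theorem α_inj {s s' : T.S} (h : T.α s = T.α s') : s = s' := by
  simpa [T3.α] using h

theorem exists_α {a : G} (ha : a ∈ T.Ar) : ∃ s : T.S, a = T.α s :=
  ⟨⟨(stW T.e 1 2 1)⁻¹ * a * stW T.e 1 2 1, (T.n_S _).2 (by simpa [mul_assoc] using ha)⟩, by
    simp [T3.α, mul_assoc]⟩

theorem y_α (u : F) (s : T.S) : T.y u * T.α s = T.α s * T.y u :=
  (T.c_AY _ (α_mem T s) _ (y_mem T u)).eq.symm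

theorem s_y (s : T.S) (u : F) : (s : G) * T.y u = T.y u * s :=
  (T.c_YS _ (y_mem T u) _ s.2).eq.symm

theorem y_α' (u : F) (s : T.S) (g : G) : T.y u * (T.α s * g) = T.α s * (T.y u * g) := by
  rw [← mul_assoc, y_α, mul_assoc]

theorem s_y' (s : T.S) (u : F) (g : G) : (s : G) * (T.y u * g) = T.y u * (s * g) := by
  rw [← mul_assoc, s_y, mul_assoc]

theorem y_add' (u v : F) (g : G) : T.y u * (T.y v * g) = T.y (u + v) * g := by
  rw [← mul_assoc, y_add]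

theorem x_α (t : F) (s : T.S) : T.e 1 2 t * T.α s * (T.e 1 2 t)⁻¹ = T.α s := by
  rw [(T.c_xA t _ (α_mem T s)).eq, mul_inv_cancel_right]

variable {T}

theorem uniq3 {a a' s s' : T.S} {u u' : F} (h : T.α a * T.y u * s = T.α a' * T.y u' * s') :
    a = a' ∧ u = u' ∧ s = s' := by
  have h1 : T.e 1 2 0 * ((T.α a')⁻¹ * T.α a) * T.y (u - u') * ((s * s'⁻¹ : T.S) : G) = 1 := by
    rw [x_zero, one_mul, sub_eq_add_neg, ← y_add, mul_assoc, mul_assoc (T.y u), ← s_y, y_inv T u' |>.symm]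
    calc _ = (T.α a')⁻¹ * (T.α a * T.y u * s) * (s' : G)⁻¹ * (T.y u')⁻¹ := by
          simp only [Subgroup.coe_mul, Subgroup.coe_inv]; group
      _ = 1 := by rw [h]; group
  obtain ⟨-, h2, h3, h4⟩ := T.uniq 0 _ (mul_mem (inv_mem (α_mem T a')) (α_mem T a)) _ (y_mem T _) _
    (s * s'⁻¹).2 h1
  exact ⟨α_inj T (inv_mul_eq_one.1 h2).symm, sub_eq_zero.1 (y_eq_one T h3),
    mul_inv_eq_one.1 (Subtype.ext h4)⟩

theorem uniq2 {a a' : T.S} {u u' : F} (h : T.α a * T.y u = T.α a' * T.y u') : a = a' ∧ u = u' :=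
  have := uniq3 (s := 1) (s' := 1) (by simpa using h)
  ⟨this.1, this.2.1⟩

variable (T)

theorem exists_D {ν : F} (hν : ν ≠ 0) : ∃ D : G →* G, (∀ t, D (T.e 1 2 t) = T.e 1 2 (ν * t)) ∧
    (∀ t, D (T.e 2 1 t) = T.e 2 1 (ν⁻¹ * t)) ∧ (∀ s : T.S, D s = s) ∧
    (∀ u, D (T.y u) = T.y (ν * u)) ∧ ∀ a ∈ T.Ar, D a ∈ T.Ar := by
  have hc : ∀ g : G, (∀ t, Commute g (T.e 0 1 t) ∧ Commute g (T.e 1 0 t)) →
      Commute g (stW T.e 1 0 ν * (stW T.e 1 0 1)⁻¹) := fun g hg =>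
    (((hg _).2.mul_right (hg _).1).mul_right (hg _).2).mul_right
      (((hg _).2.mul_right (hg _).1).mul_right (hg _).2).inv_right
  have hx : ∀ t, (stW T.e 1 0 ν * (stW T.e 1 0 1)⁻¹) * T.e 1 2 t *
      (stW T.e 1 0 ν * (stW T.e 1 0 1)⁻¹)⁻¹ = T.e 1 2 (ν * t) := fun t => by
    have h1 := T.st.stW_bc (a := 1) (b := 0) (c := 2) (by decide) (by decide) (by decide) hν t
    have h2 := T.st.stW_bc (a := 1) (b := 0) (c := 2) (by decide) (by decide) (by decide)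
      one_ne_zero t
    rw [one_mul] at h2
    rw [← h1, ← h2]; group
  refine ⟨(MulAut.conj (stW T.e 1 0 ν * (stW T.e 1 0 1)⁻¹)).toMonoidHom, hx, fun t => ?_,
    fun s => ?_, fun u => ?_, T.d_A ν hν⟩
  · have h1 := T.st.stW_cb (a := 1) (b := 0) (c := 2) (by decide) (by decide) (by decide) hν t
    have h2 := T.st.stW_cb (a := 1) (b := 0) (c := 2) (by decide) (by decide) (by decide)
      one_ne_zero t
    rw [inv_one, one_mul] at h2
    rw [MulEquiv.coe_toMonoidHom, MulAut.conj_apply, ← h1, ← h2]; group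
  · rw [MulEquiv.coe_toMonoidHom, MulAut.conj_apply, ← (hc s (T.c_S s s.2)).eq,
      mul_inv_cancel_right]
  · have h1 : (MulAut.conj (stW T.e 1 0 ν * (stW T.e 1 0 1)⁻¹)).toMonoidHom T.m = T.m := by
      rw [MulEquiv.coe_toMonoidHom, MulAut.conj_apply, ← (hc T.m T.c_m).eq, mul_inv_cancel_right]
    rw [T3.y, map_mul, map_mul, map_inv, h1, T3.y, ← hx]
    rfl

/-- The raw coordinates. -/
structure Pre where
  sm : F → T.S → T.S
  c2 : F → T.S → F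
  ζ : F → F → T.S
  f : T.S → T.S → F
  τ : F →+ F
  N : G ≃* G
  hN : ∀ g, N g = (stW T.e 1 2 1)⁻¹ * g * stW T.e 1 2 1
  xS : ∀ t (s : T.S), T.e 1 2 t * s * (T.e 1 2 t)⁻¹ = T.α (sm t s) * T.y (c2 t s) * s
  xY : ∀ t u, T.e 1 2 t * T.y u * (T.e 1 2 t)⁻¹ = T.α (ζ t u) * T.y u
  SA : ∀ s s' : T.S, s * T.α s' * (s : G)⁻¹ = T.α s' * T.y (f s s')
  Ny : ∀ u, N (T.y u) = T.y (τ u)

theorem nonempty_pre : Nonempty (Pre T) := by
  have h1 : ∀ t (s : T.S), ∃ (a : T.S) (u : F),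
      T.e 1 2 t * s * (T.e 1 2 t)⁻¹ = T.α a * T.y u * s := fun t s => by
    obtain ⟨a, ha, y, hy, e⟩ := T.r_xS t s s.2
    obtain ⟨a, rfl⟩ := exists_α T ha
    obtain ⟨u, rfl⟩ := (T.mem_Y _).1 hy
    exact ⟨a, u, e⟩
  have h2 : ∀ t u, ∃ a : T.S, T.e 1 2 t * T.y u * (T.e 1 2 t)⁻¹ = T.α a * T.y u := fun t u => by
    obtain ⟨a, ha, e⟩ := T.r_xY t _ (y_mem T u)
    obtain ⟨a, rfl⟩ := exists_α T ha
    exact ⟨a, e⟩
  have h3 : ∀ s s' : T.S, ∃ u, s * T.α s' * (s : G)⁻¹ = T.α s' * T.y u := fun s s' => by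
    obtain ⟨y, hy, e⟩ := T.r_SA s s.2 _ (α_mem T s')
    obtain ⟨u, rfl⟩ := (T.mem_Y _).1 hy
    exact ⟨u, e⟩
  have h4 : ∀ u, ∃ v, MulAut.conj (stW T.e 1 2 1)⁻¹ (T.y u) = T.y v := fun u =>
    (T.mem_Y _).1 ((T.n_Y _).2 (by simpa [mul_assoc] using y_mem T u))
  choose sm c2 h1 using h1
  choose ζ h2 using h2
  choose f h3 using h3
  choose τ h4 using h4
  exact ⟨⟨sm, c2, ζ, f, AddMonoidHom.mk' τ fun u v => y_inj T (by
    rw [← h4, ← y_add, map_mul, h4, h4, y_add]), MulAut.conj (stW T.e 1 2 1)⁻¹, by simp, h1, h2, h3, h4⟩⟩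

namespace Pre

variable {T} (P : Pre T)

theorem Nα (s : G) : P.N (T.α s) = s := by simp [P.hN, T3.α, mul_assoc]

theorem Nx (t : F) : P.N (T.e 1 2 t) = T.e 2 1 (-t) := by
  have := T.st.stW_ba (a := 1) (b := 2) (c := 0) (by decide) (by decide) (by decide) one_ne_zero (-t)
  rw [show -(1 : F) ^ 2 * -t = t by ring] at this
  rw [P.hN, ← this]; group

theorem Nw (t : F) : P.N (T.e 2 1 t) = T.e 1 2 (-t) := by
  have := T.st.stW_ab (a := 1) (b := 2) (c := 0) (by decide) (by decide) (by decide) one_ne_zero (-t)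
  rw [show -(1 : F)⁻¹ ^ 2 * -t = t by simp] at this
  rw [P.hN, ← this]; group

theorem N_mem (s : T.S) : P.N s ∈ T.Ar := (T.n_A _).2 (by simp [P.hN, mul_assoc])

theorem τ_surj (v : F) : ∃ u, P.τ u = v := by
  obtain ⟨u, hu⟩ := (T.mem_Y _).1 ((T.n_Y _).1 (y_mem T v))
  refine ⟨u, y_inj T ?_⟩
  rw [← P.Ny, T3.y, ← hu, P.hN]; group

theorem s_α (s s' : T.S) : (s : G) * T.α s' = T.α s' * (T.y (P.f s s') * s) := by
  rw [← mul_assoc, ← P.SA, inv_mul_cancel_right]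

theorem s_α' (s s' : T.S) (g : G) :
    (s : G) * (T.α s' * g) = T.α s' * (T.y (P.f s s') * (s * g)) := by
  rw [← mul_assoc, P.s_α, mul_assoc, mul_assoc]

theorem wA (t : F) (s : T.S) :
    T.e 2 1 (-t) * P.N s * (T.e 2 1 (-t))⁻¹ = P.sm t s * T.y (P.τ (P.c2 t s)) * P.N s := by
  have := congrArg P.N (P.xS t s)
  rwa [map_mul, map_mul, map_mul, map_mul, map_inv, P.Nx, P.Nα, P.Ny] at this

theorem x_s_eq (s : T.S) :
    T.e 1 2 1 * s * (T.e 1 2 1)⁻¹ = T.e 2 1 1 * T.α s * (T.e 2 1 1)⁻¹ := by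
  have h1 := x_α T (-1) s
  rw [← h1, ← x_inv, T3.α, stW, inv_one, ← w_inv]
  group

theorem sm_zero (s : T.S) : P.sm 0 s = 1 ∧ P.c2 0 s = 0 := by
  have := uniq3 (a' := 1) (u' := 0) (s' := s) ((P.xS 0 s).symm.trans (by
    simp [x_zero, y_zero, α_one]))
  exact ⟨this.1, this.2.1⟩

theorem sm_one (s : T.S) : P.sm 1 s = s := by
  have h0 : T.α (T.α s) ∈ T.S := (T.n_A _).1 (α_mem T s)
  have h1 := P.wA (-1) ⟨_, h0⟩
  rw [neg_neg, P.Nα, ← x_s_eq, P.xS] at h1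
  simp only [mul_assoc, y_α', P.s_α, s_y', y_add'] at h1
  simp only [← mul_assoc] at h1
  exact (uniq3 h1).1

theorem neg_one_aux (s : T.S) : P.N s = T.α (P.sm (-1) s) ∧
    P.c2 (-1) s = P.τ (P.c2 1 s) + P.f s (P.sm (-1) s) := by
  obtain ⟨a, ha⟩ := exists_α T (P.N_mem s)
  have h0 : T.e 1 2 (-1) * s * (T.e 1 2 (-1))⁻¹ = T.e 2 1 (-1) * P.N s * (T.e 2 1 (-1))⁻¹ := by
    have h1 := x_α T 1 a
    rw [← ha] at h1
    rw [← h1, P.hN, stW, inv_one, ← x_inv]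
    group
  rw [P.wA, P.xS, ha, P.sm_one] at h0
  simp only [mul_assoc, y_α', P.s_α, s_y', y_add'] at h0
  simp only [← mul_assoc] at h0
  obtain ⟨h1, h2, -⟩ := uniq3 h0
  rw [ha, h2, h1, add_comm]
  exact ⟨rfl, rfl⟩

theorem exists_D {ν : F} (hν : ν ≠ 0) : ∃ D : G →* G, (∀ t, D (T.e 1 2 t) = T.e 1 2 (ν * t)) ∧
    (∀ t, D (T.e 2 1 t) = T.e 2 1 (ν⁻¹ * t)) ∧ (∀ s : T.S, D s = s) ∧
    (∀ u, D (T.y u) = T.y (ν * u)) ∧ (∀ s : T.S, D (T.α s) = T.α (P.sm ν s)) ∧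
    ∀ t s, P.sm (ν * t) s = P.sm ν (P.sm t s) ∧ P.c2 (ν * t) s = ν * P.c2 t s := by
  obtain ⟨D, h1, h2, h3, h4, h5⟩ := T3aAux.exists_D T hν
  have key : ∀ t s, D (T.α (P.sm t s)) = T.α (P.sm (ν * t) s) ∧ P.c2 (ν * t) s = ν * P.c2 t s := by
    intro t s
    have := congrArg D (P.xS t s)
    obtain ⟨a, ha⟩ := exists_α T (h5 _ (α_mem T (P.sm t s)))
    rw [map_mul, map_mul, map_mul, map_mul, map_inv, h1, h3, h4, P.xS, ha] at this
    rw [ha, (uniq3 this).1]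
    exact ⟨rfl, (uniq3 this).2.1⟩
  have h6 : ∀ s : T.S, D (T.α s) = T.α (P.sm ν s) := fun s => by
    simpa [P.sm_one] using (key 1 s).1
  exact ⟨D, h1, h2, h3, h4, h6, fun t s => ⟨α_inj T (by rw [← (key t s).1, h6]), (key t s).2⟩⟩

theorem c2_eq (t : F) (s : T.S) : P.c2 t s = t * P.c2 1 s := by
  rcases eq_or_ne t 0 with rfl | ht
  · rw [(P.sm_zero s).2, zero_mul]
  · obtain ⟨D, -, -, -, -, -, h⟩ := P.exists_D ht
    simpa using (h 1 s).2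

theorem sm_mul (t t' : F) (s : T.S) : P.sm (t * t') s = P.sm t (P.sm t' s) := by
  rcases eq_or_ne t 0 with rfl | ht
  · rw [zero_mul, (P.sm_zero _).1, (P.sm_zero _).1]
  · obtain ⟨D, -, -, -, -, -, h⟩ := P.exists_D ht
    exact (h t' s).1

theorem sm_hom (t : F) (s s' : T.S) : P.sm t (s * s') = P.sm t s * P.sm t s' := by
  rcases eq_or_ne t 0 with rfl | ht
  · simp [(P.sm_zero _).1]
  · obtain ⟨D, -, -, -, -, h, -⟩ := P.exists_D ht
    refine α_inj T ?_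
    rw [← h, Subgroup.coe_mul, Subgroup.coe_mul, α_mul, α_mul, map_mul, h, h]

theorem f_one (s : T.S) : P.f s 1 = 0 := y_eq_one T (by simpa [α_one] using (P.SA s 1).symm)

theorem f_sm (t : F) (s s' : T.S) : P.f s (P.sm t s') = t * P.f s s' := by
  rcases eq_or_ne t 0 with rfl | ht
  · rw [(P.sm_zero _).1, P.f_one, zero_mul]
  · obtain ⟨D, -, -, h1, h2, h3, -⟩ := P.exists_D ht
    have := congrArg D (P.SA s s')
    rw [map_mul, map_mul, map_mul, map_inv, h1, h2, h3, P.SA] at this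
    exact (uniq2 this).2

theorem c_eq_zero (s : T.S) (h : P.c2 1 s = 0) : s = 1 :=
  Subtype.ext (T.nondeg s s.2 (by
    rw [P.xS, h, y_zero, mul_one, mul_inv_cancel_right]; exact α_mem T _))

theorem c_one : P.c2 1 1 = 0 :=
  (uniq3 (a' := 1) (u' := 0) (s' := 1) ((P.xS 1 1).symm.trans (by simp [y_zero, α_one]))).2.1

theorem exists_c : ∃ s, P.c2 1 s ≠ 0 := by
  have := (Subgroup.nontrivial_iff_ne_bot _).2 T.ne_bot
  obtain ⟨s, hs⟩ := exists_ne (1 : T.S)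
  exact ⟨s, fun h => hs (P.c_eq_zero s h)⟩

theorem exists_D' {ν : F} (hν : ν ≠ 0) : ∃ D : G →* G, (∀ t, D (T.e 1 2 t) = T.e 1 2 (ν⁻¹ * t)) ∧
    (∀ s : T.S, D s = P.sm ν s) ∧ (∀ u, D (T.y (P.τ u)) = T.y (P.τ (ν * u))) ∧
    ∀ s : T.S, D (T.α s) = T.α s := by
  obtain ⟨D, h1, h2, h3, h4, h5, -⟩ := P.exists_D hν
  have key : ∀ g, (P.N.toMonoidHom.comp (D.comp P.N.symm.toMonoidHom)) (P.N g) = P.N (D g) :=
    fun g => by simp
  refine ⟨P.N.toMonoidHom.comp (D.comp P.N.symm.toMonoidHom), fun t => ?_, fun s => ?_, fun u => ?_,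
    fun s => ?_⟩
  · have := key (T.e 2 1 (-t))
    rwa [h2, P.Nw, P.Nw, neg_neg, mul_neg, neg_neg] at this
  · have := key (T.α s)
    rwa [h5, P.Nα, P.Nα] at this
  · have := key (T.y u)
    rwa [h4, P.Ny, P.Ny] at this
  · have h0 : T.α (T.α s) ∈ T.S := (T.n_A _).1 (α_mem T s)
    have := key (T.α (T.α s))
    rwa [h3 ⟨_, h0⟩, P.Nα] at this

theorem τ_key {ν : F} (hν : ν ≠ 0) {t u : F} {s : T.S} (h : P.τ u = t * P.c2 1 s) :
    P.τ (ν * u) = ν⁻¹ * t * P.c2 1 (P.sm ν s) := by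
  obtain ⟨D, h1, h2, h3, h4⟩ := P.exists_D' hν
  have := congrArg D (P.xS t s)
  rw [map_mul, map_mul, map_mul, map_mul, map_inv, h1, h2, h4, P.c2_eq, ← h, h3, P.xS,
    P.c2_eq] at this
  exact (uniq3 this).2.1.symm

theorem exists_σ : ∃ σ : F →+* F, ∀ t u, P.τ (t * u) = σ t * P.τ u := by
  obtain ⟨u₁, h₁⟩ := P.τ_surj 1
  obtain ⟨s, hs⟩ := P.exists_c
  have key : ∀ t u, P.τ (t * u) = P.τ (t * u₁) * P.τ u := by
    intro t u
    rcases eq_or_ne t 0 with rfl | ht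
    · simp
    · rw [P.τ_key ht (t := P.τ u / P.c2 1 s) (s := s) (by field_simp),
        P.τ_key ht (t := 1 / P.c2 1 s) (s := s) (by rw [h₁]; field_simp)]
      ring
  exact ⟨⟨⟨⟨fun t => P.τ (t * u₁), by simpa using h₁⟩, fun t t' => by
    simp only [mul_assoc]; exact key _ _⟩, by simp, fun t t' => by simp [add_mul]⟩, key⟩

variable {σ : F →+* F} (hσ : ∀ t u, P.τ (t * u) = σ t * P.τ u)
include hσ

theorem c_sm (t : F) (s : T.S) : P.c2 1 (P.sm t s) = t * σ t * P.c2 1 s := by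
  rcases eq_or_ne t 0 with rfl | ht
  · rw [(P.sm_zero _).1, P.c_one]; ring
  · obtain ⟨u, hu⟩ := P.τ_surj (P.c2 1 s)
    have := P.τ_key ht (t := 1) (u := u) (s := s) (by rw [hu, one_mul])
    rw [hσ, hu] at this
    rw [mul_assoc, this]
    field_simp

theorem τ_τ (u : F) : P.τ (P.τ u) = u := by
  obtain ⟨s, hs⟩ := P.exists_c
  obtain ⟨t, rfl⟩ : ∃ t, u = t * P.c2 1 s := ⟨u / P.c2 1 s, by field_simp⟩
  have := congrArg P.N (P.wA t s)
  rw [map_mul, map_mul, map_mul, map_mul, map_inv, P.Nw, neg_neg, (P.neg_one_aux s).1, P.Nα,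
    (P.neg_one_aux _).1, P.Ny, P.xS] at this
  have h1 := (uniq3 this).2.1
  rw [P.c2_eq, P.c_sm hσ, P.c2_eq t s] at h1
  rw [← h1]; simp

theorem σ_σ (u : F) : σ (σ u) = u := by
  have := P.τ_τ hσ (u * 1)
  rwa [hσ, hσ, P.τ_τ hσ, mul_one, mul_one] at this

omit hσ in
theorem z_zero : P.ζ 1 0 = 1 :=
  (uniq2 (a' := 1) (u' := 0) ((P.xY 1 0).symm.trans (by simp [y_zero, α_one]))).1

theorem ζ_eq (t u : F) : P.ζ t u = P.ζ 1 (σ t * u) := by
  rcases eq_or_ne t 0 with rfl | ht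
  · rw [map_zero, zero_mul, P.z_zero]
    exact (uniq2 (a' := 1) (u' := u) ((P.xY 0 u).symm.trans (by simp [x_zero, α_one]))).1
  · obtain ⟨D, h1, -, h3, h4⟩ := P.exists_D' ht
    obtain ⟨v, rfl⟩ := P.τ_surj u
    have := congrArg D (P.xY t (P.τ v))
    rw [map_mul, map_mul, map_mul, map_inv, h1, h3, h4, P.xY, inv_mul_cancel₀ ht, hσ] at this
    exact (uniq2 this).1.symm

theorem sm_z (t u : F) : P.sm t (P.ζ 1 u) = P.ζ 1 (t * σ t * u) := by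
  rcases eq_or_ne t 0 with rfl | ht
  · rw [(P.sm_zero _).1, zero_mul, zero_mul, P.z_zero]
  · obtain ⟨D, h1, -, -, h4, h5, -⟩ := P.exists_D ht
    have := congrArg D (P.xY 1 u)
    rw [map_mul, map_mul, map_mul, map_inv, h1, h4, h5, P.xY, P.ζ_eq hσ, mul_one] at this
    rw [← (uniq2 this).1]
    congr 1; ring

omit hσ in
theorem z_add (u v : F) : P.ζ 1 (u + v) = P.ζ 1 u * P.ζ 1 v := by
  have h : T.e 1 2 1 * T.y (u + v) * (T.e 1 2 1)⁻¹ = (T.e 1 2 1 * T.y u * (T.e 1 2 1)⁻¹) *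
      (T.e 1 2 1 * T.y v * (T.e 1 2 1)⁻¹) := by rw [← y_add]; group
  rw [P.xY, P.xY, P.xY, mul_assoc, y_α', y_add, ← mul_assoc, ← α_mul] at h
  exact (uniq2 (a' := P.ζ 1 u * P.ζ 1 v) h).1

omit hσ in
theorem z_comm (u : F) (s : T.S) : P.ζ 1 u * s = s * P.ζ 1 u := by
  refine α_inj T ?_
  have h : T.α (P.ζ 1 u) = T.e 1 2 1 * T.y u * (T.e 1 2 1)⁻¹ * (T.y u)⁻¹ := by
    rw [P.xY, mul_inv_cancel_right]
  have h1 := T.c_xA 1 _ (α_mem T s)
  have h2 := (T.c_AY _ (α_mem T s) _ (y_mem T u)).symm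
  rw [Subgroup.coe_mul, Subgroup.coe_mul, α_mul, α_mul, h]
  exact (((h1.mul_left h2).mul_left h1.inv_left).mul_left h2.inv_left).eq

theorem sm_add (t t' : F) (s : T.S) :
    P.sm (t + t') s = P.sm t' s * P.ζ 1 (σ t * (t' * P.c2 1 s)) * P.sm t s := by
  have h : T.e 1 2 (t + t') * s * (T.e 1 2 (t + t'))⁻¹ =
      (T.e 1 2 t * T.α (P.sm t' s) * (T.e 1 2 t)⁻¹) * (T.e 1 2 t * T.y (P.c2 t' s) * (T.e 1 2 t)⁻¹) *
        (T.e 1 2 t * s * (T.e 1 2 t)⁻¹) := by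
    rw [← x_add]
    calc _ = T.e 1 2 t * (T.e 1 2 t' * s * (T.e 1 2 t')⁻¹) * (T.e 1 2 t)⁻¹ := by group
      _ = _ := by rw [P.xS]; group
  rw [P.xS, x_α, P.xY, P.xS, P.ζ_eq hσ, P.c2_eq t'] at h
  simp only [mul_assoc, y_α', y_add'] at h
  simp only [← mul_assoc, ← α_mul] at h
  rw [mul_assoc (σ t)] at h
  exact (uniq3 (a' := P.sm t' s * P.ζ 1 (σ t * (t' * P.c2 1 s)) * P.sm t s) h).1

omit hσ in
theorem c_mul (s s' : T.S) : P.c2 1 (s * s') = P.c2 1 s + P.c2 1 s' + P.f s s' := by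
  have h : T.e 1 2 1 * (s * s' : T.S) * (T.e 1 2 1)⁻¹ = (T.e 1 2 1 * s * (T.e 1 2 1)⁻¹) *
      (T.e 1 2 1 * s' * (T.e 1 2 1)⁻¹) := by rw [Subgroup.coe_mul]; group
  rw [P.xS, P.xS, P.xS, P.sm_one, P.sm_one, P.sm_one] at h
  simp only [mul_assoc, y_α', y_add', P.s_α', s_y'] at h
  rw [← mul_assoc, ← mul_assoc, ← α_mul, ← mul_assoc] at h
  rw [(uniq3 (a' := s * s') (s' := s * s') h).2.1]
  ring

omit hσ in
theorem f_mul_left (s s' s'' : T.S) : P.f (s * s') s'' = P.f s s'' + P.f s' s'' := by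
  have h := P.s_α (s * s') s''
  rw [Subgroup.coe_mul, mul_assoc, P.s_α, P.s_α', s_y', y_add', ← mul_assoc (T.α s''),
    ← mul_assoc (T.α s'')] at h
  exact (uniq3 (s := s * s') (s' := s * s') h).2.1.symm

omit hσ in
theorem f_mul_right (s s' s'' : T.S) : P.f s (s' * s'') = P.f s s' + P.f s s'' := by
  have h := P.s_α s (s' * s'')
  conv_lhs at h => rw [Subgroup.coe_mul, α_mul, P.s_α', P.s_α, y_α', y_add', ← mul_assoc, ← α_mul]
  rw [← mul_assoc, ← mul_assoc] at h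
  exact (uniq3 (a := s' * s'') h).2.1.symm

omit hσ in
theorem f_symm (s s' : T.S) : P.f s' s = P.τ (P.f s s') := by
  have h := congrArg P.N (P.s_α s s')
  rw [map_mul, map_mul, map_mul, P.Nα, P.Ny, (P.neg_one_aux s).1, s_y', P.s_α, P.f_sm, y_α',
    y_add', ← mul_assoc] at h
  have h' : T.α (P.sm (-1) s) * T.y 0 * s' = T.α (P.sm (-1) s) * s' := by rw [y_zero, mul_one]
  have := (uniq3 (h'.trans h)).2.1
  linear_combination this

omit hσ in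
theorem f_self (s : T.S) : P.f s s = P.c2 1 s + P.τ (P.c2 1 s) := by
  have := (P.neg_one_aux s).2
  rw [P.c2_eq, P.f_sm] at this
  linear_combination this

theorem c_z (u : F) : P.c2 1 (P.ζ 1 u) = u - P.τ u := by
  have h1 := congrArg P.N (P.xY (-1) (P.τ (-u)))
  rw [map_mul, map_mul, map_mul, map_inv, P.Nx, neg_neg, P.Ny, P.Nα, P.τ_τ hσ] at h1
  have h2 : T.e 1 2 1 * T.y (P.τ (-u)) * (T.e 1 2 1)⁻¹ =
      (T.e 2 1 1 * T.α (P.ζ (-1) (-u)) * (T.e 2 1 1)⁻¹) * (T.e 2 1 1 * T.y (-u) * (T.e 2 1 1)⁻¹) := by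
    calc _ = T.e 2 1 1 * (T.e 1 2 (-1) * T.y (-u) * (T.e 1 2 (-1))⁻¹) * (T.e 2 1 1)⁻¹ := by
          rw [← P.Ny, P.hN, stW, inv_one, ← x_inv, ← w_inv]; group
      _ = _ := by rw [P.xY]; group
  rw [h1, ← x_s_eq, P.xS, P.xY, P.ζ_eq hσ (-1) (-u), map_neg σ, map_one, neg_mul_neg, one_mul] at h2
  simp only [mul_assoc, s_y, s_y', y_add'] at h2
  rw [← mul_assoc] at h2
  have := (uniq3 (s := 1) (s' := P.ζ 1 u * P.ζ (-1) (P.τ (-u))) (by simpa using h2)).2.1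
  linear_combination -this

theorem f_z (s : T.S) (u : F) : P.f s (P.ζ 1 u) = 0 := by
  obtain ⟨s₀, hs⟩ := P.exists_c
  have := congrArg (P.f s) (P.sm_add hσ 1 (u / P.c2 1 s₀) s₀)
  rw [P.f_mul_right, P.f_mul_right, P.f_sm, P.f_sm, P.f_sm, map_one, one_mul,
    div_mul_cancel₀ _ hs] at this
  linear_combination -this

end Pre

end T3aAux

theorem T3.exists_coord {F G : Type*} [Field F] [Group G] (T : T3 F G) :
    ∃ Q : PQ F T.S, T.Coord Q := by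
  obtain ⟨P⟩ := T3aAux.nonempty_pre T
  obtain ⟨σ, hσ⟩ := P.exists_σ
  refine ⟨{
    sm := P.sm
    c := P.c2 1
    f := P.f
    z := P.ζ 1
    σ := { σ with invFun := σ, left_inv := P.σ_σ hσ, right_inv := P.σ_σ hσ }
    τ := P.τ
    τ_mul := hσ
    τ_τ := P.τ_τ hσ
    σ_σ := P.σ_σ hσ
    sm_one := P.sm_one
    sm_zero := fun s => (P.sm_zero s).1
    sm_mul := P.sm_mul
    sm_hom := P.sm_hom
    sm_add := P.sm_add hσ
    sm_z := P.sm_z hσ
    c_mul := P.c_mul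
    c_sm := P.c_sm hσ
    c_z := P.c_z hσ
    c_eq_zero := P.c_eq_zero
    f_mul_left := P.f_mul_left
    f_mul_right := P.f_mul_right
    f_sm := P.f_sm
    f_symm := P.f_symm
    f_self := P.f_self
    f_z := P.f_z hσ
    z_add := P.z_add
    z_comm := P.z_comm }, fun t s => ?_, fun t u => ?_, P.SA⟩
  · rw [P.xS, P.c2_eq]
  · rw [P.xY, P.ζ_eq hσ]
    rfl

end Cfsg.Lib.BLD
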