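import Cfsg.Agent.BLD.Rt2

/-! # Walks inside a half-apartment -/

set_option autoImplicit false
set_option linter.unusedSectionVars false

namespace Cfsg.Lib.BLD

open Cfsg.Lib.Chev

variable {ι A : Type} [Fintype ι] [DecidableEq ι] [DecidableEq A] {R : WeylData ι A}

namespace Walk

theorem up_ind {α : Type*} [Finite α] (f : α → ℤ) {Q : α → Prop}
    (h : ∀ x, (∀ y, f x < f y → Q y) → Q x) (x : α) : Q x :=
  (@wellFounded_gt α (Preorder.lift f).toLT (@Finite.to_wellFoundedGT α _ (Preorder.lift f))).induction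
    x h

theorem rc_s (k : ι) {b : A} (hb : b ∈ R.Φ) :
    R.rc (R.s k • b) = R.rc b - R.a k (R.rc b) • Pi.single k 1 := by
  rw [R.rc_smul _ hb, R.lin_s, R.sl_apply]

theorem inv_s (w : R.W) (k : ι) (r : A) : (w * R.s k)⁻¹ • r = R.s k • w⁻¹ • r := by
  rw [mul_inv_rev, R.s_inv, mul_smul]

theorem up {k : ι} {b : A} (hb : R.Pos b) (h : R.a k (R.rc b) < 0) : R.Pos (R.s k • b) ∧
    ∑ i, R.rc b i < ∑ i, R.rc (R.s k • b) i ∧ ∀ S, ¬ R.InJ S b → ¬ R.InJ S (R.s k • b) := by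
  have h1 : 0 < R.rc (R.s k • b) k := by
    have := hb.2 k
    simp only [rc_s k hb.1, Pi.sub_apply, Pi.smul_apply, Pi.single_eq_same, smul_eq_mul, mul_one,
      Pi.zero_apply] at this ⊢
    omega
  refine ⟨R.pos_of_coord_pos (R.smul_mem _ hb.1) h1, ?_, fun S hS h2 => hS ⟨hb.1, fun i hi => ?_⟩⟩
  · simp only [rc_s k hb.1, Pi.sub_apply, Pi.smul_apply, smul_eq_mul, Finset.sum_sub_distrib,
      ← Finset.mul_sum, Finset.sum_pi_single', Finset.mem_univ, if_true]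
    omega
  · have := h2.2 i hi
    by_cases e : i = k
    · exact absurd (e ▸ this) h1.ne'
    · simpa [rc_s k hb.1, e] using this

theorem fix {J : Set ι} {u : R.W} (hu : u ∈ R.WJ J) {k : ι} (hk : ¬ R.Pos (u • R.simple k)) {b : A}
    (hb : b ∈ R.Φ) (h1 : 0 ≤ R.a k (R.rc b)) (h2 : ∀ i ∈ J, 0 ≤ R.a i (R.rc (u • b))) :
    R.s k • b = b := by
  have hJ := R.inJ_smul hu (R.inJ_simple_iff.2 (R.mem_of_not_pos_of_mem_WJ hu hk))
  have h3 := (R.not_pos_iff hJ.1).1 hk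
  have h4 : R.d k * R.a k (R.rc b) ≤ 0 := by
    rw [← R.form_single, ← R.form_lin u, R.lin_single, ← R.rc_smul u hb]
    refine Finset.sum_nonpos fun i _ => ?_
    by_cases hi : i ∈ J
    · exact mul_nonpos_of_nonpos_of_nonneg (mul_nonpos_of_nonneg_of_nonpos (R.d_pos i).le (h3 i))
        (h2 i hi)
    · rw [hJ.2 i hi, mul_zero, zero_mul]
  have h5 : R.a k (R.rc b) = 0 := le_antisymm (nonpos_of_mul_nonpos_right h4 (R.d_pos k)) h1
  exact R.rc_inj _ (R.smul_mem _ hb) _ hb (by rw [rc_s k hb, h5, zero_smul, sub_zero])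

end Walk

open Walk

theorem walk {J : Set ι} {r : A} {P : R.W → Prop}
    (step : ∀ w ∈ R.WJ J, ∀ k ∈ J, Hf R r w → Hf R r (w * R.s k) →
      (∀ j ∈ J, R.C j k * R.C k j = 2 → Hf R r (w * R.s k * R.s j) → ¬ R.InJ {j, k} (w⁻¹ • r)) →
      P w → P (w * R.s k))
    {w₁ : R.W} (h₁ : w₁ ∈ R.WJ J) (h₂ : Hf R r w₁)
    (h₃ : ∀ j ∈ J, ∀ k ∈ J, R.C j k * R.C k j = 2 → ¬ R.InJ {j, k} (w₁⁻¹ • r)) (h₄ : P w₁) :
    ∀ w ∈ R.WJ J, Hf R r w → P w := by
  let NC : R.W → Prop := fun w => ∀ j ∈ J, ∀ k ∈ J, R.C j k * R.C k j = 2 → ¬ R.InJ {j, k} (w⁻¹ • r)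
  let Dm : R.W → Prop := fun w => ∀ k ∈ J, 0 ≤ R.a k (R.rc (w⁻¹ • r))
  let ht : R.W → ℤ := fun w => ∑ i, R.rc (w⁻¹ • r) i
  obtain ⟨w₀, a1, a2, a3, a4, a5⟩ : ∃ w ∈ R.WJ J, Hf R r w ∧ NC w ∧ P w ∧ Dm w := by
    revert h₁ h₂ h₃ h₄
    refine up_ind ht (Q := fun w => w ∈ R.WJ J → Hf R r w → NC w → P w →
      ∃ w ∈ R.WJ J, Hf R r w ∧ NC w ∧ P w ∧ Dm w) (fun w ih b1 b2 b3 b4 => ?_) w₁
    by_cases hd : Dm w
    · exact ⟨w, b1, b2, b3, b4, hd⟩
    · simp only [Dm, not_forall, not_le] at hd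
      obtain ⟨k, hk, hd⟩ := hd
      obtain ⟨c1, c2, c3⟩ := up b2 hd
      rw [← inv_s] at c1 c2 c3
      exact ih (w * R.s k) c2 (mul_mem b1 (R.s_mem_WJ hk)) c1
        (fun j hj l hl e => c3 _ (b3 j hj l hl e))
        (step w b1 k hk b2 c1 (fun j hj e _ => b3 j hj k hk e) b4)
  have lev : ∀ w' ∈ R.WJ J, Dm w' → P w' := fun w' b1 b2 => by
    induction hn : R.len (w₀⁻¹ * w') using Nat.strong_induction_on generalizing w₀ with
    | _ n ih =>
      by_cases e : w₀⁻¹ * w' = 1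
      · exact inv_mul_eq_one.1 e ▸ a4
      · obtain ⟨k, hk⟩ := R.exists_not_pos_of_ne_one (inv_ne_one.2 e)
        have hu := inv_mem (mul_mem (inv_mem a1) b1)
        have kJ := R.mem_of_not_pos_of_mem_WJ hu hk
        have f := fix hu hk a2.1 (a5 k kJ) (by simpa [smul_smul] using b2)
        rw [← inv_s] at f
        have c1 : Hf R r (w₀ * R.s k) := by rwa [Hf, f]
        refine ih _ ?_ (w₀ * R.s k) (mul_mem a1 (R.s_mem_WJ kJ)) c1 (by simpa only [NC, f] using a3)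
          (step w₀ a1 k kJ a2 c1 (fun j hj e _ => a3 j hj k kJ e) a4) (by simpa only [Dm, f] using a5) rfl
        rw [← hn, mul_inv_rev, R.s_inv, mul_assoc]
        exact R.len_s_mul_lt_iff.2 hk
  refine up_ind ht fun w ih b1 b2 => ?_
  by_cases hd : Dm w
  · exact lev w b1 hd
  · simp only [Dm, not_forall, not_le] at hd
    obtain ⟨k, hk, hd⟩ := hd
    obtain ⟨c1, c2, -⟩ := up b2 hd
    have m := mul_mem b1 (R.s_mem_WJ hk)
    have c3 : Hf R r (w * R.s k) := by rwa [Hf, inv_s]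
    have := step _ m k hk c3 (by rwa [R.mul_s_mul_s]) (fun j hj e h1 h2 => ?_)
      (ih _ (by simpa only [ht, inv_s] using c2) m c3)
    · rwa [R.mul_s_mul_s] at this
    rw [R.mul_s_mul_s, Hf, inv_s] at h1
    rw [inv_s, R.inJ_smul_iff (R.s_mem_WJ (by simp))] at h2
    rcases pos_inJ_B2 e b2 h2 with h | h | h | h <;> rw [h] at h1 hd c2
    · exact R.not_pos_s_smul_simple j h1
    · rw [s_s_B2 (mul_comm (R.C j k) _ ▸ e)] at c2
      exact lt_irrefl _ c2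
    · rw [rc_s k (R.simple_mem j), R.rc_simple, map_sub, map_smul, R.a_single, R.a_single, R.C_diag,
        smul_eq_mul] at hd
      rcases (C_of_mul_eq_two e).2 with h | h <;> omega
    · rw [R.rc_simple, R.a_single, R.C_diag] at hd
      omega

end Cfsg.Lib.BLD
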